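import Cfsg.Agent.H6.Clifford
import Cfsg.Agent.H5.Equiv
import Cfsg.Agent.H5.Central
import Cfsg.Agent.H5.Column
import Cfsg.Agent.S0900

/-! Groups with bounded irreducible character degrees (`Bd G b`): characters of subgroups of the
maximal degree extend and vanish off the core; abelian subgroup of index at most `(b!)²`. -/

namespace H2.Bdg

open H5 H6 Cfsg
open scoped ComplexConjugate commutatorElement

universe u

/-- all irreducible character degrees are at most `b` -/
def Bd (G : Type*) [Group G] (b : ℕ) : Prop := ∀ χ, IsIrrCharacter G χ → charDegree χ ≤ b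

variable {G : Type*} [Group G] {b : ℕ}

theorem Bd.of_surj {Q : Type*} [Group Q] (h : Bd G b) (f : G →* Q) (hf : Function.Surjective f) :
    Bd Q b := fun χ hχ => by
  have := h _ (hχ.comp_surjective f hf)
  simpa [charDegree] using this

theorem deg_le_of_constituent [Fintype G] {α χ : G → ℂ} (hα : IsCharacter G α)
    (hχ : IsIrrCharacter G χ) (h : classInner α χ ≠ 0) : charDegree χ ≤ charDegree α := by
  obtain ⟨n, hn⟩ := (hα.sub_irr hχ h).exists_apply_one
  rw [Pi.sub_apply, ← hα.coe_charDegree, ← hχ.coe_charDegree, sub_eq_iff_eq_add] at hn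
  have : charDegree α = n + charDegree χ := by exact_mod_cast hn
  omega

theorem exists_over [Fintype G] (H : Subgroup G) [Fintype H] {ψ : H → ℂ} (hψ : IsIrrCharacter H ψ) :
    ∃ χ, IsIrrCharacter G χ ∧ classInner (fun h : H => χ h) ψ ≠ 0 := by
  obtain ⟨χ, hχ, h⟩ := (hψ.isCharacter.indFun).exists_irr_constituent
    (ind_ne_zero H hψ.apply_one_ne_zero)
  refine ⟨χ, hχ, ?_⟩
  rwa [frobenius_reciprocity H ψ hχ.isClassFunction, Ne, classInner_eq_zero_comm] at h

theorem Bd.sub [Finite G] (h : Bd G b) (H : Subgroup G) : Bd H b := by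
  classical
  letI := Fintype.ofFinite G
  intro ψ hψ
  obtain ⟨χ, hχ, h1⟩ := exists_over H hψ
  exact (deg_le_of_constituent (hχ.isCharacter.restrict H) hψ h1).trans (h χ hχ)

theorem res_eq [Fintype G] (h : Bd G b) (H : Subgroup G) [Fintype H] {ψ : H → ℂ}
    (hψ : IsIrrCharacter H ψ) (hb : b ≤ charDegree ψ) {χ : G → ℂ} (hχ : IsIrrCharacter G χ)
    (h1 : classInner (fun h : H => χ h) ψ ≠ 0) : (fun h : H => χ h) = ψ := by
  refine eq_of_constituent_of_apply_one (hχ.isCharacter.restrict H) hψ h1 ?_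
  have h2 := deg_le_of_constituent (hχ.isCharacter.restrict H) hψ h1
  have h3 := h χ hχ
  have h4 : charDegree (fun h : H => χ h) = charDegree χ := rfl
  rw [← hψ.coe_charDegree, ← (hχ.isCharacter.restrict H).coe_charDegree]
  congr 1
  omega

theorem exists_ext [Finite G] (h : Bd G b) (H : Subgroup G) {ψ : H → ℂ}
    (hψ : IsIrrCharacter H ψ) (hb : b ≤ charDegree ψ) :
    ∃ χ, IsIrrCharacter G χ ∧ (fun h : H => χ h) = ψ := by
  classical
  letI := Fintype.ofFinite G
  obtain ⟨χ, hχ, h1⟩ := exists_over H hψ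
  exact ⟨χ, hχ, res_eq h H hψ hb hχ h1⟩

theorem inner_ebz [Fintype G] (H : Subgroup G) [Fintype H] (θ : H → ℂ) (f : G → ℂ) :
    classInner (extendByZero H θ) f = (H.index : ℂ)⁻¹ * classInner θ (fun h : H => f h) := by
  rw [classInner, classInner, sum_extendByZero_mul H θ (fun g => conj (f g)), ← mul_assoc,
    ← H.index_mul_card]
  push_cast
  rw [mul_inv]

theorem classFun_ebz [Finite G] (h : Bd G b) (H : Subgroup G) {ψ : H → ℂ}
    (hψ : IsIrrCharacter H ψ) (hb : b ≤ charDegree ψ) : IsClassFunction G (extendByZero H ψ) := by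
  classical
  letI := Fintype.ofFinite G
  have hi : (H.index : ℂ) ≠ 0 := by exact_mod_cast H.index_ne_zero_of_finite
  set Ψ := indFun H ψ with hΨ
  have hc : IsClassFunction G Ψ := isClassFunction_indFun H ψ
  have h1 : ∀ x : H, Ψ x = (∑ χ : IrrCharacter G, classInner Ψ χ) * ψ x := by
    intro x
    rw [hc.apply_eq_sum_irr, Finset.sum_mul]
    refine Finset.sum_congr rfl fun χ _ => ?_
    by_cases h0 : classInner Ψ χ = 0
    · rw [h0, zero_mul, zero_mul]
    · have h2 : classInner (fun h : H => (χ : G → ℂ) h) ψ ≠ 0 := by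
        rwa [hΨ, frobenius_reciprocity H ψ χ.2.isClassFunction, ← Ne, Ne,
          classInner_eq_zero_comm] at h0
      rw [← congrFun (res_eq h H hψ hb χ.2 h2) x]
  have h2 : (∑ χ : IrrCharacter G, classInner Ψ χ) = H.index := by
    have := h1 1
    rw [OneMemClass.coe_one, hΨ, indFun_apply_one] at this
    exact (mul_right_cancel₀ hψ.apply_one_ne_zero this).symm
  rw [h2] at h1
  have h3 : (fun x : H => Ψ x) = (H.index : ℂ) • ψ := funext h1
  set D := Ψ - (H.index : ℂ) • extendByZero H ψ with hD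
  have h4 : (fun x : H => D x) = 0 := by
    ext x
    simp [hD, h1, extendByZero_coe]
  have h5 : classInner D Ψ = 0 := by
    rw [hD, classInner_sub_left, classInner_smul_left, inner_ebz, h3]
    conv_lhs => rw [hΨ, frobenius_reciprocity H ψ hc, h3]
    field_simp
    ring
  have h6 : classInner D (extendByZero H ψ) = 0 := by
    rw [classInner_eq_zero_comm, inner_ebz, h4, mul_eq_zero]
    right
    rw [classInner_eq_zero_comm, classInner_zero_left]
  have h7 : D = 0 := by
    rw [← classInner_self_eq_zero]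
    conv_lhs => enter [2]; rw [hD]
    rw [classInner_sub_right, classInner_smul_right, h5, h6]; simp
  have h8 : extendByZero H ψ = (H.index : ℂ)⁻¹ • Ψ := by
    rw [hD, sub_eq_zero] at h7
    rw [h7, smul_smul, inv_mul_cancel₀ hi, one_smul]
  rw [h8]
  exact hc.smul _

theorem index_le_of_vanish [Finite G] {ψ : G → ℂ} (hψ : IsIrrCharacter G ψ) (L : Subgroup G)
    (h : ∀ g, g ∉ L → ψ g = 0) : L.index ≤ charDegree ψ ^ 2 := by
  classical
  letI := Fintype.ofFinite G
  have h1 := hψ.sum_norm_sq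
  have h2 : ∑ g, ‖ψ g‖ ^ 2 ≤ ∑ g : G, if g ∈ L then ((charDegree ψ : ℝ)) ^ 2 else 0 := by
    refine Finset.sum_le_sum fun g _ => ?_
    split_ifs with hg
    · rw [← hψ.isCharacter.norm_apply_one]
      exact pow_le_pow_left₀ (norm_nonneg _) (hψ.isCharacter.norm_le g) 2
    · rw [h g hg]; simp
  rw [h1, ← Finset.sum_filter, Finset.sum_const, nsmul_eq_mul, ← Fintype.card_subtype,
    ← Nat.card_eq_fintype_card, ← L.index_mul_card, mul_comm] at h2
  have h3 : (0 : ℝ) < Nat.card L := by exact_mod_cast Nat.card_pos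
  push_cast at h2
  have h4 := le_of_mul_le_mul_left h2 h3
  exact_mod_cast h4

theorem prime_le_of_vanish [Finite G] {ψ : G → ℂ} (hψ : IsIrrCharacter G ψ) (L : Subgroup G)
    [L.Normal] (hp : L.index.Prime) (h : ∀ g, g ∉ L → ψ g = 0) : L.index ≤ charDegree ψ := by
  classical
  letI := Fintype.ofFinite G
  obtain ⟨φ, hφ, h1⟩ := exists_irr_under (N := L) hψ
  rcases (Nat.dvd_prime hp).1 (Subgroup.index_dvd_of_le (le_inertia hφ.isClassFunction)) with
    h2 | h2
  · rw [Subgroup.index_eq_one] at h2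
    obtain ⟨e, -, he⟩ := (Cfsg.Agent.S0900.result L ψ hψ φ hφ h1).1.2
      ⟨h, fun g n => congrFun (inertia_eq_top_iff.1 h2 g) n⟩
    exact absurd ⟨e, by rw [← he, sq]⟩ hp.not_isSquare
  · have h3 := clifford_degree hψ hφ h1
    obtain ⟨e, he⟩ := (hψ.isCharacter.restrict L).exists_classInner_nat hφ.isCharacter
    rw [he, h2, ← hψ.coe_charDegree, ← hφ.coe_charDegree] at h3
    have h4 : charDegree ψ = e * L.index * charDegree φ := by exact_mod_cast h3
    exact Nat.le_of_dvd hψ.charDegree_pos ⟨e * charDegree φ, by rw [h4]; ring⟩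

theorem Bd.half [Finite G] (h : Bd G b) (K : Subgroup G) [K.Normal] (hK : ¬ commutator G ≤ K) :
    Bd K (b / 2) := by
  classical
  letI := Fintype.ofFinite G
  intro φ hφ
  by_contra hc
  obtain ⟨χ, hχ, h1⟩ := exists_irr_over (N := K) hφ
  have h3 := clifford_degree hχ hφ h1
  obtain ⟨e, he⟩ := (hχ.isCharacter.restrict K).exists_classInner_nat hφ.isCharacter
  rw [he, ← hχ.coe_charDegree, ← hφ.coe_charDegree] at h3
  have h4 : charDegree χ = e * (inertia φ).index * charDegree φ := by exact_mod_cast h3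
  have h5 := h χ hχ
  have h6 := hχ.charDegree_pos
  have h7 : charDegree χ = charDegree φ := by
    generalize e * (inertia φ).index = m at h4
    rcases m with _ | _ | m
    · omega
    · omega
    · nlinarith [Nat.div_add_mod b 2, Nat.mod_lt b two_pos]
  have h8 : (fun n : K => χ n) = φ := eq_of_constituent_of_apply_one (hχ.isCharacter.restrict K) hφ h1
    (by rw [← hφ.coe_charDegree, ← h7, hχ.coe_charDegree]; rfl)
  obtain ⟨g, hg, hgK⟩ := SetLike.not_le_iff_exists.1 hK
  obtain ⟨β, hβ, hβK, hβg⟩ := exists_irr_le_charKer_not_mem K hgK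
  have h9 := gallagher_irr hχ.isCharacter (by rw [h8]; exact hφ) hβ
    (fun n => apply_eq_of_mem_charKer (hβK n.2))
  have h10 := h _ h9
  have h11 : charDegree (β * χ) = charDegree β * charDegree χ := charDegree_eq_of_apply_one (by
    rw [Pi.mul_apply, ← hβ.coe_charDegree, ← hχ.coe_charDegree]; push_cast; rfl)
  have h12 : charDegree β ≠ 1 := fun h1 =>
    hβg (hβ.commutator_le_charKer_iff.2 (hβ.isCharacter.charDegree_eq_one_iff.1 h1) hg)
  have h13 := hβ.charDegree_pos
  have h14 : 2 ≤ charDegree β := by omega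
  rw [h11] at h10
  nlinarith [Nat.div_add_mod b 2, Nat.mod_lt b two_pos]

theorem solvable_of_four (G : Type u) [Group G] [Finite G] (h : Bd G 4) : Group.IsSolvable G := by
  refine isSolvable_of_simple_sections (fun G _ => Bd G 4) (fun G _ _ N _ h => h.sub N)
    (fun G _ _ N _ h => h.of_surj _ (QuotientGroup.mk'_surjective N)) ?_ G h
  intro G _ _ _ h
  by_cases hc : ∀ a b : G, a * b = b * a
  · exact Group.isSolvable_of_comm hc
  exfalso
  have hZ := center_eq_bot_of_isSimpleGroup hc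
  have key : ∀ g : G, g ≠ 1 → ∃ χ, IsIrrCharacter G χ ∧ charKer χ = ⊥ ∧
      (charDegree χ = 2 ∨ charDegree χ = 4) ∧ χ g ≠ 0 := by
    intro g hg
    obtain ⟨χ, hχ, h1, h2, h3⟩ := exists_irr_not_dvd_ne_zero (p := 3) (by norm_num) hg
    have hk := hχ.charKer_eq_bot_of_isSimpleGroup h1
    refine ⟨χ, hχ, hk, ?_, h3⟩
    have h4 := h χ hχ
    have h5 := hχ.charDegree_pos
    have h6 : charDegree χ ≠ 1 := fun h1 => hc fun a b => by
      have := hχ.commutator_le_charKer_iff.2 (hχ.isCharacter.charDegree_eq_one_iff.1 h1)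
        (Subgroup.commutator_mem_commutator (Subgroup.mem_top a) (Subgroup.mem_top b))
      rw [hk, Subgroup.mem_bot] at this
      exact commutatorElement_eq_one_iff_mul_comm.1 this
    omega
  have h2 : 2 ∣ Nat.card G := by
    obtain ⟨g, hg⟩ := exists_ne (1 : G)
    obtain ⟨χ, hχ, -, h1, -⟩ := key g hg
    refine Dvd.dvd.trans ?_ hχ.charDegree_dvd_card
    rcases h1 with h1 | h1 <;> rw [h1] <;> norm_num
  obtain ⟨P⟩ : Nonempty (Sylow 2 G) := inferInstance
  haveI : Nontrivial P := (Subgroup.nontrivial_iff_ne_bot _).2 (P.ne_bot_of_dvd_card h2)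
  haveI := P.isPGroup'.center_nontrivial
  obtain ⟨z, hz⟩ := exists_ne (1 : Subgroup.center P)
  have hz1 : ((z : P) : G) ≠ 1 := fun h => hz (Subtype.ext (Subtype.ext h))
  obtain ⟨χ, hχ, hk, h1, h3⟩ := key _ hz1
  have hle : (P : Subgroup G) ≤ Subgroup.centralizer {((z : P) : G)} := fun x hx => by
    rw [Subgroup.mem_centralizer_singleton_iff]
    exact congrArg Subtype.val (Subgroup.mem_center_iff.1 z.2 ⟨x, hx⟩)
  have hnd : ¬ 2 ∣ (Subgroup.centralizer {((z : P) : G)}).index := fun hd =>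
    P.not_dvd_index (hd.trans (Subgroup.index_dvd_of_le hle))
  have hco : Nat.Coprime 2 (Subgroup.centralizer {((z : P) : G)}).index :=
    (Nat.Prime.coprime_iff_not_dvd Nat.prime_two).2 hnd
  have hco' : (charDegree χ).Coprime (Subgroup.centralizer {((z : P) : G)}).index := by
    rcases h1 with h1 | h1 <;> rw [h1]
    · exact hco
    · exact hco.pow_left 2
  rcases hχ.eq_zero_or_mem_charCenter_of_coprime hco' with h4 | h4
  · exact h3 h4
  · rw [hχ.charCenter_eq_center hk, hZ, Subgroup.mem_bot] at h4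
    exact hz1 h4

theorem exists_prime_index (A : Type*) [CommGroup A] [Finite A] [Nontrivial A] :
    ∃ B : Subgroup A, B.index.Prime := by
  obtain ⟨B, hB, -⟩ := (eq_top_or_exists_le_coatom (⊥ : Subgroup A)).resolve_left bot_ne_top
  refine ⟨B, ?_⟩
  have h1 : B.index ≠ 1 := fun h => hB.1 (Subgroup.index_eq_one.1 h)
  haveI : Fact (B.index.minFac).Prime := ⟨Nat.minFac_prime h1⟩
  obtain ⟨x, hx⟩ := exists_prime_orderOf_dvd_card' (G := A ⧸ B) B.index.minFac (Nat.minFac_dvd _)
  have h2 : B < (Subgroup.zpowers x).comap (QuotientGroup.mk' B) := by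
    refine lt_of_le_of_ne (fun a ha => ?_) fun h => ?_
    · rw [Subgroup.mem_comap, QuotientGroup.mk'_apply, (QuotientGroup.eq_one_iff a).2 ha]
      exact one_mem _
    · obtain ⟨y, rfl⟩ := QuotientGroup.mk_surjective x
      have : y ∈ B := by rw [h]; exact Subgroup.mem_zpowers _
      rw [(QuotientGroup.eq_one_iff y).2 this, orderOf_one] at hx
      exact (Nat.minFac_prime h1).ne_one hx.symm
  have h3 : Subgroup.zpowers x = ⊤ := by
    have := hB.2 _ h2
    rw [eq_top_iff] at this ⊢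
    intro y _
    obtain ⟨y, rfl⟩ := QuotientGroup.mk_surjective y
    exact this (Subgroup.mem_top y)
  have h4 : B.index = B.index.minFac := by
    rw [← hx, ← Nat.card_zpowers, h3, Subgroup.card_top]; rfl
  rw [h4]; exact Nat.minFac_prime h1

/-- a subgroup of index at most `b²` with smaller degrees -/
def Step (G : Type*) [Group G] (b : ℕ) : Prop := ∃ H : Subgroup G, H.index ≤ b ^ 2 ∧ Bd H (b - 1)

theorem exists_big (h : ¬ Bd G (b - 1)) : ∃ ψ, IsIrrCharacter G ψ ∧ b ≤ charDegree ψ := by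
  simp only [Bd, not_forall, not_le] at h
  obtain ⟨ψ, hψ, h⟩ := h
  exact ⟨ψ, hψ, by omega⟩

variable {Q : Type*} [Group Q] [Finite G] [Finite Q] {π : G →* Q}

theorem case1 (h : Bd G b) (hπ : Function.Surjective π)
    (hQ : ∀ N : Subgroup Q, N.Normal → N ≠ ⊥ → commutator Q ≤ N) (hna : commutator Q ≠ ⊥)
    (hZ : Subgroup.center Q ≠ ⊥) : Step G b := by
  classical
  letI := Fintype.ofFinite G
  obtain ⟨⟨c, hc⟩, hc1⟩ := Subgroup.ne_bot_iff_exists_ne_one.1 hna
  obtain ⟨θ, hθ, hθc⟩ := exists_irr_not_mem_charKer (g := c) (fun h => hc1 (Subtype.ext h))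
  have hk : charKer θ = ⊥ := by
    by_contra h
    exact hθc (hQ _ hθ.isCharacter.normal_charKer h hc)
  have hθ1 : charDegree θ ≠ 1 := fun h1 =>
    hθc (hθ.commutator_le_charKer_iff.2 (hθ.isCharacter.charDegree_eq_one_iff.1 h1) hc)
  have hcz := hθ.charCenter_eq_center hk
  have van : ∀ x, x ∉ Subgroup.center Q → θ x = 0 := by
    intro x hx
    rw [Subgroup.mem_center_iff] at hx
    push Not at hx
    obtain ⟨y, hy⟩ := hx
    obtain ⟨lam, h1, h2⟩ := exists_centerHom hθ.apply_one_ne_zero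
    have hm : ⁅y, x⁆ ∈ charCenter θ := by
      rw [hcz]
      exact hQ _ inferInstance hZ
        (Subgroup.commutator_mem_commutator (Subgroup.mem_top y) (Subgroup.mem_top x))
    have h3 := h1 ⟨_, hm⟩ x
    have h4 : ⁅y, x⁆ * x = y * x * y⁻¹ := by rw [commutatorElement_def]; group
    simp only at h3
    rw [h4, hθ.isClassFunction x y] at h3
    by_contra h0
    have h5 : (lam ⟨_, hm⟩ : ℂ) = 1 := by
      apply mul_right_cancel₀ h0
      rw [← h3, one_mul]
    have h6 := (h2 ⟨_, hm⟩).1 (Units.ext h5)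
    rw [hk, Subgroup.mem_bot] at h6
    exact hy (commutatorElement_eq_one_iff_mul_comm.1 h6)
  have hi : (Subgroup.center Q).index = charDegree θ ^ 2 := by
    refine le_antisymm (index_le_of_vanish hθ _ van) ?_
    have := hθ.degree_sq_le_index
    rw [hcz, hθ.isCharacter.norm_apply_one] at this
    exact_mod_cast this
  set H := (Subgroup.center Q).comap π with hH
  have hHi : H.index = charDegree θ ^ 2 := by rw [hH, Subgroup.index_comap_of_surjective _ hπ, hi]
  refine ⟨H, hHi ▸ Nat.pow_le_pow_left (h.of_surj π hπ θ hθ) 2, ?_⟩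
  by_contra hb
  obtain ⟨ψ, hψ, hb⟩ := exists_big hb
  obtain ⟨χ, hχ, hχψ⟩ := exists_ext h H hψ hb
  have hα := hχ.isCharacter.mul (hθ.isCharacter.comp π)
  have hn : classInner (χ * fun x => θ (π x)) (χ * fun x => θ (π x)) = 1 := by
    rw [classInner_self]
    have h1 : ∑ g, ‖(χ * fun x => θ (π x)) g‖ ^ 2
        = ∑ g : G, if g ∈ H then (charDegree θ : ℝ) ^ 2 * ‖χ g‖ ^ 2 else 0 := by
      refine Finset.sum_congr rfl fun g _ => ?_
      rw [Pi.mul_apply, norm_mul]
      split_ifs with hg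
      · have : π g ∈ charCenter θ := by rw [hcz]; exact hg
        rw [hθ.mem_charCenter.1 this, hθ.isCharacter.norm_apply_one]; ring
      · rw [van _ hg]; simp
    have h2 : ∑ g : H, ‖χ g‖ ^ 2 = Nat.card H := by
      rw [← hψ.sum_norm_sq, ← hχψ]
    rw [h1, ← Finset.sum_filter, Finset.sum_subtype (p := fun g => g ∈ H) _ (by simp),
      ← Finset.mul_sum, h2, ← H.index_mul_card, hHi]
    have h3 : ((charDegree θ ^ 2 * Nat.card H : ℕ) : ℝ) ≠ 0 := by
      rw [← hHi, H.index_mul_card]; exact_mod_cast Nat.card_pos.ne'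
    rw [← Complex.ofReal_one]
    congr 1
    rw [inv_mul_eq_one₀ h3]
    push_cast
    rfl
  have h10 := h _ (hα.isIrr_of_classInner_self hn)
  have h11 : charDegree (χ * fun x => θ (π x)) = charDegree χ * charDegree θ :=
    charDegree_eq_of_apply_one (by
      rw [Pi.mul_apply, map_one, ← hθ.coe_charDegree, ← hχ.coe_charDegree]; push_cast; rfl)
  have h12 : charDegree χ = charDegree ψ := by rw [← hχψ]; rfl
  have h13 := hθ.charDegree_pos
  have h14 := hχ.charDegree_pos
  have h15 : 2 ≤ charDegree θ := by omega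
  rw [h11] at h10
  nlinarith

theorem small_class (h : Bd Q b) [Nontrivial Q] :
    ∃ x : Q, x ≠ 1 ∧ (Subgroup.centralizer {x}).index ≤ b ^ 2 := by
  classical
  by_contra hc
  push Not at hc
  letI := Fintype.ofFinite (ConjClasses Q)
  have h1 := Group.sum_card_conj_classes_eq_card Q
  rw [finsum_eq_sum_of_fintype, ← Finset.add_sum_erase _ _ (Finset.mem_univ (ConjClasses.mk 1))]
    at h1
  have h2 : (ConjClasses.mk (1 : Q)).carrier.ncard = 1 := by
    rw [ncard_carrier_mk, Subgroup.index_eq_one, eq_top_iff]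
    intro x _
    simp [Subgroup.mem_centralizer_singleton_iff]
  have h3 : (Finset.univ.erase (ConjClasses.mk (1 : Q))).card • (b ^ 2 + 1) ≤
      ∑ C ∈ Finset.univ.erase (ConjClasses.mk (1 : Q)), C.carrier.ncard := by
    refine Finset.card_nsmul_le_sum _ _ _ fun C hC => ?_
    obtain ⟨x, rfl⟩ := ConjClasses.mk_surjective C
    rw [ncard_carrier_mk]
    exact hc x fun hx => (Finset.mem_erase.1 hC).1 (by rw [hx])
  have h4 : ∑ χ : IrrCharacter Q, charDegree (χ : Q → ℂ) ^ 2 = Nat.card Q := by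
    have := sum_sq_degrees (G := Q)
    simp only [← fun χ : IrrCharacter Q => χ.2.coe_charDegree] at this
    exact_mod_cast this
  rw [← Finset.add_sum_erase _ _ (Finset.mem_univ (irrOne Q))] at h4
  have h5 : charDegree (irrOne Q : Q → ℂ) = 1 := charDegree_eq_of_apply_one (by simp [irrOne_apply])
  have h6 : ∑ χ ∈ Finset.univ.erase (irrOne Q), charDegree (χ : Q → ℂ) ^ 2 ≤
      (Finset.univ.erase (irrOne Q)).card • b ^ 2 :=
    Finset.sum_le_card_nsmul _ _ _ fun χ _ => Nat.pow_le_pow_left (h _ χ.2) 2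
  have h7 := card_irr_eq_card_conjClasses (G := Q)
  rw [Nat.card_eq_fintype_card, Nat.card_eq_fintype_card] at h7
  rw [Finset.card_erase_of_mem (Finset.mem_univ _), Finset.card_univ, smul_eq_mul] at h3 h6
  have h8 : 1 < Nat.card Q := Finite.one_lt_card
  rw [h7] at h6
  rw [h5] at h4
  rw [h2] at h1
  generalize Fintype.card (ConjClasses Q) - 1 = k at h3 h6
  rcases k with _ | k
  · omega
  · nlinarith

theorem case3 (h : Bd G b) (hπ : Function.Surjective π)
    (hQ : ∀ N : Subgroup Q, N.Normal → N ≠ ⊥ → commutator Q ≤ N) (hna : commutator Q ≠ ⊥)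
    (hC : Subgroup.centralizer (commutator Q : Set Q) = ⊥) : Step G b ∨ π.ker.index ≤ b ^ 4 := by
  haveI : Nontrivial Q := by
    obtain ⟨⟨c, hc⟩, hc1⟩ := Subgroup.ne_bot_iff_exists_ne_one.1 hna
    exact ⟨c, 1, fun h => hc1 (Subtype.ext h)⟩
  obtain ⟨x, hx1, hx⟩ := small_class (h.of_surj π hπ)
  set H := (Subgroup.centralizer {x}).comap π with hH
  have hHi : H.index ≤ b ^ 2 := by rwa [hH, Subgroup.index_comap_of_surjective _ hπ]
  by_cases hb : Bd H (b - 1)
  · exact Or.inl ⟨H, hHi, hb⟩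
  right
  obtain ⟨ψ, hψ, hb⟩ := exists_big hb
  have hcl := classFun_ebz h H hψ hb
  have hcore : (Subgroup.centralizer {x}).normalCore = ⊥ := by
    by_contra h0
    have h1 := (hQ _ inferInstance h0).trans (Subgroup.normalCore_le _)
    have : x ∈ Subgroup.centralizer (commutator Q : Set Q) := fun m hm =>
      Subgroup.mem_centralizer_singleton_iff.1 (h1 hm)
    rw [hC, Subgroup.mem_bot] at this
    exact hx1 this
  have van : ∀ a : H, a ∉ π.ker.subgroupOf H → ψ a = 0 := by
    intro a ha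
    by_contra h0
    apply ha
    rw [Subgroup.mem_subgroupOf, MonoidHom.mem_ker, ← Subgroup.mem_bot, ← hcore]
    intro y
    obtain ⟨g, rfl⟩ := hπ y
    have h1 := hcl a g
    rw [extendByZero_coe] at h1
    have h2 : g * a * g⁻¹ ∈ H := by
      by_contra h2
      rw [extendByZero_of_not_mem H ψ h2] at h1
      exact h0 h1.symm
    simpa [hH] using h2
  have h1 := index_le_of_vanish hψ _ van
  have h2 := Nat.pow_le_pow_left (h.sub H ψ hψ) 2
  have h3 : π.ker ≤ H := fun g hg => by
    rw [hH, Subgroup.mem_comap, MonoidHom.mem_ker.1 hg]; exact one_mem _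
  rw [← Subgroup.relIndex_mul_index h3, show b ^ 4 = b ^ 2 * b ^ 2 by ring]
  exact Nat.mul_le_mul (h1.trans h2) hHi

theorem frob (hQ : ∀ N : Subgroup Q, N.Normal → N ≠ ⊥ → commutator Q ≤ N) (hna : commutator Q ≠ ⊥)
    (hZ : Subgroup.center Q = ⊥) (hab : ∀ a ∈ commutator Q, ∀ c ∈ commutator Q, a * c = c * a) :
    ∀ k ∈ commutator Q, k ≠ 1 → ∀ g, k * g = g * k → g ∈ commutator Q := by
  have cm : ∀ a c : Q, a * c * a⁻¹ * c⁻¹ ∈ commutator Q := fun a c =>
    Subgroup.commutator_mem_commutator (Subgroup.mem_top a) (Subgroup.mem_top c)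
  have fix0 : ∀ x, (∃ m ∈ commutator Q, m * x ≠ x * m) →
      ∀ m ∈ commutator Q, m * x = x * m → m = 1 := by
    rintro x ⟨m0, hm0, hx⟩ m hm hmx
    have hN : (commutator Q ⊓ Subgroup.centralizer {x}).Normal := ⟨fun n hn g => by
      refine ⟨Subgroup.Normal.conj_mem inferInstance n hn.1 g, ?_⟩
      have h1 : n * x = x * n := Subgroup.mem_centralizer_singleton_iff.1 hn.2
      have h2 := hab n hn.1 _ (cm x⁻¹ g⁻¹)
      refine Subgroup.mem_centralizer_singleton_iff.2 ?_
      calc g * n * g⁻¹ * x = g * (n * x) * (x⁻¹ * g⁻¹ * x⁻¹⁻¹ * g⁻¹⁻¹) * g⁻¹ := by group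
        _ = g * x * (n * (x⁻¹ * g⁻¹ * x⁻¹⁻¹ * g⁻¹⁻¹)) * g⁻¹ := by rw [h1]; group
        _ = x * (g * n * g⁻¹) := by rw [h2]; group⟩
    by_contra h1
    have h2 := hQ _ hN (Subgroup.ne_bot_iff_exists_ne_one.2
      ⟨⟨m, hm, Subgroup.mem_centralizer_singleton_iff.2 hmx⟩, fun h => h1 (congrArg Subtype.val h)⟩)
    exact hx (Subgroup.mem_centralizer_singleton_iff.1 (h2 hm0).2)
  obtain ⟨x, hx⟩ : ∃ x, ∃ m ∈ commutator Q, m * x ≠ x * m := by
    by_contra hc
    push Not at hc
    apply hna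
    rw [eq_bot_iff, ← hZ]
    intro m hm
    exact Subgroup.mem_center_iff.2 fun g => (hc g m hm).symm
  have dec : ∀ y : Q, ∃ m ∈ commutator Q, (m⁻¹ * y) * x = x * (m⁻¹ * y) := by
    intro y
    let f : commutator Q → commutator Q := fun m => ⟨m * x * m⁻¹ * x⁻¹, cm _ _⟩
    have hf : Function.Injective f := by
      intro m m' h
      have h1 : (m : Q) * x * (m : Q)⁻¹ * x⁻¹ = m' * x * (m' : Q)⁻¹ * x⁻¹ := congrArg Subtype.val h
      have h2 := fix0 x hx ((m' : Q)⁻¹ * m) (mul_mem (inv_mem m'.2) m.2) (by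
        calc (m' : Q)⁻¹ * m * x = (m' : Q)⁻¹ * (m * x * (m : Q)⁻¹ * x⁻¹) * x * m := by group
          _ = x * ((m' : Q)⁻¹ * m) := by rw [h1]; group)
      exact Subtype.ext (inv_mul_eq_one.1 h2).symm
    obtain ⟨m, hm⟩ := Finite.surjective_of_injective hf ⟨_, cm y x⟩
    have h1 : (m : Q) * x * (m : Q)⁻¹ * x⁻¹ = y * x * y⁻¹ * x⁻¹ := congrArg Subtype.val hm
    refine ⟨m, m.2, ?_⟩
    calc (m : Q)⁻¹ * y * x = (m : Q)⁻¹ * (y * x * y⁻¹ * x⁻¹) * x * y := by group
      _ = x * ((m : Q)⁻¹ * y) := by rw [← h1]; group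
  intro k hk hk1 g hg
  by_contra hgM
  refine hk1 (fix0 g ?_ k hk hg)
  by_contra hc
  push Not at hc
  obtain ⟨m, hm, hmx⟩ := dec g
  have hc' : ∀ n ∈ commutator Q, n * (m⁻¹ * g) = (m⁻¹ * g) * n := fun n hn => by
    rw [← mul_assoc, hab n hn _ (inv_mem hm), mul_assoc, hc n hn, mul_assoc]
  have : m⁻¹ * g ∈ Subgroup.center Q := by
    rw [Subgroup.mem_center_iff]
    intro y
    obtain ⟨m', hm', hy⟩ := dec y
    set c := m⁻¹ * g
    set l := m'⁻¹ * y with hl
    have h1 : Commute (c * l * c⁻¹ * l⁻¹) x := by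
      have a1 : Commute c x := hmx
      have a2 : Commute l x := hy
      exact ((a1.mul_left a2).mul_left a1.inv_left).mul_left a2.inv_left
    have h2 := fix0 x hx _ (cm c l) h1
    have h3 : c * l = l * c := by
      calc c * l = (c * l * c⁻¹ * l⁻¹) * l * c := by group
        _ = l * c := by rw [h2, one_mul]
    have h4 : y = m' * l := by rw [hl]; group
    rw [h4, mul_assoc, ← h3, ← mul_assoc, hc' m' hm', mul_assoc]
  rw [hZ, Subgroup.mem_bot, inv_mul_eq_one] at this
  exact hgM (this ▸ hm)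

theorem case2 (h : Bd G b) (hπ : Function.Surjective π)
    (hQ : ∀ N : Subgroup Q, N.Normal → N ≠ ⊥ → commutator Q ≤ N) (hna : commutator Q ≠ ⊥)
    (hZ : Subgroup.center Q = ⊥) (hab : ∀ a ∈ commutator Q, ∀ c ∈ commutator Q, a * c = c * a) :
    Step G b := by
  classical
  letI := Fintype.ofFinite G
  letI := Fintype.ofFinite Q
  have hl : (commutator Q).index ≤ b := by
    obtain ⟨c, hc1⟩ := Subgroup.ne_bot_iff_exists_ne_one.1 hna
    obtain ⟨τ, hτ, hτc⟩ := exists_irr_not_mem_charKer hc1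
    have h1 := isIrr_indFun_of_fpf _ (frob hQ hna hZ hab) hτ (by
      rintro rfl
      exact hτc (by rw [charKer_one]; trivial))
    have h2 := h.of_surj π hπ _ h1
    have h3 : charDegree (indFun (commutator Q) τ) = (commutator Q).index * charDegree τ :=
      charDegree_eq_of_apply_one (by rw [indFun_apply_one, ← hτ.coe_charDegree]; push_cast; rfl)
    have h4 := hτ.charDegree_pos
    rw [h3] at h2
    nlinarith
  set M := (commutator Q).comap π with hM
  have hMi : M.index ≤ b := by rwa [hM, Subgroup.index_comap_of_surjective _ hπ]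
  by_cases hb : Bd M (b - 1)
  · exact ⟨M, hMi.trans (Nat.le_self_pow two_ne_zero b), hb⟩
  obtain ⟨ψ, hψ, hb⟩ := exists_big hb
  letI : CommGroup (commutator Q) := { (inferInstance : Group (commutator Q)) with
    mul_comm := fun a c => Subtype.ext (hab a a.2 c c.2) }
  let ρ : M →* commutator Q := (π.comp M.subtype).codRestrict _ fun a => a.2
  have hρ : Function.Surjective ρ := by
    rintro ⟨y, hy⟩
    obtain ⟨g, rfl⟩ := hπ y
    exact ⟨⟨g, hy⟩, rfl⟩
  have van : ∀ ψ : M → ℂ, IsIrrCharacter M ψ → b ≤ charDegree ψ → ∀ a : M, ρ a ≠ 1 → ψ a = 0 := by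
    intro ψ hψ hb a ha
    by_contra h0
    apply ha
    apply Subtype.ext
    show π a = 1
    rw [← Subgroup.mem_bot, ← hZ, Subgroup.mem_center_iff]
    intro y
    obtain ⟨g, rfl⟩ := hπ y
    have hm : g * a * g⁻¹ ∈ M := Subgroup.Normal.conj_mem inferInstance _ a.2 g
    have h1 := classFun_ebz h M hψ hb a g
    rw [extendByZero_coe, extendByZero_of_mem M ψ hm] at h1
    have h2 : ρ ⟨_, hm⟩ = ρ a := by
      rw [← CommGroup.forall_apply_eq_apply_iff (commutator Q) (M := ℂ)]
      intro lam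
      have h3 := classFun_ebz h M (hψ.mul_hom (lam.comp ρ)) (by simpa [charDegree] using hb) a g
      rw [extendByZero_coe, extendByZero_of_mem M _ hm, Pi.mul_apply, Pi.mul_apply, h1] at h3
      exact Units.ext (mul_left_cancel₀ h0 h3)
    have h3 : π (g * a * g⁻¹) = π a := congrArg Subtype.val h2
    rw [map_mul, map_mul, map_inv, mul_inv_eq_iff_eq_mul] at h3
    exact h3
  haveI : Nontrivial (commutator Q) := (Subgroup.nontrivial_iff_ne_bot _).2 hna
  obtain ⟨B, hB⟩ := exists_prime_index (commutator Q)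
  set L := B.comap ρ with hL
  have hLi : L.index = B.index := Subgroup.index_comap_of_surjective _ hρ
  have van' : ∀ ψ : M → ℂ, IsIrrCharacter M ψ → b ≤ charDegree ψ → ∀ a : M, a ∉ L → ψ a = 0 :=
    fun ψ hψ hb a ha => van ψ hψ hb a fun h1 => ha (by rw [hL, Subgroup.mem_comap, h1]; exact one_mem _)
  have hp : L.index ≤ b :=
    (prime_le_of_vanish hψ L (hLi ▸ hB) (van' ψ hψ hb)).trans (h.sub M ψ hψ)
  refine ⟨L.map M.subtype, by rw [Subgroup.index_map_subtype, sq]; exact Nat.mul_le_mul hp hMi, ?_⟩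
  refine Bd.of_surj (G := L) ?_ (L.equivMapOfInjective _ M.subtype_injective).toMonoidHom
    (MulEquiv.surjective _)
  by_contra hb'
  obtain ⟨η, hη, hb'⟩ := exists_big hb'
  obtain ⟨χ, hχ, hχη⟩ := exists_ext (h.sub M) L hη hb'
  have h1 := hχ.sum_norm_sq
  have h2 := hη.sum_norm_sq
  have h3 : ∑ g, ‖χ g‖ ^ 2 = ∑ g : M, if g ∈ L then ‖χ g‖ ^ 2 else 0 := by
    refine Finset.sum_congr rfl fun g _ => ?_
    split_ifs with hg
    · rfl
    · rw [van' χ hχ (by rw [← hχη] at hb'; exact hb') g hg]; simp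
  rw [h3, ← Finset.sum_filter, Finset.sum_subtype (p := fun g => g ∈ L) _ (by simp)] at h1
  rw [← hχη, h1, ← L.index_mul_card] at h2
  have h4 : L.index * Nat.card L = 1 * Nat.card L := by rw [one_mul]; exact_mod_cast h2
  exact hB.ne_one (hLi ▸ Nat.eq_of_mul_eq_mul_right Nat.card_pos h4)

theorem fact_ineq (b : ℕ) (hb : 5 ≤ b) : b ^ 2 * (b / 2).factorial ≤ b.factorial := by
  obtain ⟨c, rfl⟩ : ∃ c, b = c + 3 := ⟨b - 3, by omega⟩
  have h1 : ((c + 3) / 2).factorial ≤ c.factorial := Nat.factorial_le (by omega)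
  rw [Nat.factorial_succ, Nat.factorial_succ, Nat.factorial_succ]
  have h2 : c + 3 ≤ (c + 2) * (c + 1) := by nlinarith
  calc (c + 3) ^ 2 * ((c + 3) / 2).factorial ≤ (c + 3) * ((c + 2) * (c + 1)) * c.factorial := by
        rw [sq]; exact Nat.mul_le_mul (Nat.mul_le_mul_left _ h2) h1
    _ = _ := by ring

theorem main (b : ℕ) : ∀ (G : Type u) [Group G] [Finite G], Bd G b →
    ∃ A : Subgroup G, (∀ x ∈ A, ∀ y ∈ A, x * y = y * x) ∧ A.index ≤ b.factorial ^ 2 := by
  induction b using Nat.strong_induction_on with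
  | _ b ih =>
  intro G _ _ h
  have hb1 : 1 ≤ b := by
    have := h _ isIrrCharacter_one
    simpa [charDegree] using this
  have down : ∀ (H : Subgroup G) (c : ℕ), c < b → Bd H c →
      c.factorial ^ 2 * H.index ≤ b.factorial ^ 2 →
      ∃ A : Subgroup G, (∀ x ∈ A, ∀ y ∈ A, x * y = y * x) ∧ A.index ≤ b.factorial ^ 2 := by
    intro H c hc hH hle
    obtain ⟨A, hA, hAi⟩ := ih c hc H hH
    refine ⟨A.map H.subtype, ?_, ?_⟩
    · rintro _ ⟨x, hx, rfl⟩ _ ⟨y, hy, rfl⟩
      rw [← map_mul, hA x hx y hy, map_mul]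
    · rw [Subgroup.index_map_subtype]
      exact (Nat.mul_le_mul_right _ hAi).trans hle
  have step : Step G b →
      ∃ A : Subgroup G, (∀ x ∈ A, ∀ y ∈ A, x * y = y * x) ∧ A.index ≤ b.factorial ^ 2 := by
    rintro ⟨H, hi, hH⟩
    refine down H (b - 1) (by omega) hH ?_
    obtain ⟨c, rfl⟩ : ∃ c, b = c + 1 := ⟨b - 1, by omega⟩
    rw [Nat.factorial_succ, mul_pow, Nat.add_sub_cancel, mul_comm]
    exact Nat.mul_le_mul_right _ hi
  by_cases hG : commutator G = ⊥
  · refine ⟨⊤, fun x _ y _ => ?_, by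
      rw [Subgroup.index_top]; exact Nat.one_le_pow _ _ (Nat.factorial_pos b)⟩
    have := Subgroup.commutator_mem_commutator (Subgroup.mem_top x) (Subgroup.mem_top y)
    rw [← commutator_def, hG, Subgroup.mem_bot] at this
    exact commutatorElement_eq_one_iff_mul_comm.1 this
  obtain ⟨K, ⟨hKn, hK⟩, hmax⟩ := Set.Finite.exists_maximal
    (s := {K : Subgroup G | K.Normal ∧ ¬ commutator G ≤ K}) (Set.toFinite _)
    ⟨⊥, inferInstance, fun h => hG (le_bot_iff.1 h)⟩
  have hπ := QuotientGroup.mk'_surjective K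
  have hcm : commutator (G ⧸ K) = (commutator G).map (QuotientGroup.mk' K) := by
    rw [commutator_def, commutator_def, Subgroup.map_commutator,
      Subgroup.map_top_of_surjective _ hπ]
  have hQ : ∀ N : Subgroup (G ⧸ K), N.Normal → N ≠ ⊥ → commutator (G ⧸ K) ≤ N := by
    intro N hN hN0
    rw [hcm, Subgroup.map_le_iff_le_comap]
    by_contra hc
    have h1 : K ≤ N.comap (QuotientGroup.mk' K) := fun g hg => by
      rw [Subgroup.mem_comap, QuotientGroup.mk'_apply, (QuotientGroup.eq_one_iff g).2 hg]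
      exact one_mem _
    have h2 := hmax (y := N.comap (QuotientGroup.mk' K)) ⟨inferInstance, hc⟩ h1
    apply hN0
    rw [eq_bot_iff]
    intro y hy
    obtain ⟨g, rfl⟩ := hπ y
    exact (QuotientGroup.eq_one_iff g).2 (h2 hy)
  have hna : commutator (G ⧸ K) ≠ ⊥ := by
    rw [hcm, Ne, Subgroup.map_eq_bot_iff, QuotientGroup.ker_mk']
    exact hK
  by_cases hZ : Subgroup.center (G ⧸ K) = ⊥
  swap
  · exact step (case1 h hπ hQ hna hZ)
  by_cases hC : Subgroup.centralizer (commutator (G ⧸ K) : Set (G ⧸ K)) = ⊥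
  swap
  · exact step (case2 h hπ hQ hna hZ fun a ha c hc => hQ _ inferInstance hC hc a ha)
  rcases case3 h hπ hQ hna hC with h3 | h3
  · exact step h3
  rw [QuotientGroup.ker_mk'] at h3
  have hb5 : 5 ≤ b := by
    by_contra h5
    have hs := solvable_of_four (G ⧸ K) fun χ hχ => (h.of_surj _ hπ χ hχ).trans (by omega)
    have h1 := Group.IsSolvable.commutator_lt_of_ne_bot hna
    have h2 : ⁅commutator (G ⧸ K), commutator (G ⧸ K)⁆ = ⊥ := by
      by_contra h2
      exact absurd (hQ _ inferInstance h2) (not_le_of_gt h1)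
    rw [Subgroup.commutator_eq_bot_iff_le_centralizer, hC, le_bot_iff] at h2
    exact hna h2
  refine down K (b / 2) (by omega) (h.half K hK) ?_
  calc (b / 2).factorial ^ 2 * K.index ≤ (b / 2).factorial ^ 2 * b ^ 4 := Nat.mul_le_mul_left _ h3
    _ = (b ^ 2 * (b / 2).factorial) ^ 2 := by ring
    _ ≤ _ := Nat.pow_le_pow_left (fact_ineq b hb5) 2

end H2.Bdg
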