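import Cfsg.Agent.H1.Solv2
import Cfsg.Agent.H1.FTCor
import Cfsg.Agent.H2.FTCop
import Cfsg.Prelude.Def_SolvableStructure

/-! Hall complement systems `CS K L`, the Hall subgroups `CS.hall` they define, simultaneous conjugacy `CS.conj_in`,
system normalizers `SN K L` (`SN.nil`, `SN.mim`, `SN.avoid`), Carter subgroups `Car C L` (`carter_base`, `car_exists`,
`Car.conj`, `Car.norm_le`, `Car.mim`, `Car.sn_le`, `Car.exists_cs`), bridge `cs_top_iff`, `sn_top`. -/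

set_option autoImplicit false
set_option linter.unusedSectionVars false

namespace H2
open Cfsg Subgroup H18 H1
universe u
variable {G : Type u} [Group G] [Finite G] {A B C E H L P Q U V W : Subgroup G} {p q : ℕ} {π : Set ℕ} {g x : G}
  {K K' : Nat.Primes → Subgroup G}

/-- a Hall complement system of `L` -/
def CS (K : Nat.Primes → Subgroup G) (L : Subgroup G) : Prop := ∀ p : Nat.Primes, Hall {(p : ℕ)}ᶜ (K p) L
/-- the system normalizer in `L` -/
def SN (K : Nat.Primes → Subgroup G) (L : Subgroup G) : Subgroup G := L ⊓ ⨅ p, N(K p)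
/-- the `π`-subgroup of a complement system -/
def csHall (K : Nat.Primes → Subgroup G) (L : Subgroup G) (π : Set ℕ) : Subgroup G :=
  L ⊓ ⨅ (p : Nat.Primes) (_ : (p : ℕ) ∉ π), K p

theorem mem_SN : x ∈ SN K L ↔ x ∈ L ∧ ∀ p, x ∈ N(K p) := by simp [SN, mem_iInf]
theorem SN_le : SN K L ≤ L := inf_le_left
theorem SN_norm (p : Nat.Primes) : SN K L ≤ N(K p) := fun _ h => (mem_SN.1 h).2 p
theorem sn_top : SN K ⊤ = systemNormalizer K := top_inf_eq _
theorem csHall_le (p : Nat.Primes) (h : (p : ℕ) ∉ π) : csHall K L π ≤ K p :=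
  inf_le_right.trans (iInf₂_le p h)
theorem csHall_mono {ρ : Set ℕ} (h : π ⊆ ρ) : csHall K L π ≤ csHall K L ρ :=
  le_inf inf_le_left (le_iInf₂ fun p hp => csHall_le p fun e => hp (h e))
theorem norm_csHall (hL : A ≤ N(L)) (h : ∀ p, A ≤ N(K p)) : A ≤ N(csHall K L π) :=
  norm_inf hL (norm_iInf fun p => norm_iInf fun _ => h p)

theorem hall_compl_top_iff (hp : p.Prime) : Hall {p}ᶜ H ⊤ ↔ H.index = p ^ (Nat.card G).factorization p := by
  have e : Nat.card H * H.index = Nat.card G := H.card_mul_index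
  constructor
  · intro h
    obtain ⟨k, hk⟩ := PiNat.eq_pow (p := p) (n := H.index) (by simpa using h.idx.of_compl_compl) index_ne_zero_of_finite
    rw [← e, Nat.factorization_mul card_ne_zero' index_ne_zero_of_finite, hk]
    simp [Nat.factorization_eq_zero_of_not_dvd ((piNat_compl_iff hp).1 h.pi), hp.factorization_pow]
  · intro h
    refine ⟨le_top, (piNat_compl_iff hp).2 fun hd => ?_, by rw [relIndex_top_right, h]; exact (piNat_pow_self hp _).compl_compl⟩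
    have : p ^ ((Nat.card G).factorization p + 1) ∣ Nat.card G := by
      conv_rhs => rw [← e, h]
      rw [pow_succ, mul_comm]; exact Nat.mul_dvd_mul_right hd _
    exact Nat.pow_succ_factorization_not_dvd Nat.card_pos.ne' hp this

theorem cs_top_iff : CS K ⊤ ↔ IsComplementSystem K := forall_congr' fun p => hall_compl_top_iff p.2

theorem exists_cs (hs : Solv L) : ∃ K, CS K L := by
  choose K hK using fun p : Nat.Primes => hall_exists hs {(p : ℕ)}ᶜ
  exact ⟨K, hK⟩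

theorem CS.cj (h : CS K L) (hg : g ∈ L) : CS (fun p => cj g (K p)) L := fun p => (h p).cj_mem hg
theorem CS.mim {Q : Type*} [Group Q] {D : Subgroup G} {f : D →* Q} (h : CS K L) (hL : L ≤ D) :
    ∀ p : Nat.Primes, Hall {(p : ℕ)}ᶜ (mim f (K p)) (mim f L) := fun p => (h p).mim hL

theorem CS.hall (h : CS K L) (π : Set ℕ) : Hall π (csHall K L π) L := by
  refine ⟨inf_le_left, fun p hp hd => by_contra fun hπ => ?_, ?_⟩
  · exact (piNat_compl_iff hp).1 ((h ⟨p, hp⟩).pi.of_le (csHall_le ⟨p, hp⟩ hπ)) hd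
  obtain ⟨X, -, ⟨h1, h2, h3, h4⟩, hmin⟩ := exists_minimal_sub (A := L) (fun X => csHall K L π ≤ X ∧ X ≤ L ∧
    PiNat πᶜ (X.relIndex L) ∧ ∀ p : Nat.Primes, (p : ℕ) ∣ X.relIndex L → X ≤ K p)
    ⟨inf_le_left, le_rfl, by simpa using PiNat.one, fun p hp => absurd (Nat.dvd_one.1 (by simpa using hp)) p.2.ne_one⟩
  have : X ≤ csHall K L π := by
    refine le_inf h2 (le_iInf₂ fun p hp => by_contra fun hn => ?_)
    have i1 : PiNat {(p : ℕ)} ((K p).relIndex L) := (h p).idx.of_compl_compl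
    have c : ((K p).relIndex L).Coprime (X.relIndex L) :=
      i1.coprime ((piNat_compl_iff p.2).2 fun hd => hn (h4 p hd))
    have e : (K p ⊓ X).relIndex L = (K p).relIndex L * X.relIndex L := by
      rw [← relIndex_tower inf_le_right h2, relIndex_inf_of_coprime h2 c]
    have := hmin (K p ⊓ X) ⟨le_inf (csHall_le p hp) h1, inf_le_right.trans h2, e ▸ (i1.of_p hp).mul h3, fun r hr => ?_⟩ inf_le_right
    · exact hn (this ▸ inf_le_left)
    rw [e] at hr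
    rcases (Nat.Prime.dvd_mul r.2).1 hr with h5 | h5
    · obtain rfl : r = p := Subtype.ext (i1.eq_of_dvd r.2 h5)
      exact inf_le_left
    · exact inf_le_right.trans (h4 r h5)
  exact le_antisymm this h1 ▸ h3

theorem CS.conj_in (hs : Solv L) (hV : V ⊴ L) (h : CS K L) (h' : CS K' L) (e : ∀ p, K p ⊔ V = K' p ⊔ V) :
    ∃ v ∈ V, ∀ p, H18.cj v (K p) = K' p := by
  classical
  have key : ∀ S : Finset Nat.Primes, ∃ v ∈ V, ∀ p ∈ S, H18.cj v (K p) = K' p := by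
    intro S
    induction S using Finset.induction_on with
    | empty => exact ⟨1, one_mem _, by simp⟩
    | insert q S hq ih =>
      obtain ⟨v, hv, hS⟩ := ih
      have h1 : Hall {(q : ℕ)}ᶜ (H18.cj v (K q)) (K' q ⊔ V) :=
        ((h q).cj_mem (hV.le hv)).of_le (cj_le_of_mem (e q ▸ le_sup_left) (mem_sup_right hv)) (sup_le (h' q).le hV.le)
      have h2 : Hall {(q : ℕ)}ᶜ (K' q) (K' q ⊔ V) := (h' q).of_le le_sup_left (sup_le (h' q).le hV.le)
      obtain ⟨y, hy, ey⟩ := hall_conj (hs.of_le (sup_le (h' q).le hV.le)) h2 h1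
      rw [sup_comm] at hy
      obtain ⟨w, hw, k, hk, rfl⟩ := (hV.nrm2 (h' q).le).mem_sup.1 hy
      set ρ : Set ℕ := {r | ∀ s ∈ S, (s : ℕ) ≠ r} with hρ
      have i1 := (h'.hall ρ).inf_nml hV
      have i2 := (h' q).inf_nml hV
      obtain ⟨i, hi, k', hk', rfl⟩ := exists_mul_of_coprime_relIndex i2.le i1.le
        ((i2.idx.of_compl_compl.of_p (π := ρ) fun s hs e => hq (Subtype.ext e ▸ hs)).coprime i1.idx) hw
      refine ⟨i⁻¹ * v, mul_mem (inv_mem hi.2) hv, fun p hp => ?_⟩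
      rcases Finset.mem_insert.1 hp with rfl | hp
      · rw [cj_mul, ey, mul_assoc, cj_mul, cj_inv_cj, cj_eq_self_of_mem (mul_mem hk'.1 hk)]
      · rw [cj_mul, hS p hp, cj_eq_self_of_mem (inv_mem (csHall_le (π := ρ) p (fun hh => hh p hp rfl) hi.1))]
  obtain ⟨v, hv, hS⟩ := key ((Nat.card L).primeFactors.subtype Nat.Prime)
  refine ⟨v, hv, fun p => ?_⟩
  by_cases hd : (p : ℕ) ∣ Nat.card L
  · exact hS p (Finset.mem_subtype.2 (Nat.mem_primeFactors.2 ⟨p.2, hd, card_ne_zero'⟩))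
  · have := (piNat_compl_iff p.2).2 hd
    rw [(h p).eq_self this, (h' p).eq_self this, cj_eq_self_of_mem (hV.le hv)]

theorem CS.conj (hs : Solv L) (h : CS K L) (h' : CS K' L) : ∃ v ∈ L, ∀ p, H18.cj v (K p) = K' p :=
  h.conj_in hs Nml.rfl h' fun p => by rw [sup_eq_right.2 (h p).le, sup_eq_right.2 (h' p).le]

theorem SN_cj (hg : g ∈ L) : SN (fun p => cj g (K p)) L = cj g (SN K L) := by
  ext x
  simp only [mem_SN, mem_cj, ← cj_N]
  exact and_congr_left fun _ => ⟨fun h => mul_mem (mul_mem (inv_mem hg) h) hg, fun h => by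
    simpa [mul_assoc] using mul_mem (mul_mem hg h) (inv_mem hg)⟩

theorem CS.sn_nil (h : CS K L) : Nil (SN K L) := by
  refine nil_of_sylow_norm fun p _ _ => ?_
  have n : SN K L ≤ N(csHall K L {p}) := norm_csHall (le_norm SN_le) SN_norm
  have h1 : Hall {p} (csHall K L {p}) (L ⊓ N(csHall K L {p})) := (h.hall {p}).of_le (le_inf inf_le_left le_N) inf_le_left
  exact ⟨_, h1.nml_inf inf_le_right (le_inf SN_le n), norm_inf n le_N⟩

theorem CS.sn_mim {Q : Type u} [Group Q] [Finite Q] {D : Subgroup G} {f : D →* Q} (h : CS K L) (hs : Solv L) (hL : L ≤ D) :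
    H18.mim f (SN K L) = SN (fun p => H18.mim f (K p)) (H18.mim f L) := by
  refine le_antisymm (le_inf (mim_mono SN_le) (le_iInf fun p => mim_norm (SN_norm p))) fun z hz => ?_
  obtain ⟨hz, hn⟩ := mem_SN.1 hz
  obtain ⟨x, hx, hxD, rfl⟩ := mem_mim.1 hz
  have hV : (L ⊓ mker f) ⊴ L := nml_inf_of_norm (hL.trans nml_mker.norm)
  have aux : ∀ A B : Subgroup G, A ≤ L → B ≤ L → H18.mim f A = H18.mim f B → A ≤ B ⊔ (L ⊓ mker f) := fun A B hA hB e => by
    rw [← Nrm2.modular_left (nml_mker.nrm2' (hB.trans hL)) hB]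
    exact le_inf hA ((mim_le_mim_iff (hA.trans hL) (hB.trans hL)).1 e.le)
  obtain ⟨v, hv, e⟩ := (h.cj hx).conj_in hs hV h fun p => by
    have e1 : H18.mim f (H18.cj x (K p)) = H18.mim f (K p) := by rw [mim_cj hxD, cj_eq_self (hn p)]
    exact le_antisymm (sup_le (aux _ _ ((h.cj hx) p).le (h p).le e1) le_sup_right)
      (sup_le (aux _ _ (h p).le ((h.cj hx) p).le e1.symm) le_sup_right)
  refine mem_mim.2 ⟨v * x, mem_SN.2 ⟨mul_mem hv.1 hx, fun p => mem_N_iff_cj.2 (by rw [cj_mul, e p])⟩,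
    mul_mem (hL hv.1) hxD, ?_⟩
  rw [mfun_mul (hL hv.1) hxD, (mem_mker.1 hv.2).2, one_mul]

theorem minNorm_inf_cent_hall (hs : Solv L) (hV : MinNorm V L) (hVL : V ≤ L) (hp : p.Prime) (hP : PiGrp {p} V)
    (hH : Hall {p}ᶜ H L) (hc : ¬ L ≤ C(V)) : V ⊓ C(H) = ⊥ := by
  have n1 : (L ⊓ C(V)) ⊴ L := nml_cent hV.norm
  obtain ⟨M, hM, -⟩ := exists_chief_above n1 Nml.rfl (lt_of_le_of_ne inf_le_left fun e => hc (e ▸ inf_le_right))
  have nM : M ⊴ L := hM.nmlU
  have t : V ⊓ C(M) = ⊥ := (hV.eq_bot_or inf_le_left (norm_inf hV.norm (norm_C nM.norm))).resolve_right fun e =>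
    hM.lt.not_ge (le_inf nM.le (cent_symm (e ▸ inf_le_right)))
  obtain ⟨r, hr, -, hi⟩ := hM.exists_prime (hs.of_le nM.le)
  have aux : ∀ X : Subgroup G, X ⊔ (L ⊓ C(V)) = M → V ⊓ C(X) = ⊥ := fun X e => by
    rw [eq_bot_iff, ← t, ← e]
    exact le_inf inf_le_left (cent_sup inf_le_right (cent_mono (cent_symm inf_le_right) inf_le_left le_rfl))
  by_cases e : r = p
  · subst e
    obtain ⟨P, hP'⟩ := exists_sylow hr M
    exact absurd (aux P (hP'.sup_of_idx hM.le hi)) (hP'.pi.meet_cent hP ((hP'.le.trans nM.le).trans hV.norm) hV.ne_bot)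
  · have := aux _ ((hH.inf_nml nM).sup_of_idx hM.le (hi.p'_of_ne e))
    exact eq_bot_iff.2 (this ▸ inf_le_inf_left _ (C_anti inf_le_left))

theorem CS.avoid (h : CS K L) (hs : Solv L) (hV : MinNorm V L) (hVL : V ≤ L) (hc : ¬ L ≤ C(V)) : V ⊓ SN K L = ⊥ := by
  obtain ⟨p, hp, -, he⟩ := hV.exists_elem (hs.of_le hVL)
  have hP := he.pi' hp
  have h1 := minNorm_inf_cent_hall hs hV hVL hp hP (h ⟨p, hp⟩) hc
  refine eq_bot_iff.2 (h1 ▸ le_inf inf_le_left ((inf_le_inf_left _ (SN_norm ⟨p, hp⟩)).trans ?_))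
  exact inf_N_le_C ((h ⟨p, hp⟩).le.trans hV.norm) ((h ⟨p, hp⟩).pi.inf_eq_bot' hP)

/-- `C` is a Carter subgroup of `L` -/
structure Car (C L : Subgroup G) : Prop where
  le : C ≤ L
  nil : Nil C
  self : L ⊓ N(C) ≤ C

theorem car_top_iff : Car C ⊤ ↔ IsCarterSubgroup C :=
  ⟨fun h => ⟨h.nil, le_antisymm (by simpa using h.self) le_N⟩, fun h => ⟨le_top, h.1, inf_le_right.trans h.2.le⟩⟩
theorem Car.of_le (h : Car C L) (h1 : C ≤ U) (h2 : U ≤ L) : Car C U := ⟨h1, h.nil, (inf_le_inf_right _ h2).trans h.self⟩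
theorem Car.cj (h : Car C L) (hg : g ∈ N(L)) : Car (H18.cj g C) L :=
  ⟨cj_le_of_mem_N h.le hg, h.nil.cj g, by
    have := cj_mono (g := g) h.self
    rwa [cj_inf, cj_N, cj_eq_self hg] at this⟩
theorem Car.eq_of_nil (h : Car C L) (h1 : C ≤ U) (h2 : U ≤ L) (hU : Nil U) : C = U :=
  hU.eq_of_norm_le h1 (h.of_le h1 h2).self

theorem carter_base (hp : p.Prime) (hV : V ⊴ U) (hP : PiGrp {p} V) (hn : Nil (U ⫽ V)) (hQ : Hall {p}ᶜ Q U) :
    Nil (U ⊓ N(Q)) ∧ (U ⊓ N(Q)) ⊔ V = U := by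
  have d : Q ⊓ V = ⊥ := hQ.pi.inf_eq_bot' hP
  have nQ : Nil Q := nil_of_nil_quo hn hV.norm hQ.le d
  constructor
  · obtain ⟨P, hP'⟩ := exists_sylow hp (U ⊓ N(Q))
    have hQ' : Hall {p}ᶜ Q (U ⊓ N(Q)) := hQ.of_le (le_inf hQ.le le_N) inf_le_left
    rw [← hP'.sup_compl hQ']
    refine hP'.pi.nil.sup_cent nQ (comm_eq_bot_iff.1 (eq_bot_iff.2 (d ▸ le_inf (comm_le_right (hP'.le.trans inf_le_right)) ?_)))
    exact comm_le_of_nil_quo hn hV.norm (hP'.le.trans inf_le_left) hQ.le (hP'.pi.coprime hQ.pi)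
  · have n1 : (Q ⊔ V) ⊴ U := by
      refine nml_of_quo hV.norm (sup_le hQ.le hV.le) le_sup_right ?_
      rw [quo_sup_self (hQ.le.trans hV.norm)]
      exact hn.hall_nml (hQ.mim hV.norm)
    have s : Solv (Q ⊔ V) := nQ.solv.sup_norm hP.solv (hQ.le.trans hV.norm)
    have := (piSep_of_solv s).frattini_arg n1 (hQ.of_le le_sup_left n1.le)
    refine le_antisymm (sup_le inf_le_left hV.le) (this.ge.trans (sup_le (sup_le ?_ le_sup_right) le_sup_left))
    exact le_sup_of_le_left (le_inf hQ.le le_N)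

theorem car_exists_aux (n : ℕ) : ∀ (G : Type u) [Group G] [Finite G] (L : Subgroup G), Nat.card L = n → Solv L →
    ∃ C, Car C L := by
  induction n using Nat.strong_induction_on with
  | _ n ih =>
  intro G _ _ L hn hs
  by_cases h1 : L = ⊥
  · exact ⟨⊥, bot_le, nil_bot, by simp [h1]⟩
  obtain ⟨p, V, hp, he, hV1, hV, -⟩ := exists_elem_nml hs h1 le_N
  obtain ⟨C, hC⟩ := ih _ (hn ▸ card_quo_lt hV hV1) _ (L ⫽ V) rfl hs.mim
  set U := qpre V C with hU
  have hUL : U ≤ L := qpre_le_of_le hV hC.le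
  have nV : V ⊴ U := nml_qpre_self
  obtain ⟨Q, hQ⟩ := hall_exists (hs.of_le hUL) {p}ᶜ
  obtain ⟨b1, b2⟩ := carter_base hp nV (he.pi' hp) (by rw [hU, quo_qpre]; exact hC.nil) hQ
  refine ⟨U ⊓ N(Q), inf_le_left.trans hUL, b1, le_inf ?_ ?_⟩
  · have n2 : L ⊓ N(U ⊓ N(Q)) ≤ N(U) := by
      conv_rhs => rw [← b2]
      exact norm_sup inf_le_right (inf_le_left.trans hV.norm)
    refine le_of_quo_le (inf_le_left.trans hV.norm) nV ?_
    rw [hU, quo_qpre]
    refine le_trans (le_inf (mim_mono inf_le_left) ?_) hC.self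
    have := mim_norm (f := coset V) n2
    rwa [hU, quo_qpre] at this
  · exact inf_le_right.trans (b1.norm_hall (hQ.of_le (le_inf hQ.le le_N) inf_le_left) le_rfl)

theorem car_exists (hs : Solv L) : ∃ C, Car C L := car_exists_aux _ G L rfl hs

theorem car_mim_of {Q : Type u} [Group Q] [Finite Q] {D : Subgroup G} {f : D →* Q} (h : Car C L) (hL : L ≤ D)
    (hn : L ⊓ N(C ⊔ (L ⊓ mker f)) ≤ C ⊔ (L ⊓ mker f)) : Car (mim f C) (mim f L) := by
  refine ⟨mim_mono h.le, h.nil.mim, ?_⟩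
  have hC := h.le.trans hL
  rw [← mim_sup_mker hC, ← mim_inf_N (sup_le hC mker_le) le_sup_right, mim_le_mim_iff (inf_le_left.trans hL) (sup_le hC mker_le)]
  refine le_trans (le_trans (le_inf inf_le_left ?_) hn) (sup_le (le_sup_of_le_left le_sup_left) (inf_le_right.trans le_sup_right))
  rw [← Nrm2.modular_left (nml_mker.nrm2' hC) h.le]
  exact norm_inf (inf_le_left.trans le_N) inf_le_right

theorem car_conj_aux (n : ℕ) : ∀ (G : Type u) [Group G] [Finite G] (L C E : Subgroup G), Nat.card L = n → Solv L →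
    Car C L → Car E L → ∃ g ∈ L, E = cj g C := by
  induction n using Nat.strong_induction_on with
  | _ n ih =>
  intro G _ _ L C E hn hs hC hE
  by_cases h1 : L = ⊥
  · exact ⟨1, one_mem _, by rw [le_bot_iff.1 (hC.le.trans h1.le), le_bot_iff.1 (hE.le.trans h1.le), cj_bot]⟩
  obtain ⟨p, V, hp, he, hV1, hV, -⟩ := exists_elem_nml hs h1 le_N
  have sub : ∀ U C E : Subgroup G, U < L → Car C U → Car E U → ∃ g ∈ U, E = cj g C := fun U C E hU =>
    ih _ (hn ▸ card_lt hU) G U C E rfl (hs.of_le hU.le)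
  have abn : ∀ U C : Subgroup G, Car C L → C ≤ U → U ≤ L → L ⊓ N(U) ≤ U := by
    intro U C hC h2 h3 g hg
    rcases h3.eq_or_lt with rfl | h4
    · exact hg.1
    obtain ⟨u, hu, e⟩ := sub U C _ h4 (hC.of_le h2 h3) ((hC.of_le h2 h3).cj hg.2)
    have : u⁻¹ * g ∈ C := hC.self ⟨L.mul_mem (L.inv_mem (h4.le hu)) hg.1, mem_N_iff_cj.2 (by rw [cj_mul, e, cj_inv_cj])⟩
    simpa using mul_mem hu (h2 this)
  have qu : ∀ C : Subgroup G, Car C L → Car (C ⫽ V) (L ⫽ V) := fun C hC =>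
    car_mim_of hC hV.norm (abn _ C hC le_sup_left (sup_le hC.le inf_le_left))
  obtain ⟨z, hz, e⟩ := ih _ (hn ▸ card_quo_lt hV hV1) _ (L ⫽ V) _ _ rfl hs.mim (qu C hC) (qu E hE)
  obtain ⟨y, hy, rfl⟩ := (mem_quo hV.norm).1 hz
  have hC' := hC.cj (le_N hy)
  rw [← mim_cj (hV.norm hy)] at e
  suffices ∃ g ∈ L, E = cj g (cj y C) by
    obtain ⟨g, hg, e⟩ := this
    exact ⟨g * y, mul_mem hg hy, by rw [e, cj_mul]⟩
  generalize cj y C = C' at hC' e
  have e2 : E ⊔ V = C' ⊔ V := by rw [← qpre_quo (hE.le.trans hV.norm), e, qpre_quo (hC'.le.trans hV.norm)]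
  have hU : C' ⊔ V ≤ L := sup_le hC'.le hV.le
  rcases hU.eq_or_lt with e3 | h4
  swap
  · obtain ⟨g, hg, e⟩ := sub _ _ _ h4 (hC'.of_le le_sup_left hU) (hE.of_le (e2 ▸ le_sup_left) hU)
    exact ⟨g, hU hg, e⟩
  have nq : Nil (L ⫽ V) := by rw [← e3, quo_sup_self (hC'.le.trans hV.norm)]; exact hC'.nil.mim
  have aux : ∀ X : Subgroup G, Car X L → X ⊔ V = L → Hall {p}ᶜ O[{p}ᶜ](X) L ∧ X = L ⊓ N(O[{p}ᶜ](X)) := by
    intro X hX e4
    have : Hall {p}ᶜ O[{p}ᶜ](X) L := by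
      refine hX.nil.pcore_hall.of_idx hX.le ?_
      rw [← e4, (hV.nrm2' hX.le).relIndex_sup']
      exact (he.pi' hp).relIndex.compl_compl
    exact ⟨this, hX.eq_of_nil (le_inf hX.le pcore_nml.norm) inf_le_left (carter_base hp hV (he.pi' hp) nq this).1⟩
  obtain ⟨a1, a2⟩ := aux C' hC' e3
  obtain ⟨b1, b2⟩ := aux E hE (e2.trans e3)
  obtain ⟨g, hg, e5⟩ := hall_conj hs a1 b1
  exact ⟨g, hg, by rw [b2, e5, ← cj_N, ← cj_eq_self_of_mem hg (H := L), ← cj_inf, ← a2]⟩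

theorem Car.conj (hC : Car C L) (hs : Solv L) (hE : Car E L) : ∃ g ∈ L, E = H18.cj g C := car_conj_aux _ G L C E rfl hs hC hE

theorem Car.norm_le (hC : Car C L) (hs : Solv L) (h2 : C ≤ U) (h3 : U ≤ L) : L ⊓ N(U) ≤ U := by
  intro g hg
  obtain ⟨u, hu, e⟩ := (hC.of_le h2 h3).conj (hs.of_le h3) ((hC.of_le h2 h3).cj hg.2)
  have : u⁻¹ * g ∈ C := hC.self ⟨L.mul_mem (L.inv_mem (h3 hu)) hg.1, mem_N_iff_cj.2 (by rw [cj_mul, e, cj_inv_cj])⟩
  simpa using mul_mem hu (h2 this)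

theorem Car.mim {Q : Type u} [Group Q] [Finite Q] {D : Subgroup G} {f : D →* Q} (h : Car C L) (hs : Solv L) (hL : L ≤ D) :
    Car (mim f C) (mim f L) := car_mim_of h hL (h.norm_le hs le_sup_left (sup_le h.le inf_le_left))

theorem exists_cs_red (hs : Solv L) (hC : C ≤ L) : ∃ K, CS K L ∧ CS (fun p => K p ⊓ C) C := by
  have : ∀ p : Nat.Primes, ∃ K, Hall {(p : ℕ)}ᶜ K L ∧ Hall {(p : ℕ)}ᶜ (K ⊓ C) C := fun p => by
    obtain ⟨X, hX⟩ := hall_exists (hs.of_le hC) {(p : ℕ)}ᶜ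
    obtain ⟨K, hK, h⟩ := hall_superset hs (hX.le.trans hC) hX.pi
    exact ⟨K, hK, hX.of_ge (le_inf h hX.le) inf_le_right hK.pi.inf_left⟩
  choose K h1 h2 using this
  exact ⟨K, h1, h2⟩

theorem car_sn_le_aux (n : ℕ) : ∀ (G : Type u) [Group G] [Finite G] (L C : Subgroup G) (K : Nat.Primes → Subgroup G),
    Nat.card L = n → Solv L → Car C L → CS K L → CS (fun p => K p ⊓ C) C → SN K L ≤ C := by
  induction n using Nat.strong_induction_on with
  | _ n ih =>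
  intro G _ _ L C K hn hs hC hK hr
  by_cases h1 : L = ⊥
  · exact SN_le.trans (h1 ▸ bot_le)
  obtain ⟨p, V, hp, he, hV1, hV, -⟩ := exists_elem_nml hs h1 le_N
  have h2 := ih _ (hn ▸ card_quo_lt hV hV1) _ (L ⫽ V) (C ⫽ V) (fun p => K p ⫽ V) rfl hs.mim (hC.mim hs hV.norm)
    (hK.mim hV.norm) fun r => ((hr r).mim (hC.le.trans hV.norm)).of_ge mim_inf_le inf_le_right (hK r).pi.mim.inf_left
  rw [← hK.sn_mim hs hV.norm, quo_le_quo_iff (SN_le.trans hV.norm) (hC.le.trans hV.norm)] at h2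
  have hU : C ⊔ V ≤ L := sup_le hC.le hV.le
  have h3 : Hall {p}ᶜ (K ⟨p, hp⟩ ⊓ C) (C ⊔ V) := by
    refine (hr ⟨p, hp⟩).of_idx le_sup_left ?_
    rw [(hV.nrm2' hC.le).relIndex_sup']
    exact (he.pi' hp).relIndex.compl_compl
  have h4 : K ⟨p, hp⟩ ⊓ (C ⊔ V) = K ⟨p, hp⟩ ⊓ C :=
    h3.eq_of_le (inf_le_inf_left _ le_sup_left) inf_le_right (hK ⟨p, hp⟩).pi.inf_left
  have h5 := (carter_base hp (hV.of_le le_sup_right hU) (he.pi' hp)
    (by rw [quo_sup_self (hC.le.trans hV.norm)]; exact hC.nil.mim) h3).1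
  rw [hC.eq_of_nil (le_inf le_sup_left (hC.nil.hall_nml (hr ⟨p, hp⟩)).norm) (inf_le_left.trans hU) h5]
  have h6 := norm_inf (SN_norm (K := K) (L := L) ⟨p, hp⟩) (le_norm h2)
  rw [h4] at h6
  exact le_inf h2 h6

theorem Car.sn_le (hC : Car C L) (hs : Solv L) (hK : CS K L) (hr : CS (fun p => K p ⊓ C) C) : SN K L ≤ C :=
  car_sn_le_aux _ G L C K rfl hs hC hK hr

theorem CS.exists_car_red (hK : CS K L) (hs : Solv L) : ∃ C, Car C L ∧ CS (fun p => K p ⊓ C) C := by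
  obtain ⟨C, hC⟩ := car_exists hs
  obtain ⟨K', h1, h2⟩ := exists_cs_red hs hC.le
  obtain ⟨g, hg, e⟩ := h1.conj hs hK
  exact ⟨_, hC.cj (le_N hg), fun p => by simpa only [← e p, ← cj_inf] using (h2 p).cj g⟩

theorem Car.eq_sn (hC : Car C L) (hV : V ⊴ L) (h1 : Nil V) (h2 : Nil (L ⫽ V)) (hK : CS K L) (hr : CS (fun p => K p ⊓ C) C) :
    C = SN K L := by
  have hs : Solv L := solv_of_quo hV.norm h2.solv h1.solv
  refine le_antisymm (le_inf hC.le (le_iInf fun p => ?_)) (hC.sn_le hs hK hr)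
  have e1 : C ⫽ V = L ⫽ V := (hC.mim hs hV.norm).eq_of_nil (mim_mono hC.le) le_rfl h2
  have e2 : K p ⫽ V = (K p ⊓ C) ⫽ V := by
    have h3 := (hr p).mim (f := coset V) (hC.le.trans hV.norm)
    rw [e1] at h3
    exact (h2.hall_eq ((hK p).mim hV.norm)).trans (h2.hall_eq h3).symm
  have hKC : K p ⊓ C ≤ L := inf_le_right.trans hC.le
  have e3 : K p = (K p ⊓ C) ⊔ (K p ⊓ V) := by
    rw [← (hV.nrm2' hKC).modular_left inf_le_left]
    exact (inf_eq_left.2 ((quo_le_quo_iff ((hK p).le.trans hV.norm) (hKC.trans hV.norm)).1 e2.le)).symm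
  rw [e3]
  exact norm_sup (hC.nil.hall_nml (hr p)).norm (h1.norm_hall ((hK p).inf_nml hV) (hC.le.trans hV.norm))

end H2
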