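import Cfsg.Agent.H2.Pgl
import Cfsg.Agent.H20.El1
import Cfsg.Agent.H11.ThC
import Cfsg.Prelude.Def_GeometricClasses

/-! Elusivity of `PSL_n(q)` on cosets of a subgroup `H` of `GL_n(q)`: `InG`/`InS` (similar to, `SL`-conjugate
into `H`), `All H r`, the bridges `all_sl`, `all_gl`, `all_ss`, split semisimple maps `Eig f s`,
index divisibility `idx_dvd`, the unstable multisets `nonstab`, derangement suppliers. -/

set_option autoImplicit false
set_option linter.unusedSectionVars false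
set_option linter.unreachableTactic false
set_option linter.unusedTactic false
set_option linter.unnecessarySeqFocus false
namespace H2.Eu
open H11 H20.El Module Polynomial Matrix Cfsg.Geo
open scoped MatrixGroups

universe u
variable {F : Type u} [Field F] {ι κ : Type} [Fintype ι] [DecidableEq ι] [Fintype κ] [DecidableEq κ]
  {V W : Type*} [AddCommGroup V] [Module F V] [AddCommGroup W] [Module F W]
  {H : Subgroup (GL ι F)} {r : ℕ}

/-- similar to an element of `H` -/
def InG (H : Subgroup (GL ι F)) (f : End F W) : Prop := ∃ h ∈ H, Sim f (mE h.1)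

/-- conjugate into `H` by a matrix of determinant one -/
def InS (H : Subgroup (GL ι F)) (f : End F (ι → F)) : Prop :=
  ∃ g : GL ι F, g.1.det = 1 ∧ ∃ h ∈ H, mE g.1 * mE h.1 = f * mE g.1

/-- every element of order `r` of `PSL` has a fixed point -/
def All (H : Subgroup (GL ι F)) (r : ℕ) : Prop := ∀ f : End F (ι → F), LinearMap.det f = 1 →
  (∃ z : F, f ^ r = z • 1) → (∀ z : F, f ≠ z • 1) → InS H f

theorem mem_sl {g : GL ι F} : g ∈ specialLinear ι F ↔ g.1.det = 1 := by
  rw [specialLinear, MonoidHom.mem_ker, Units.ext_iff]; rfl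

theorem inS_iff {x : GL ι F} : InS H (mE x.1) ↔ ∃ g ∈ specialLinear ι F, g⁻¹ * x * g ∈ H := by
  constructor
  · rintro ⟨g, h1, h, h2, h3⟩
    rw [← mE_mul, ← mE_mul, mE_inj, ← Units.val_mul, ← Units.val_mul, Units.val_inj] at h3
    exact ⟨g, mem_sl.2 h1, by rwa [mul_assoc, ← h3, inv_mul_cancel_left]⟩
  · rintro ⟨g, h1, h2⟩
    exact ⟨g, mem_sl.1 h1, _, h2, by
      rw [← mE_mul, ← mE_mul, ← Units.val_mul, ← Units.val_mul]; congr 2; group⟩

theorem all_gl : (∀ x ∈ specialLinear ι F,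
    (∃ z : F, ((x ^ r : GL ι F) : Matrix ι ι F) = z • (1 : Matrix ι ι F)) →
    (∀ z : F, (x : Matrix ι ι F) ≠ z • (1 : Matrix ι ι F)) →
    ∃ g ∈ specialLinear ι F, g⁻¹ * x * g ∈ H) ↔ All H r := by
  constructor
  · intro h f h1 h2 h3
    obtain ⟨A, rfl⟩ := mE_surj f
    rw [det_mE] at h1
    simp only [← mE_one, ← mE_smul, ← mE_pow, mE_inj, Ne] at h2 h3
    exact (inS_iff (x := GeneralLinearGroup.mkOfDetNeZero A (h1 ▸ one_ne_zero))).2
      (h _ (mem_sl.2 h1) (by simpa using h2) h3)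
  · intro h x h1 h2 h3
    refine inS_iff.1 (h (mE x.1) ((det_mE _).trans (mem_sl.1 h1)) ?_ ?_) <;>
      simp only [← mE_one, ← mE_smul, ← mE_pow, mE_inj, Ne]
    exacts [by simpa using h2, h3]

theorem range_toGL : (SpecialLinearGroup.toGL : SpecialLinearGroup ι F →* GL ι F).range =
    specialLinear ι F := by
  ext g
  exact ⟨fun ⟨x, h⟩ => mem_sl.2 (h ▸ x.2), fun h => ⟨⟨g.1, mem_sl.1 h⟩, Units.ext rfl⟩⟩

theorem all_sl : (∀ x : SpecialLinearGroup ι F,
    (∃ z : F, ((x ^ r : SpecialLinearGroup ι F) : Matrix ι ι F) = z • (1 : Matrix ι ι F)) →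
    (∀ z : F, (x : Matrix ι ι F) ≠ z • (1 : Matrix ι ι F)) →
    ∃ P : SpecialLinearGroup ι F, P⁻¹ * x * P ∈ H.comap
      (SpecialLinearGroup.toGL : SpecialLinearGroup ι F →* GL ι F)) ↔ All H r := by
  rw [← all_gl, ← range_toGL]
  constructor
  · rintro h _ ⟨x, rfl⟩ h2 h3
    obtain ⟨P, hP⟩ := h x (by simpa using h2) h3
    exact ⟨_, ⟨P, rfl⟩, by simpa using hP⟩
  · intro h x h2 h3
    obtain ⟨_, ⟨P, rfl⟩, hP⟩ := h _ ⟨x, rfl⟩ (by simpa using h2) h3
    exact ⟨P, by simpa using hP⟩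

theorem index_comap_toGL : (H.comap
    (SpecialLinearGroup.toGL : SpecialLinearGroup ι F →* GL ι F)).index =
      H.relIndex (specialLinear ι F) := by rw [Subgroup.index_comap, range_toGL]

theorem InG.sim {f : End F W} {g : End F V} (h : InG H f) (h' : Sim g f) : InG H g :=
  let ⟨k, h1, h2⟩ := h; ⟨k, h1, h'.trans h2⟩

theorem sim_of_mul {f : End F (ι → F)} {g : GL ι F} {A : Matrix ι ι F}
    (h : mE g.1 * mE A = f * mE g.1) : Sim f (mE A) := by
  obtain ⟨B, rfl⟩ := mE_surj f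
  rw [← mE_mul, ← mE_mul, mE_inj] at h
  exact (isConj_mat_iff.1 ⟨g, h⟩).symm

theorem exists_mul_of_sim {f : End F (ι → F)} {A : Matrix ι ι F} (h : Sim f (mE A)) :
    ∃ g : GL ι F, mE g.1 * mE A = f * mE g.1 := by
  obtain ⟨B, rfl⟩ := mE_surj f
  obtain ⟨g, hg⟩ := isConj_mat_iff.2 h.symm
  exact ⟨g, by rw [← mE_mul, ← mE_mul, hg.eq]⟩

theorem InS.inG {f : End F (ι → F)} (h : InS H f) : InG H f :=
  let ⟨_, _, k, h1, h2⟩ := h; ⟨k, h1, sim_of_mul h2⟩

theorem InG.inS' {f : End F (ι → F)} (h : InG H f)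
    (hd : ∀ a : F, a ≠ 0 → ∃ k ∈ H, ∃ b, DetC f b ∧ b * k.1.det = a) : InS H f := by
  obtain ⟨y, h1, h2⟩ := h
  obtain ⟨g, hg⟩ := exists_mul_of_sim h2
  obtain ⟨k, h3, b, ⟨c, h4, rfl⟩, h5⟩ := hd (g.1.det)⁻¹ (inv_ne_zero g.det_ne_zero)
  obtain ⟨A, rfl⟩ := mE_surj c
  rw [det_mE] at h5
  have h6 : A.det ≠ 0 := left_ne_zero_of_mul (h5 ▸ inv_ne_zero g.det_ne_zero)
  refine ⟨GeneralLinearGroup.mkOfDetNeZero A h6 * g * k, ?_, k⁻¹ * y * k,
    H.mul_mem (H.mul_mem (H.inv_mem h3) h1) h3, ?_⟩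
  · simp only [Units.val_mul, det_mul]
    rw [mul_right_comm]
    exact (congrArg (· * g.1.det) h5).trans (inv_mul_cancel₀ g.det_ne_zero)
  · rw [← mE_mul, ← Units.val_mul,
      show GeneralLinearGroup.mkOfDetNeZero A h6 * g * k * (k⁻¹ * y * k) =
        GeneralLinearGroup.mkOfDetNeZero A h6 * (g * y) * k by group]
    simp only [Units.val_mul, mE_mul]
    rw [hg, ← mul_assoc, ← mul_assoc, ← mul_assoc]
    exact congrArg (· * mE g.1 * mE k.1) h4.eq

theorem InG.inS {f : End F (ι → F)} (h : InG H f) (hd : ∀ a : F, DetC f a) : InS H f :=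
  h.inS' fun a _ => ⟨1, H.one_mem, a, hd a, by simp⟩

theorem InG.smul (hZ : scalars ι F ≤ H) {f : End F W} (h : InG H f) {c : F} (hc : c ≠ 0) :
    InG H (c • f) := by
  obtain ⟨y, h1, h2⟩ := h
  refine ⟨GeneralLinearGroup.scalar ι (Units.mk0 c hc) * y,
    H.mul_mem (hZ ((mem_scalars_iff _).2 ⟨Units.mk0 c hc, ?_⟩)) h1, ?_⟩
  · simp [smul_one_eq_diagonal]
  · convert h2.smul c using 1
    rw [← mE_smul]; congr 1
    simp [Units.val_mul, ← smul_one_eq_diagonal]

theorem InG.of_smul (hZ : scalars ι F ≤ H) {f : End F W} {c : F} (h : InG H (c • f)) (hc : c ≠ 0) :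
    InG H f := by
  simpa [smul_smul, hc] using h.smul hZ (inv_ne_zero hc)

theorem InS.smul (hZ : scalars ι F ≤ H) {f : End F (ι → F)} (h : InS H f) {c : F} (hc : c ≠ 0) :
    InS H (c • f) := by
  obtain ⟨g, h0, y, h1, h2⟩ := h
  refine ⟨g, h0, GeneralLinearGroup.scalar ι (Units.mk0 c hc) * y,
    H.mul_mem (hZ ((mem_scalars_iff _).2 ⟨Units.mk0 c hc, ?_⟩)) h1, ?_⟩
  · simp [smul_one_eq_diagonal]
  · rw [smul_mul_assoc, ← h2, ← mul_smul_comm, ← mE_smul]; congr 2
    simp [Units.val_mul, ← smul_one_eq_diagonal]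

section FD
variable [FiniteDimensional F V] [FiniteDimensional F W]

theorem ss_of_pow (h0 : (r : F) ≠ 0) {z : F} (hz : z ≠ 0) {f : End F V} (h : f ^ r = z • 1) : SS f :=
  ss_of_squarefree (separable_X_pow_sub_C z h0 hz).squarefree (by
    simp [h, Algebra.algebraMap_eq_smul_one])

theorem all_ss [Finite F] (h0 : (r : F) ≠ 0) : All H r ↔ ∀ f : End F (ι → F), LinearMap.det f = 1 →
    (∃ z : F, f ^ r = z • 1) → (∀ z : F, f ≠ z • 1) → InG H f := by
  refine ⟨fun h f h1 h2 h3 => (h f h1 h2 h3).inG, fun h f h1 h2 h3 => (h f h1 h2 h3).inS ?_⟩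
  obtain ⟨z, hz⟩ := h2
  have : Nontrivial (ι → F) := not_subsingleton_iff_nontrivial.1 fun _ => h3 0 (Subsingleton.elim _ _)
  exact (ss_of_pow h0 (ne_zero_of_pow (h1 ▸ one_ne_zero) (fun h => h0 (by simp [h])) hz h3) hz).detC

theorem not_all {f : End F (ι → F)} (h1 : LinearMap.det f = 1) {z : F} (h2 : f ^ r = z • 1)
    (h3 : ∀ z : F, f ≠ z • 1) (h4 : ¬ InG H f) : ¬ All H r := fun h => h4 (h f h1 ⟨z, h2⟩ h3).inG

theorem all_of' [Finite F] (hr : r.Prime) (h0 : (r : F) ≠ 0) (hZ : scalars ι F ≤ H)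
    (h1 : ∀ (g : End F (ι → F)) (c : F), g ^ r = 1 → (∀ z : F, g ≠ z • 1) →
      c ^ Fintype.card ι * LinearMap.det g = 1 → InG H g)
    (h2 : ∀ (g : End F (ι → F)) (z : F), Irreducible (X ^ r - C z) → g ^ r = z • 1 →
      LinearMap.det g = 1 → InG H g) : All H r := by
  refine (all_ss h0).2 fun f hd ⟨z, hz⟩ hn => ?_
  have h0 := ne_zero_of_pow (hd ▸ one_ne_zero) hr.ne_zero hz hn
  by_cases h : ∃ c, c ^ r = z
  · obtain ⟨c, rfl⟩ := h
    have hc : c ≠ 0 := fun h => h0 (by simp [h, hr.ne_zero])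
    refine (h1 (c⁻¹ • f) c (by rw [_root_.smul_pow, hz, smul_smul]; simp [h0]) (fun w hw =>
      hn (c * w) (by rw [← smul_smul, ← hw, smul_smul]; simp [hc])) ?_).of_smul hZ (inv_ne_zero hc)
    rw [LinearMap.det_smul, hd]; simp [hc]
  · exact h2 f z (X_pow_sub_C_irreducible_of_prime hr (not_exists.1 h)) hz hd

theorem sim_irr {P : F[X]} (hP : Irreducible P) (hm : P.Monic) {f : End F V} {g : End F W}
    (hf : aeval f P = 0) (hg : aeval g P = 0) (h : finrank F V = finrank F W) : Sim f g := by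
  have key : ∀ s : Multiset F[X], (∀ Q ∈ s, PP Q) → (∀ Q ∈ s, Q ∣ P) →
      s = Multiset.replicate s.card P := fun s h1 h2 => Multiset.eq_replicate_card.2 fun Q hQ => by
    refine eq_of_monic_of_associated (h1 Q hQ).monic hm
      ((hP.dvd_iff.1 (h2 Q hQ)).resolve_left fun hu => ?_).symm
    obtain ⟨π, e, h3, h4, rfl⟩ := h1 Q hQ
    exact h4.not_isUnit ((isUnit_pow_succ_iff).1 hu)
  have h1 := key _ (pp_ED f) (aeval_eq_zero_iff_ED.1 hf)
  have h2 := key _ (pp_ED g) (aeval_eq_zero_iff_ED.1 hg)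
  rw [finrank_eq_ED f, finrank_eq_ED g, h1, h2] at h
  simp only [Multiset.map_replicate, Multiset.sum_replicate, smul_eq_mul] at h
  rw [sim_iff_ED, h1, h2, Nat.eq_of_mul_eq_mul_right hP.natDegree_pos h]

theorem sim_irr' (hr : r ≠ 0) {z : F} (hz : Irreducible (X ^ r - C z)) {f : End F V} {g : End F W}
    (hf : f ^ r = z • 1) (hg : g ^ r = z • 1) (h : finrank F V = finrank F W) : Sim f g :=
  sim_irr hz (monic_X_pow_sub_C z hr) (by simp [hf, Algebra.algebraMap_eq_smul_one])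
    (by simp [hg, Algebra.algebraMap_eq_smul_one]) h

/-- diagonalizable with eigenvalues `s` -/
def Eig (f : End F V) (s : Multiset F) : Prop := ED f = s.map fun a => X - C a

theorem pp_lin (s : Multiset F) : ∀ P ∈ s.map fun a => X - C a, P.Monic ∧ Irreducible P := by
  intro P hP
  obtain ⟨a, -, rfl⟩ := Multiset.mem_map.1 hP
  exact ⟨monic_X_sub_C a, irreducible_X_sub_C a⟩

theorem exists_eig {s : Multiset F} (h : s.card = finrank F V) : ∃ f : End F V, Eig f s :=
  exists_ED_eq (fun P hP => .of_irr (pp_lin s P hP).1 (pp_lin s P hP).2) (by simpa using h)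

namespace Eig
variable {f : End F V} {g : End F W} {s t : Multiset F}

theorem ss (h : Eig f s) : SS f := fun P hP => (pp_lin s P (h ▸ hP)).2

theorem card (h : Eig f s) : s.card = finrank F V := by rw [finrank_eq_ED f, h]; simp

theorem charpoly (h : Eig f s) : f.charpoly = (s.map fun a => X - C a).prod := by
  rw [charpoly_eq_prod_ED, h]

theorem of_charpoly (h : SS f) (h' : f.charpoly = (s.map fun a => X - C a).prod) : Eig f s := by
  classical
  rw [Eig, h.ED_eq, h', normalizedFactors_prod_monic (pp_lin s)]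

theorem of_sim (h : Eig f s) (h' : Sim g f) : Eig g s := (sim_iff_ED.1 h').trans h

theorem sim (h : Eig f s) (h' : Eig g s) : Sim f g := sim_iff_ED.2 (h.trans h'.symm)

theorem eq_of_charpoly (h : Eig f s) (h' : f.charpoly = (t.map fun a => X - C a).prod) : s = t := by
  rw [← roots_multiset_prod_X_sub_C s, ← h.charpoly, h', roots_multiset_prod_X_sub_C]

theorem unique (h : Eig f s) (h' : Eig f t) : s = t := h.eq_of_charpoly h'.charpoly

theorem det (h : Eig f s) : LinearMap.det f = s.prod := by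
  rw [det_eq_ED, h, ← h.card, Multiset.map_map]
  simp only [Function.comp_def, coeff_sub, coeff_X_zero, coeff_C_zero, zero_sub]
  rw [Multiset.prod_map_neg, ← mul_assoc, ← mul_pow]; simp

theorem pow_iff (h : Eig f s) {z : F} : f ^ r = z • 1 ↔ ∀ a ∈ s, a ^ r = z := by
  have : f ^ r = z • 1 ↔ aeval f (X ^ r - C z) = 0 := by
    simp [Algebra.algebraMap_eq_smul_one, sub_eq_zero]
  rw [this, aeval_eq_zero_iff_ED, h, Multiset.forall_mem_map_iff]
  simp [dvd_iff_isRoot, sub_eq_zero]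

theorem pow_one_iff (h : Eig f s) : f ^ r = 1 ↔ ∀ a ∈ s, a ^ r = 1 := by
  rw [← h.pow_iff, one_smul]

theorem ne (h : Eig f s) {a b : F} (ha : a ∈ s) (hb : b ∈ s) (hab : a ≠ b) (z : F) : f ≠ z • 1 :=
  fun e => by
    have := (h.pow_iff (r := 1)).1 (by rwa [pow_one])
    exact hab (by simpa using (this a ha).trans (this b hb).symm)

theorem prodMap (h : Eig f s) (h' : Eig g t) : Eig (f.prodMap g) (s + t) := by
  rw [Eig, ED_prodMap, h, h', Multiset.map_add]

theorem finrank_ker [DecidableEq F] (h : Eig f s) (c : F) :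
    finrank F (LinearMap.ker (f - c • 1)) = s.count c := by
  have := finrank_ker_ED f (X - C c)
  rw [h, Multiset.map_map] at this
  rw [show f - c • 1 = aeval f (X - C c) by simp [Algebra.algebraMap_eq_smul_one], this,
    Multiset.count_eq_card_filter_eq, Multiset.card_eq_countP_add_countP (fun _ => True)]
  clear this h
  induction s using Multiset.induction_on with
  | empty => simp
  | cons a s ih =>
    rw [Multiset.map_cons, Multiset.sum_cons, ih]
    by_cases e : c = a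
    · subst e
      have := natDegree_gcd_pow (X_sub_C_ne_zero c) 1 1
      simp only [pow_one] at this
      simp; ring
    · simp [e, natDegree_gcd_of_coprime (isCoprime_X_sub_C_of_isUnit_sub (sub_ne_zero.2 e).isUnit)]

end Eig

theorem eig_diag (d : ι → F) : Eig (mE (diagonal d)) (Finset.univ.val.map d) := by
  classical
  refine .of_charpoly (ss_of_squarefree (p := ∏ a ∈ Finset.univ.image d, (X - C a))
    (separable_prod_X_sub_C_iff'.2 fun _ _ _ _ h => h).squarefree ?_)
    (by rw [charpoly_mE, Pg.charpoly_diag])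
  have : ∀ p : F[X], aeval (diagonal d) p = diagonal fun i => p.eval (d i) := fun p => by
    have := aeval_algHom_apply (diagonalAlgHom (n := ι) (α := F) F) d p
    simp only [diagonalAlgHom_apply] at this
    rw [this]; congr 1; ext i; simp
  rw [aeval_mE, this, mE_eq_zero, ← diagonal_zero]
  congr 1; ext i
  rw [eval_prod]
  exact Finset.prod_eq_zero (Finset.mem_image_of_mem d (Finset.mem_univ i)) (by simp)

theorem Eig.smul {f : End F V} {s : Multiset F} (h : Eig f s) (c : F) :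
    Eig (c • f) (s.map (c * ·)) := by
  obtain ⟨d, rfl⟩ := Pg.exists_fun_ms h.card
  refine .of_sim ?_ ((h.sim (eig_diag d)).smul c)
  rw [← mE_smul, ← diagonal_smul, Multiset.map_map]
  exact eig_diag _

theorem eig_smul_one (c : F) : Eig (c • 1 : End F V) (Multiset.replicate (finrank F V) c) := by
  obtain ⟨f, hf⟩ := exists_eig (V := V) (s := Multiset.replicate (finrank F V) c) (by simp)
  have := (hf.pow_iff (r := 1) (z := c)).2 fun a ha => by simpa using Multiset.eq_of_mem_replicate ha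
  rwa [← this, pow_one]

theorem exists_eig_of_pow (hr : r ≠ 0) {ζ : F} (hζ : IsPrimitiveRoot ζ r) {f : End F V}
    (h : f ^ r = 1) : ∃ s, Eig f s := by
  obtain ⟨A, hA⟩ := exists_mat_sim (ι := Fin (finrank F V)) f (by simp)
  have h1 : A ^ r = 1 := by
    have := ((hA.pow r).sub_one_pow 1).eq_zero_iff
    rwa [h, ← mE_pow, pow_one, pow_one, sub_self, eq_self, iff_true, sub_eq_zero, ← mE_one,
      mE_inj] at this
  obtain ⟨d, -, hd⟩ := Pg.exists_diag hr hζ h1
  exact ⟨_, (eig_diag d).of_sim (hA.symm.trans hd)⟩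

theorem Eig.dl {σ : F →+* F} (hσ : ∀ a, σ (σ a) = a) {f : End F V} {s : Multiset F} (h : Eig f s)
    (h' : Dl σ f) : s.map (fun a => (σ a)⁻¹) = s := by
  have h1 := h'.map_ED hσ h.ss
  have h2 : ∀ a ∈ s, a ≠ 0 := fun a ha e =>
    coeff_ne_zero_of_mem_ED h'.isUnit (P := X - C a) (h ▸ Multiset.mem_map_of_mem _ ha) (by simp [e])
  rw [h, Multiset.map_map] at h1
  refine Multiset.map_injective (fun a b (e : X - C a = X - C b) => C_injective (sub_right_injective e)) (.trans ?_ h1)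
  rw [Multiset.map_map]
  exact Multiset.map_congr rfl fun a ha => (dualP_X_sub_C (h2 a ha)).symm

theorem Eig.dl_of [Finite F] {σ : F →+* F} (hσ : ∀ a, σ (σ a) = a) {f : End F V} {s : Multiset F}
    (h : Eig f s) (h2 : ∀ a ∈ s, a ≠ 0) (h' : s.map (fun a => (σ a)⁻¹) = s) : Dl σ f := by
  refine h.ss.dl_of_ED hσ ((LinearMap.isUnit_iff_isUnit_det _).2 ?_) ?_
  · rw [h.det]; exact (Multiset.prod_ne_zero fun e => h2 0 e rfl).isUnit
  · rw [h, Multiset.map_map]
    conv_rhs => rw [← h', Multiset.map_map]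
    exact Multiset.map_congr rfl fun a ha => dualP_X_sub_C (h2 a ha)

omit [FiniteDimensional F V] [FiniteDimensional F W] in
theorem prim_neg_one (h2 : (2 : F) ≠ 0) : IsPrimitiveRoot (-1 : F) 2 := by
  have : orderOf (-1 : F) = 2 :=
    orderOf_eq_prime (by simp) fun e => h2 (by linear_combination -e)
  exact this ▸ IsPrimitiveRoot.orderOf _

/-- an involution -/
theorem eig_of_sq (h2 : (2 : F) ≠ 0) {f : End F V} (h : f ^ 2 = 1) :
    ∃ a b, Eig f (Multiset.replicate a (-1) + Multiset.replicate b 1) ∧ a + b = finrank F V ∧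
      LinearMap.det f = (-1) ^ a := by
  classical
  have h1 : (-1 : F) ≠ 1 := fun e => h2 (by linear_combination -e)
  obtain ⟨s, hs⟩ := exists_eig_of_pow two_ne_zero (prim_neg_one h2) h
  have h3 : s = Multiset.replicate (s.count (-1)) (-1) + Multiset.replicate (s.count 1) 1 := by
    ext a
    simp only [Multiset.count_add, Multiset.count_replicate]
    by_cases e : a ∈ s
    · rcases sq_eq_one_iff.1 (hs.pow_one_iff.1 h a e) with rfl | rfl <;> simp [h1, h1.symm]
    · rw [Multiset.count_eq_zero_of_notMem e]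
      split_ifs with e1 e2 e2 <;> simp_all
  refine ⟨_, _, h3 ▸ hs, by rw [← hs.card]; conv_rhs => rw [h3]; simp, ?_⟩
  rw [hs.det]; conv_lhs => rw [h3]; simp

/-- unipotent maps with parts at most `p` -/
theorem exists_unip (p : ℕ) [Fact p.Prime] [CharP F p] {μ : Multiset ℕ} (h : ∀ k ∈ μ, 0 < k ∧ k ≤ p)
    (h' : μ.sum = finrank F V) {k : ℕ} (hk : k ∈ μ) (h2 : 2 ≤ k) : ∃ f : End F V, Unip f ∧ JT f = μ ∧
      LinearMap.det f = 1 ∧ f ^ p = (1 : F) • 1 ∧ ∀ z : F, f ≠ z • 1 := by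
  obtain ⟨f, h3, rfl⟩ := exists_JT (fun k hk => (h k hk).1) h'
  refine ⟨f, h3, rfl, h3.det, ?_, ?_⟩
  · have := (pow_char_pow_eq_one_iff p (f := f) (j := 1)).2
      (h3.pow_eq_zero_iff.2 fun k hk => by simpa using (h k hk).2)
    simpa using this
  · obtain ⟨P, hP, rfl⟩ := Multiset.mem_map.1 hk
    exact not_scalar_of_mem hP h2

/-- a transvection -/
theorem exists_tv (p : ℕ) [hp : Fact p.Prime] [CharP F p] (h : 2 ≤ finrank F V) : ∃ f : End F V,
    LinearMap.det f = 1 ∧ f ^ p = (1 : F) • 1 ∧ (∀ z : F, f ≠ z • 1) ∧ (f - 1) ^ 2 = 0 ∧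
      finrank F (LinearMap.ker (f - 1)) = finrank F V - 1 ∧ finrank F (LinearMap.range (f - 1)) = 1 := by
  have := hp.out.two_le
  obtain ⟨f, h1, h2, h3, h4, h5⟩ := exists_unip (F := F) (V := V) p
    (μ := 2 ::ₘ Multiset.replicate (finrank F V - 2) 1) (fun k hk => by
      rcases Multiset.mem_cons.1 hk with rfl | hk
      · omega
      · rw [Multiset.eq_of_mem_replicate hk]; omega) (by simp only [Multiset.sum_cons, Multiset.sum_replicate, smul_eq_mul]; omega)
    (Multiset.mem_cons_self _ _) le_rfl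
  have h6 := h1.card_JT
  have h7 := (f - 1).finrank_range_add_finrank_ker
  rw [h2] at h6
  simp only [Multiset.card_cons, Multiset.card_replicate] at h6
  refine ⟨f, h3, h4, h5, h1.pow_eq_zero_iff.2 fun k hk => ?_, by omega, by omega⟩
  rcases Multiset.mem_cons.1 (h2 ▸ hk) with rfl | hk
  · omega
  · rw [Multiset.eq_of_mem_replicate hk]; omega

theorem unip_of_pow [Finite F] (p : ℕ) [hp : Fact p.Prime] [CharP F p] {f : End F V} {z : F}
    (hd : LinearMap.det f = 1) (h : f ^ p = z • 1) (hn : ∀ z : F, f ≠ z • 1) :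
    ∃ (c : F) (g : End F V), c ≠ 0 ∧ f = c • g ∧ Unip g ∧ (g - 1) ^ p = 0 ∧ g ≠ 1 := by
  obtain ⟨c, rfl⟩ := surjective_frobenius F p z
  have h0 := ne_zero_of_pow (hd ▸ one_ne_zero) hp.out.ne_zero h hn
  have hc : c ≠ 0 := fun e => h0 (by simp [e])
  have : (c⁻¹ • f - 1) ^ p = 0 := by
    have := (pow_char_pow_eq_one_iff p (f := c⁻¹ • f) (j := 1)).1 (by
      rw [pow_one, _root_.smul_pow, h, smul_smul, frobenius_def]; simp [hc])
    simpa using this
  exact ⟨c, c⁻¹ • f, hc, by simp [smul_smul, hc], ⟨p, this⟩, this, fun e => hn c (by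
    rw [← e]; simp [smul_smul, hc])⟩

theorem all_unip [Finite F] (p : ℕ) [hp : Fact p.Prime] [CharP F p] (hZ : scalars ι F ≤ H)
    (h : ∀ g : End F (ι → F), Unip g → (g - 1) ^ p = 0 → g ≠ 1 → InS H g) : All H p := by
  rintro f h1 ⟨z, h2⟩ h3
  obtain ⟨c, g, hc, rfl, h4, h5, h6⟩ := unip_of_pow p h1 h2 h3
  exact (h g h4 h5 h6).smul hZ hc

theorem detC_two [Finite F] [CharP F 2] [Nontrivial V] {g : End F V} (h : Unip g)
    (h' : (g - 1) ^ 2 = 0) (a : F) : DetC g a := by
  obtain ⟨P, hP⟩ := Multiset.exists_mem_of_ne_zero (ED_ne_zero g)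
  have h1 : P.natDegree ∈ JT g := Multiset.mem_map_of_mem _ hP
  have h2 := h.pow_eq_zero_iff.1 h' _ h1
  have h3 := JT_pos h1
  obtain e | e : P.natDegree = 1 ∨ P.natDegree = 2 := by omega
  · exact pow_one a ▸ h.detC (e ▸ h1) a
  · obtain ⟨b, rfl⟩ := surjective_frobenius F 2 a
    exact h.detC (e ▸ h1) b

end FD

section Num
variable [Finite F]

theorem eq_one_of_val (hr : r.Prime) {n : ℕ} (hn : n ≠ 0) {c : F} (h : (c ^ n) ^ r = 1)
    (hv : padicValNat r (Nat.card F - 1) ≤ padicValNat r n) : c ^ n = 1 := by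
  have := Fact.mk hr
  have := Fintype.ofFinite F
  have hc : c ≠ 0 := fun e => by simp [e, hn, hr.ne_zero] at h
  have h1 : orderOf c ∣ Nat.card F - 1 := orderOf_dvd_of_pow_eq_one (by
    rw [Nat.card_eq_fintype_card]; exact FiniteField.pow_card_sub_one_eq_one c hc)
  have h2 : orderOf c ∣ n * r := orderOf_dvd_of_pow_eq_one (by rwa [pow_mul])
  have h3 : Nat.card F - 1 ≠ 0 := by have := Finite.one_lt_card (α := F); omega
  refine orderOf_dvd_iff_pow_eq_one.1 ((Nat.dvd_iff_prime_pow_dvd_dvd _ _).2 fun l k hl h4 => ?_)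
  by_cases e : l = r
  · subst e
    exact (padicValNat_dvd_iff_le hn).2 (((padicValNat_dvd_iff_le h3).1 (h4.trans h1)).trans hv)
  · exact (Nat.Coprime.pow_left k ((Nat.coprime_primes hl hr).2 e)).dvd_of_dvd_mul_right (h4.trans h2)

theorem exists_prim {m : ℕ} (h : m ∣ Nat.card F - 1) : ∃ ω : F, IsPrimitiveRoot ω m := by
  obtain ⟨g, hg⟩ := IsCyclic.exists_ofOrder_eq_natCard (α := Fˣ)
  rw [Nat.card_units] at hg
  have h3 : Nat.card F - 1 ≠ 0 := by have := Finite.one_lt_card (α := F); omega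
  obtain ⟨k, hk⟩ := h
  have : IsPrimitiveRoot (g : F) (Nat.card F - 1) := by
    rw [← hg, ← orderOf_units]; exact IsPrimitiveRoot.orderOf _
  exact ⟨_, this.pow (Nat.pos_of_ne_zero h3) (hk.trans (mul_comm _ _))⟩

theorem exists_root (hr : r.Prime) {n : ℕ} (hn : n ≠ 0)
    (hv : padicValNat r n < padicValNat r (Nat.card F - 1)) : ∃ c : F, IsPrimitiveRoot (c ^ n) r := by
  have := Fact.mk hr
  obtain ⟨c, hc⟩ := exists_prim (F := F) (m := r ^ (padicValNat r n + 1))
    ((pow_dvd_pow r hv).trans pow_padicValNat_dvd)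
  obtain ⟨m, hm⟩ := pow_padicValNat_dvd (p := r) (n := n)
  have h1 : ¬ r ∣ m := fun ⟨l, hl⟩ => pow_succ_padicValNat_not_dvd (p := r) hn
    ⟨l, by rw [pow_succ, mul_assoc, ← hl, ← hm]⟩
  refine ⟨c, ?_⟩
  rw [hm, pow_mul]
  exact (hc.pow (pow_pos hr.pos _) (pow_succ _ _)).pow_of_coprime m
    ((Nat.Prime.coprime_iff_not_dvd hr).2 h1).symm

theorem relIndex_dvd_index' {G : Type*} [Group G] [Finite G] (H N : Subgroup G) [N.Normal] :
    H.relIndex N ∣ H.index := by
  obtain ⟨m, hm⟩ := Subgroup.relIndex_dvd_index_of_normal N H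
  have h1 := Subgroup.relIndex_inf_mul_relIndex H N ⊤
  have h2 := Subgroup.relIndex_inf_mul_relIndex N H ⊤
  simp only [inf_top_eq, Subgroup.relIndex_top_right] at h1 h2
  rw [inf_comm, ← h2, hm, mul_left_comm] at h1
  exact ⟨m, (Nat.eq_of_mul_eq_mul_left (Nat.pos_of_ne_zero Subgroup.index_ne_zero_of_finite) h1).symm⟩

theorem card_GL' : Nat.card (GL ι F) =
    Nat.card F ^ (Fintype.card ι).choose 2 * gO (Nat.card F) (Fintype.card ι) := by
  rw [Nat.card_congr (glEquiv (ι := ι) (F := F)).toEquiv, card_gl]; simp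

instance instNormalSL : (specialLinear ι F).Normal := MonoidHom.normal_ker _

theorem idx_dvd {K : Type*} [Group K] (φ : K →* GL ι F) (hφ : Function.Injective φ)
    (h : ∀ k, φ k ∈ H) : H.relIndex (specialLinear ι F) * Nat.card K ∣
      Nat.card F ^ (Fintype.card ι).choose 2 * gO (Nat.card F) (Fintype.card ι) := by
  rw [← card_GL', ← H.index_mul_card, Nat.card_congr (MonoidHom.ofInjective hφ).toEquiv]
  exact mul_dvd_mul (relIndex_dvd_index' _ _) (Subgroup.card_dvd_of_le (by rintro _ ⟨k, rfl⟩; exact h k))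

theorem idx_dvd' {K : Type*} [Group K] (φ : K →* SpecialLinearGroup ι F) (hφ : Function.Injective φ)
    (h : ∀ k, SpecialLinearGroup.toGL (φ k) ∈ H) : H.relIndex (specialLinear ι F) * Nat.card K ∣
      Nat.card (SpecialLinearGroup ι F) := by
  rw [← index_comap_toGL, ← Subgroup.index_mul_card (G := SpecialLinearGroup ι F) (H.comap _),
    Nat.card_congr (MonoidHom.ofInjective hφ).toEquiv]
  exact mul_dvd_mul_left _ (Subgroup.card_dvd_of_le (by rintro _ ⟨k, rfl⟩; exact h k))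

theorem ord_le (hr : r.Prime) (hrq : ¬ r ∣ Nat.card F) (h : r ∣ H.relIndex (specialLinear ι F)) :
    orderOf (Nat.card F : ZMod r) ≤ Fintype.card ι := by
  have := idx_dvd (H := H) (1 : Unit →* GL ι F) (Function.injective_of_subsingleton _)
    fun _ => H.one_mem
  obtain ⟨j, h1, h2, h3⟩ := ord_of_dvd (k := 0) hr Finite.one_lt_card hrq (Nat.zero_le _)
    (by simpa [gO] using this) h
  exact (Nat.le_of_dvd h1 h3).trans h2

theorem not_dvd_card (p : ℕ) [Fact p.Prime] [CharP F p] (hr : r.Prime) (h : r ≠ p) :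
    ¬ r ∣ Nat.card F := fun e => h ((dvd_card_iff p hr).1 e)

theorem two_ne_zero_iff : (2 : F) ≠ 0 ↔ Odd (Nat.card F) := by
  have := Fintype.ofFinite F
  rw [Nat.card_eq_fintype_card, Nat.odd_iff, ← Nat.cast_ofNat, Ne, ringChar.spec,
    ← Nat.mod_two_not_eq_zero, ← FiniteField.even_card_iff_char_two]
  obtain ⟨_, h, -⟩ := FiniteField.card F (ringChar F)
  rw [Nat.prime_dvd_prime_iff_eq h Nat.prime_two]

end Num

section Stab
variable [DecidableEq F]

theorem count_stab {M : Multiset F} {φ : F → F} (h : M.map φ = M) {a : F} (ha : a ∈ M) :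
    M.count (φ a) = M.count a := by
  conv_lhs => rw [← h]
  refine Multiset.count_map_eq_count φ M ?_ a ha
  have : Set.InjOn φ M.toFinset := Finset.card_image_iff.1 (by rw [← Multiset.toFinset_map, h])
  exact this.mono fun x hx => by simpa using hx

theorem nonstab' {ω t u : F} (hω : ω ≠ 1) {n : ℕ} (hn : 3 ≤ n) {φ : F → F} (h1 : φ 1 = t)
    (h2 : φ ω = t * u) (hu : u ≠ ω) :
    (Multiset.replicate (n - 1) 1 + {ω}).map φ ≠ Multiset.replicate (n - 1) 1 + {ω} := fun h => by
  have a1 := count_stab h (a := 1) (by simp [Multiset.mem_replicate]; omega)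
  have a2 := count_stab h (a := ω) (by simp)
  have c : ∀ x, (Multiset.replicate (n - 1) 1 + {ω} : Multiset F).count x =
      if x = 1 then n - 1 else if x = ω then 1 else 0 := fun x => by
    rw [Multiset.count_add, Multiset.count_replicate, Multiset.count_singleton]
    by_cases e : x = 1
    · simp [e, hω.symm]
    · simp [e, Ne.symm e]
  simp only [c, h1, h2, hω, if_true, if_false] at a1 a2
  have c1 : t = 1 := by split_ifs at a1 <;> first | omega | assumption
  rw [c1, one_mul] at a2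
  split_ifs at a2 <;> first | omega | contradiction

theorem nonstab (hr : r.Prime) (hr2 : r ≠ 2) {ω t u : F} (hω : IsPrimitiveRoot ω r) {n : ℕ} (hn : 3 ≤ n)
    (h6 : ¬ (n = 6 ∧ r = 3)) (h35 : ¬ ((r = 3 ∨ r = 5) ∧ n = r)) {φ : F → F} (h1 : φ 1 = t)
    (h2 : φ ω = t * u) (h3 : φ (ω ^ 2)⁻¹ = t * (u ^ 2)⁻¹) (hu : u ≠ ω) (hur : u ^ r = 1) :
    (Multiset.replicate (n - 3) 1 + {ω, ω, (ω ^ 2)⁻¹}).map φ ≠
      Multiset.replicate (n - 3) 1 + {ω, ω, (ω ^ 2)⁻¹} := fun h => by
  have h0 : ω ≠ 0 := hω.ne_zero hr.ne_zero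
  have u0 : u ≠ 0 := fun e => by simp [e, hr.ne_zero] at hur
  have b : ∀ k l : ℕ, l.Prime → ω ^ l ^ k = 1 → r = l := fun k l hl e =>
    (Nat.prime_dvd_prime_iff_eq hr hl).1 (hr.dvd_of_dvd_pow ((hω.pow_eq_one_iff_dvd _).1 e))
  have b1 : ω ≠ 1 := hω.ne_one hr.one_lt
  have b2 : (ω ^ 2)⁻¹ ≠ 1 := fun e => hr2 (b 1 2 Nat.prime_two (by simpa using e))
  have a1 : 4 ≤ n → _ := fun e => count_stab h (a := 1) (by simp [Multiset.mem_replicate]; omega)
  have a2 := count_stab h (a := ω) (by simp)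
  have a3 := count_stab h (a := (ω ^ 2)⁻¹) (by simp)
  rw [h1] at a1; rw [h2] at a2; rw [h3] at a3
  by_cases e : r = 3
  · have b3 : (ω ^ 2)⁻¹ = ω := inv_eq_of_mul_eq_one_right (by
      rw [← pow_succ]; subst e; exact hω.pow_eq_one)
    have a1 := a1 (by omega)
    have c : ∀ x, (Multiset.replicate (n - 3) 1 + {ω, ω, ω} : Multiset F).count x =
        if x = 1 then n - 3 else if x = ω then 3 else 0 := fun x => by
      rw [show ({ω, ω, ω} : Multiset F) = Multiset.replicate 3 ω from rfl, Multiset.count_add,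
        Multiset.count_replicate, Multiset.count_replicate]
      by_cases e : x = 1
      · simp [e, b1]
      · simp [e, Ne.symm e, eq_comm]
    simp only [b3, c, b1, if_true, if_false] at a1 a2
    have c1 : t = 1 := by split_ifs at a1 <;> first | omega | assumption
    rw [c1, one_mul] at a2
    split_ifs at a2 <;> first | omega | contradiction
  have b3 : (ω ^ 2)⁻¹ ≠ ω := fun h => e (b 1 3 Nat.prime_three (by
    rw [pow_one, pow_succ, ← mul_inv_cancel₀ (pow_ne_zero 2 h0), h]))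
  have c : ∀ x, (Multiset.replicate (n - 3) 1 + {ω, ω, (ω ^ 2)⁻¹} : Multiset F).count x =
      if x = 1 then n - 3 else if x = ω then 2 else if x = (ω ^ 2)⁻¹ then 1 else 0 := fun x => by
    rw [show ({ω, ω, (ω ^ 2)⁻¹} : Multiset F) = Multiset.replicate 2 ω + {(ω ^ 2)⁻¹} from rfl,
      Multiset.count_add, Multiset.count_add, Multiset.count_replicate, Multiset.count_replicate,
      Multiset.count_singleton]
    by_cases e : x = 1
    · rw [e, if_pos rfl, if_pos rfl, if_neg b1, if_neg b2.symm]; rfl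
    rw [if_neg (Ne.symm e), if_neg e]
    by_cases e' : x = ω
    · rw [e', if_pos rfl, if_pos rfl, if_neg b3.symm]
    · rw [if_neg (Ne.symm e'), if_neg e']; simp
  simp only [c, b1, b2, b3, if_true, if_false] at a1 a2 a3
  have c2 : t * u = ω ∨ (t * u = 1 ∧ n = 5) := by
    split_ifs at a2 with d1 d2 <;> first | omega | exact .inl d2 | exact .inr ⟨d1, by omega⟩
  have c3 : t * (u ^ 2)⁻¹ = (ω ^ 2)⁻¹ ∨ (t * (u ^ 2)⁻¹ = 1 ∧ n = 4) := by
    split_ifs at a3 with d1 d2 d3 <;> first | omega | exact .inl d3 | exact .inr ⟨d1, by omega⟩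
  rcases c2 with c2 | ⟨c2, rfl⟩ <;> rcases c3 with c3 | ⟨c3, h4⟩
  · have : (u / ω) ^ 3 = 1 := by
      rw [← c2] at c3 ⊢
      have t0 : t ≠ 0 := fun e => h0 (by rw [← c2, e, zero_mul])
      field_simp at c3 ⊢
      rw [c3]
    exact hu (div_eq_one_iff_eq h0 |>.1 ((pow_eq_one_iff_of_coprime
      ((Nat.coprime_primes Nat.prime_three hr).2 (Ne.symm e))).1
      ⟨this, by rw [div_pow, hur, hω.pow_eq_one, div_one]⟩))
  · subst h4
    have a1 := a1 le_rfl
    split_ifs at a1 with d1 d2 d3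
    · exact hu (by rw [← c2, d1, one_mul])
    · omega
    · subst d3
      have : u = ω ^ 3 := by field_simp at c2; exact c2
      subst this
      exact hr2 (b 3 2 Nat.prime_two (by field_simp at c3; rw [c3]; ring))
  · have a1 := a1 (by norm_num)
    split_ifs at a1 with d1 d2 d3
    · rw [d1, one_mul] at c2 c3
      exact b2 (by rw [← c3, c2]; simp)
    · subst d2
      have : u = t⁻¹ := eq_inv_of_mul_eq_one_right c2
      subst this
      exact h35 ⟨.inr (b 1 5 Nat.prime_five (by field_simp at c3; rw [← c3]; ring)),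
        (b 1 5 Nat.prime_five (by field_simp at c3; rw [← c3]; ring)).symm⟩
    · omega
  · omega

theorem k3 : ∀ a b c : ZMod 3, [a, b, c].sum = 0 →
    ∃ y, ([a, b, c].map fun x => -(y + x)).Perm ([a, b, c].map (y + ·)) := by decide +kernel

theorem k5 : ∀ a b c d e : ZMod 5, [a, b, c, d, e].sum = 0 →
    ∃ y, ([a, b, c, d, e].map fun x => -(y + x)).Perm ([a, b, c, d, e].map (y + ·)) := by
  decide +kernel

theorem k3' (l : List (ZMod 3)) (h : l.length = 3) (h' : l.sum = 0) :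
    ∃ a, (l.map fun x => -(a + x)).Perm (l.map (a + ·)) :=
  match l, h, h' with
  | [a, b, c], _, h' => k3 a b c h'

theorem k5' (l : List (ZMod 5)) (h : l.length = 5) (h' : l.sum = 0) :
    ∃ a, (l.map fun x => -(a + x)).Perm (l.map (a + ·)) :=
  match l, h, h' with
  | [a, b, c, d, e], _, h' => k5 a b c d e h'

omit [DecidableEq F] in
theorem sym35 (h : r = 3 ∨ r = 5) {ω : F} (hω : IsPrimitiveRoot ω r) {s : Multiset F} (h1 : s.card = r)
    (h2 : ∀ a ∈ s, a ^ r = 1) (h3 : s.prod = 1) :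
    ∃ c : F, c ^ r = 1 ∧ (s.map (c * ·)).map (·⁻¹) = s.map (c * ·) := by
  have key : ∀ l : List (ZMod r), l.length = r → l.sum = 0 →
      ∃ a, (l.map fun x => -(a + x)).Perm (l.map (a + ·)) := by
    rcases h with rfl | rfl
    exacts [k3', k5']
  have : NeZero r := ⟨by omega⟩
  let ψ := AddChar.zmodChar r hω.pow_eq_one
  have hψ : ∀ a, ψ a = 1 → a = 0 := fun a =>
    ((AddChar.zmodChar_primitive_of_primitive_root r hω).zmod_char_eq_one_iff r a).1
  obtain ⟨t, rfl⟩ : ∃ t : Multiset (ZMod r), t.map ψ = s := by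
    have : ∀ a ∈ s, ∃ b, ψ b = a := fun a ha => by
      obtain ⟨i, -, rfl⟩ := hω.eq_pow_of_pow_eq_one (h2 a ha)
      exact ⟨i, AddChar.zmodChar_apply' _ _⟩
    choose! g hg using this
    exact ⟨s.map g, by rw [Multiset.map_map]; exact (Multiset.map_congr rfl hg).trans s.map_id'⟩
  induction t using Quot.inductionOn with | _ l => ?_
  have h4 : ∀ l : List (ZMod r), (l.map ψ).prod = ψ l.sum := fun l => by
    induction l with
    | nil => simp
    | cons a l ih => simp [ih, AddChar.map_add_eq_mul]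
  obtain ⟨a, ha⟩ := key l (by simpa using h1) (hψ _ (by rw [← h4]; simpa using h3))
  refine ⟨ψ a, by rw [← AddChar.map_nsmul_eq_pow]; simp, ?_⟩
  have := ha.map ψ
  simp only [List.map_map, Function.comp_def, AddChar.map_neg_eq_inv, AddChar.map_add_eq_mul] at this
  simpa [Function.comp_def] using this

end Stab
end H2.Eu
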