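import Cfsg.Agent.H2.Elu

/-! Elusivity of `PSL_n(q)`, second part: `not_all_stab` / `all35` (eigenvalue multisets stable under
an affine map), similarity groups of forms (`IsSim`), the factorisation of `gO`. -/

set_option autoImplicit false
set_option linter.unusedSectionVars false
namespace H2.Eu
open H11 H11.PForm H20.El Module Matrix Cfsg.Geo
open scoped MatrixGroups Polynomial

universe u
variable {F : Type u} [Field F] [Finite F] {ι : Type} [Fintype ι] [DecidableEq ι]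
  {V W : Type*} [AddCommGroup V] [Module F V] [AddCommGroup W] [Module F W]
  {H : Subgroup (GL ι F)} {r : ℕ}

theorem not_all_stab (hr : r.Prime) (hr2 : r ≠ 2) (hZ : scalars ι F ≤ H) (ψ : F →*₀ F)
    (hψ : ∀ ω, IsPrimitiveRoot ω r → ψ ω ≠ ω)
    (hst : ∀ (f : End F (ι → F)) s, Eig f s → f ^ r = 1 → InG H f → ∃ t, s.map (t * ψ ·) = s)
    (hq : r ∣ Nat.card F - 1) (hn : 3 ≤ Fintype.card ι) (h6 : ¬ (Fintype.card ι = 6 ∧ r = 3))
    (h35 : ¬ ((r = 3 ∨ r = 5) ∧ Fintype.card ι = r ∧ padicValNat r (Nat.card F - 1) = 1)) :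
    ¬ All H r := by
  classical
  have := Fact.mk hr
  by_cases e : (r = 3 ∨ r = 5) ∧ Fintype.card ι = r
  · have h1 : 1 ≤ padicValNat r (Nat.card F - 1) := one_le_padicValNat_of_dvd
      (by have := Finite.one_lt_card (α := F); omega) hq
    obtain ⟨c, hc⟩ := exists_root (F := F) hr (n := Fintype.card ι) (by omega) (by
      rw [e.2, padicValNat_self]; exact lt_of_le_of_ne h1 fun h => h35 ⟨e.1, e.2, h.symm⟩)
    have h2 : c ≠ 0 := fun h => hc.ne_zero hr.ne_zero (by rw [h, zero_pow (by omega)])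
    have h3 := hc.ne_one hr.one_lt
    obtain ⟨f, hf⟩ := exists_eig (V := ι → F)
      (s := Multiset.replicate (Fintype.card ι - 1) 1 + {c ^ Fintype.card ι}) (by simp; omega)
    have h4 : f ^ r = 1 := hf.pow_one_iff.2 (by
      simp +contextual [Multiset.mem_replicate, or_imp, hc.pow_eq_one])
    refine not_all (f := c⁻¹ • f) (z := c⁻¹ ^ r) (by simp [LinearMap.det_smul, hf.det, h2])
      (by rw [_root_.smul_pow, h4]) (fun z hz => hf.ne (a := 1) (b := c ^ Fintype.card ι)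
        (by simp [Multiset.mem_replicate]; omega) (by simp) h3.symm (c * z) (by
          rw [← smul_smul, ← hz, smul_smul, mul_inv_cancel₀ h2, one_smul])) fun h5 => ?_
    obtain ⟨t, ht⟩ := hst f _ hf h4 (h5.of_smul hZ (inv_ne_zero h2))
    exact nonstab' h3 hn (t := t) (φ := (t * ψ ·)) (by simp) rfl (hψ _ hc) ht
  obtain ⟨ω, hω⟩ := exists_prim hq
  have h2 := hω.ne_zero hr.ne_zero
  obtain ⟨f, hf⟩ := exists_eig (V := ι → F)
    (s := Multiset.replicate (Fintype.card ι - 3) 1 + {ω, ω, (ω ^ 2)⁻¹}) (by simp; omega)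
  have h4 : f ^ r = 1 := hf.pow_one_iff.2 (by
    simp +contextual [Multiset.mem_replicate, or_imp, hω.pow_eq_one, pow_right_comm ω 2])
  refine not_all (z := 1) (by simp [hf.det]; field_simp) (h4.trans (one_smul F _).symm) ?_ fun h5 => ?_
  · by_cases e' : r = 3
    · exact hf.ne (a := 1) (b := ω) (by simp [Multiset.mem_replicate]; omega) (by simp)
        (hω.ne_one hr.one_lt).symm
    · exact hf.ne (a := (ω ^ 2)⁻¹) (b := ω) (by simp) (by simp) fun h => e'
        ((Nat.prime_dvd_prime_iff_eq hr Nat.prime_three).1 ((hω.pow_eq_one_iff_dvd _).1 (by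
          rw [pow_succ, ← mul_inv_cancel₀ (pow_ne_zero 2 h2), h])))
  · obtain ⟨t, ht⟩ := hst f _ hf h4 h5
    exact nonstab hr hr2 hω hn h6 e (t := t) (φ := (t * ψ ·)) (by simp) rfl (by simp) (hψ _ hω)
      (by rw [← map_pow, hω.pow_eq_one, map_one]) ht

theorem all35 (h : r = 3 ∨ r = 5) (hn : Fintype.card ι = r) (hq : padicValNat r (Nat.card F - 1) = 1)
    (hZ : scalars ι F ≤ H)
    (hex : ∀ (f : End F (ι → F)) s, Eig f s → f ^ r = 1 → s.map (·⁻¹) = s → InG H f) : All H r := by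
  have hr : r.Prime := by rcases h with rfl | rfl <;> norm_num
  have := Fact.mk hr
  obtain ⟨ω, hω⟩ := exists_prim (F := F) (dvd_of_one_le_padicValNat hq.ge)
  have : NeZero r := ⟨hr.ne_zero⟩
  refine all_of' hr hω.neZero'.ne hZ (fun g c h1 _ h2 => ?_) fun g z h1 h2 h3 => ?_
  · obtain ⟨s, hs⟩ := exists_eig_of_pow hr.ne_zero hω h1
    have h3 : LinearMap.det g ^ r = 1 := by rw [← map_pow, h1, map_one]
    rw [hn] at h2
    rw [eq_one_of_val hr hr.ne_zero (c := c) (by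
      have := congrArg (· ^ r) h2
      simpa [mul_pow, h3] using this) (by simp [hq]), one_mul, hs.det] at h2
    obtain ⟨d, h4, h5⟩ := sym35 h hω (by simp [hs.card, hn]) (hs.pow_one_iff.1 h1) h2
    exact (hex _ _ (hs.smul d) (by rw [_root_.smul_pow, h4, h1, one_smul]) h5).of_smul hZ
      fun e => by simp [e, hr.ne_zero] at h4
  · exact ((bad_of h1 h2 h3 (by simp [hn, hr.pos])).2 ⟨by simp [hn, hq], by omega⟩).elim

theorem all_two (h0 : (2 : F) ≠ 0) (hZ : scalars ι F ≤ H) (hn : Fintype.card ι ≠ 0)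
    (hv : padicValNat 2 (Nat.card F - 1) ≤ padicValNat 2 (Fintype.card ι))
    (h1 : ∀ (g : End F (ι → F)) a b, Eig g (Multiset.replicate (2 * a) (-1) + Multiset.replicate b 1) →
      2 * a + b = Fintype.card ι → InG H g)
    (h2 : ∀ (g : End F (ι → F)) (z : F), Irreducible (Polynomial.X ^ 2 - Polynomial.C z) →
      g ^ 2 = z • 1 → InG H g) : All H 2 := by
  refine all_of' Nat.prime_two h0 hZ (fun g c h3 _ h4 => ?_) fun g z h3 h4 _ => h2 g z h3 h4
  obtain ⟨k, l, h5, h6, h7⟩ := eig_of_sq h0 h3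
  rw [h7, eq_one_of_val Nat.prime_two hn (c := c) (by
    rcases neg_one_pow_eq_or F k with e | e <;> rw [e] at h4
    · rw [mul_one] at h4; rw [h4, one_pow]
    · rw [mul_neg_one, neg_eq_iff_eq_neg] at h4; rw [h4]; simp) hv, one_mul,
    neg_one_pow_eq_one_iff_even fun e => h0 (by linear_combination -e)] at h4
  obtain ⟨k, rfl⟩ := h4
  exact h1 g k l (two_mul k ▸ h5) (by simpa [two_mul] using h6)

theorem not_all_neg (h0 : (2 : F) ≠ 0) (hZ : scalars ι F ≤ H) (hn : 2 ≤ Fintype.card ι)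
    (hv : padicValNat 2 (Fintype.card ι) < padicValNat 2 (Nat.card F - 1))
    (h : ∀ g : End F (ι → F), g ^ 2 = 1 → LinearMap.det g = -1 →
      finrank F (LinearMap.ker (g - 1)) = Fintype.card ι - 1 → ¬ InG H g) : ¬ All H 2 := by
  classical
  obtain ⟨c, hc⟩ := exists_root (F := F) Nat.prime_two (by omega) hv
  have h3 := hc.eq_neg_one_of_two_right
  have h4 : c ≠ 0 := fun e => by simp [e, show Fintype.card ι ≠ 0 by omega] at h3
  have h5 : (1 : F) ≠ -1 := fun e => h0 (by linear_combination e)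
  obtain ⟨f, hf⟩ := exists_eig (V := ι → F)
    (s := Multiset.replicate (Fintype.card ι - 1) (1 : F) + {-1}) (by simp; omega)
  have h6 : f ^ 2 = 1 := hf.pow_one_iff.2 (by simp +contextual [Multiset.mem_replicate, or_imp])
  refine not_all (f := c • f) (z := c ^ 2) (by simp [LinearMap.det_smul, hf.det, h3])
    (by rw [_root_.smul_pow, h6]) (fun z hz => hf.ne (a := 1) (b := -1)
      (by simp [Multiset.mem_replicate]; omega) (by simp) h5 (c⁻¹ * z) (by
        rw [← smul_smul, ← hz, smul_smul, inv_mul_cancel₀ h4, one_smul]))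
    fun h7 => h f h6 (by simp [hf.det]) (by rw [← one_smul F (1 : End F _), hf.finrank_ker]; simp [h5]) (h7.of_smul hZ h4)

theorem val_two_eq_zero (h0 : (2 : F) = 0) : padicValNat 2 (Nat.card F - 1) = 0 := by
  have := (two_ne_zero_iff (F := F)).not.1 (not_not.2 h0)
  have h1 := Finite.one_lt_card (α := F)
  rw [Nat.odd_iff] at this
  exact padicValNat.eq_zero_of_not_dvd (by omega)

theorem charP_two (h0 : (2 : F) = 0) : CharP F 2 := CharTwo.of_one_ne_zero_of_two_eq_zero one_ne_zero h0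

theorem all_two' (h0 : (2 : F) = 0) (hZ : scalars ι F ≤ H)
    (h : ∀ g : End F (ι → F), Unip g → (g - 1) ^ 2 = 0 → g ≠ 1 → InG H g) : All H 2 :=
  have := charP_two h0
  all_unip 2 hZ fun g h1 h2 h3 =>
    have : Nontrivial (ι → F) := not_subsingleton_iff_nontrivial.1 fun _ => h3 (Subsingleton.elim _ _)
    (h g h1 h2 h3).inS (detC_two h1 h2)

theorem sim_of_sq [FiniteDimensional F V] [FiniteDimensional F W] {f : End F V} {g : End F W}
    (h1 : (f - 1) ^ 2 = 0) (h2 : (g - 1) ^ 2 = 0) (h3 : finrank F V = finrank F W)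
    (h4 : finrank F (LinearMap.range (f - 1)) = finrank F (LinearMap.range (g - 1))) : Sim f g :=
  (Unip.sim_iff ⟨2, h1⟩ ⟨2, h2⟩).2 (by rw [(JT_of_sq h1 h4).2, (JT_of_sq h2 rfl).2, h3])

/-- the generic derangement with one irreducible block -/
theorem exists_one (hr : r.Prime) (h0 : (r : F) ≠ 0) (hi : 2 ≤ orderOf (Nat.card F : ZMod r))
    (hn : orderOf (Nat.card F : ZMod r) ≤ Fintype.card ι) {Q : F[X]} (hQ : Q ∈ PhiF F r) :
    ∃ f : End F (ι → F), LinearMap.det f = 1 ∧ f ^ r = 1 ∧ (∀ c : F, f ≠ c • 1) ∧ nED f = {Q} ∧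
      finrank F (LinearMap.ker (f - 1)) + orderOf (Nat.card F : ZMod r) = Fintype.card ι := by
  obtain ⟨f, h1, h2, h3, h4, -⟩ := exists_jt (V := ι → F) hr h0 hi (s := 1)
    (e := Fintype.card ι - orderOf (Nat.card F : ZMod r)) one_pos
    (by rw [finrank_fintype_fun_eq_card]; omega) hQ
  have h5 : nED f = {Q} :=
    nED_of_ED (fun e => X_sub_one_notMem_PhiF hr h0 (Multiset.mem_singleton.1 e ▸ hQ)) h4
  refine ⟨f, h1, h2, h3, h5, ?_⟩
  have := (f - 1).finrank_range_add_finrank_ker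
  rw [finrank_range_eq_nED (ss_of_pow_eq_one h0 h2), h5, Multiset.map_singleton,
    Multiset.sum_singleton, (PhiF_spec hr h0).1 Q hQ, finrank_fintype_fun_eq_card] at this
  omega

variable {σ : F →+* F} {P : FParam σ} {S : PForm P (ι → F)} {T : PForm P W}

/-- `H` is the similarity group of `S` -/
def IsSim (H : Subgroup (GL ι F)) (S : PForm P (ι → F)) : Prop :=
  ∀ g, g ∈ H ↔ ∃ t : F, t ≠ 0 ∧ ∀ x y, S.h (g.1 *ᵥ x) (g.1 *ᵥ y) = t * S.h x y

namespace IsSim
variable (h : IsSim H S)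
include h

theorem scal : scalars ι F ≤ H := fun g hg => by
  obtain ⟨c, hc⟩ := (mem_scalars_iff g).1 hg
  exact (h g).2 ⟨σ c * c, by simp, fun x y => by
    rw [hc, smul_mulVec, smul_mulVec, one_mulVec, one_mulVec, h_smul_left, h_smul_right, mul_assoc]⟩

theorem inG (e : Eqv T S) {f : End F W} (hf : IsUnit f) {t : F} (ht : t ≠ 0)
    (h' : ∀ x y, T.h (f x) (f y) = t * T.h x y) : InG H f := by
  obtain ⟨e, he⟩ := e
  obtain ⟨A, hA⟩ := mE_surj (e.conj f)
  obtain ⟨g, rfl⟩ := isUnit_mE.1 (hA ▸ (sim_conj e f).isUnit_iff.1 hf)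
  refine ⟨g, (h g).2 ⟨t, ht, fun x y => ?_⟩, hA ▸ sim_conj e f⟩
  obtain ⟨x, rfl⟩ := e.surjective x
  obtain ⟨y, rfl⟩ := e.surjective y
  rw [← mE_apply, ← mE_apply, hA]
  simp [he.h_eq, h']

theorem inG_isom (e : Eqv T S) (k : T.Isom) : InG H (iE k) :=
  h.inG e (isUnit_iE k) one_ne_zero fun x y => by rw [one_mul]; exact isom_h k x y

theorem exists_mult (hS : S.Nondeg) [Nonempty ι] {f : End F W} (hf : InG H f) (h1 : f ^ r = 1) :
    ∃ (g : End F (ι → F)) (t : F), Sim f g ∧ g ^ r = 1 ∧ t ^ r = 1 ∧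
      ∀ x y, S.h (g x) (g y) = t * S.h x y := by
  obtain ⟨g, h2, h3⟩ := hf
  obtain ⟨t, -, h4⟩ := (h g).1 h2
  have h5 : mE g.1 ^ r = 1 := by
    have := ((h3.pow r).sub_one_pow 1).eq_zero_iff
    rwa [h1, pow_one, pow_one, sub_self, eq_self, true_iff, sub_eq_zero] at this
  refine ⟨_, t, h3, h5, ?_, h4⟩
  have h6 : ∀ k x y, S.h ((mE g.1 ^ k) x) ((mE g.1 ^ k) y) = t ^ k * S.h x y := fun k => by
    induction k with
    | zero => simp
    | succ k ih => intro x y; rw [pow_succ, End.mul_apply, End.mul_apply, ih, mE_apply, mE_apply, h4,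
        pow_succ, mul_assoc]
  obtain ⟨x, hx⟩ := exists_ne (0 : ι → F)
  obtain ⟨y, hy⟩ := hS.exists_h_eq_one hx
  simpa [h5, hy] using (h6 r x y).symm

theorem stab (hS : S.Nondeg) [Nonempty ι] (hσ : ∀ a, σ (σ a) = a) (hr : Odd r)
    (h0 : ∀ a, a ^ r = 1 → σ a = a) (f : End F (ι → F)) (s : Multiset F) (h1 : Eig f s)
    (h2 : f ^ r = 1) (h3 : InG H f) : ∃ t, s.map (t * invMonoidWithZeroHom ·) = s := by
  obtain ⟨g, t, h4, -, h5, h6⟩ := h.exists_mult hS h3 h2
  obtain ⟨k, rfl⟩ := hr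
  have h7 : (t ^ k) ^ (2 * k + 1) = 1 := by rw [pow_right_comm, h5, one_pow]
  have h8 : t ^ k ≠ 0 := fun e => by simp [e] at h7
  have h9 := ((h1.of_sim h4.symm).smul (t ^ k)).dl hσ ⟨S.h, hS, fun x y => by
    rw [LinearMap.smul_apply, LinearMap.smul_apply, h_smul_left, h_smul_right, h6, h0 _ h7]
    linear_combination S.h x y * h5⟩
  refine ⟨(t ^ k)⁻¹ ^ 2, Multiset.map_injective (mul_right_injective₀ h8) (.trans ?_ h9)⟩
  rw [Multiset.map_map, Multiset.map_map]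
  refine Multiset.map_congr rfl fun a ha => ?_
  change t ^ k * ((t ^ k)⁻¹ ^ 2 * a⁻¹) = (σ (t ^ k * a))⁻¹
  rw [map_mul, h0 _ h7, h0 _ (h1.pow_one_iff.1 h2 a ha)]
  field_simp

theorem not_all_one (hS : S.Nondeg) (hσ : ∀ a, σ (σ a) = a) (hr : r.Prime) (hr2 : r ≠ 2)
    (h0 : ∀ a, a ^ r = 1 → σ a = a)
    (hq : r ∣ Nat.card F - 1) (hn : 3 ≤ Fintype.card ι) (h6 : ¬ (Fintype.card ι = 6 ∧ r = 3))
    (h35 : ¬ ((r = 3 ∨ r = 5) ∧ Fintype.card ι = r ∧ padicValNat r (Nat.card F - 1) = 1)) :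
    ¬ All H r :=
  have : Nonempty ι := Fintype.card_pos_iff.1 (by omega)
  not_all_stab hr hr2 h.scal invMonoidWithZeroHom (fun ω hω e => hr2
    ((Nat.prime_dvd_prime_iff_eq hr Nat.prime_two).1 ((hω.pow_eq_one_iff_dvd 2).1 (by
      rw [pow_two]; nth_rewrite 1 [← e]; exact inv_mul_cancel₀ (hω.ne_zero hr.ne_zero)))))
    (h.stab hS hσ (hr.odd_of_ne_two hr2) h0) hq hn h6 h35

theorem not_all_dual (hS : S.Nondeg) (hσ : ∀ a, σ (σ a) = a) (hr : r.Prime) (h0 : (r : F) ≠ 0)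
    (hi : 2 ≤ orderOf (Nat.card F : ZMod r)) (hn : orderOf (Nat.card F : ZMod r) ≤ Fintype.card ι)
    (hd : ∀ Q ∈ PhiF F r, dualP σ Q ≠ Q) : ¬ All H r := by
  have : Nonempty ι := Fintype.card_pos_iff.1 (by omega)
  obtain ⟨Q, hQ⟩ := exists_mem_PhiF hr h0
  obtain ⟨f, h1, h2, h3, h4, -⟩ := exists_one hr h0 hi hn hQ
  refine not_all h1 (h2.trans (one_smul F _).symm) h3 fun h5 => hd Q hQ ?_
  obtain ⟨g, t, h6, -, h7, h8⟩ := h.exists_mult hS h5 h2
  rw [eq_one_of_pow hr (by omega) h7] at h8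
  simpa [h4] using (h6.symm.dl ⟨S.h, hS, by simpa using h8⟩).map_nED hσ (ss_of_pow_eq_one h0 h2)

theorem idx : H.relIndex (specialLinear ι F) * Nat.card S.Isom ∣
    Nat.card F ^ (Fintype.card ι).choose 2 * gO (Nat.card F) (Fintype.card ι) :=
  idx_dvd (glEquiv.symm.toMonoidHom.comp S.Isom.subtype)
    (glEquiv.symm.injective.comp Subtype.val_injective) fun k => (h _).2 ⟨1, one_ne_zero, fun x y => by
      rw [← glEquiv_apply, ← glEquiv_apply]; simp⟩

end IsSim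

theorem dvd_of_idx {N c A B q a : ℕ} (hr : r.Prime) (hA : 0 < A) (h : N * (c * A) ∣ q ^ a * (B * A))
    (hN : r ∣ N) (hq : ¬ r ∣ q) : r ∣ B := by
  rw [← mul_assoc, ← mul_assoc] at h
  exact ((Nat.Prime.dvd_mul hr).1 ((hN.mul_right c).trans (Nat.dvd_of_mul_dvd_mul_right hA h))).resolve_left
    fun e => hq (hr.dvd_of_dvd_pow e)

theorem gO_two_mul (q m : ℕ) : gO q (2 * m) = (∏ i ∈ Finset.range m, (q ^ (2 * i + 1) - 1)) *
    ∏ i ∈ Finset.range m, (q ^ (2 * (i + 1)) - 1) := by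
  induction m with
  | zero => simp [gO]
  | succ m ih =>
    rw [show 2 * (m + 1) = 2 * m + 1 + 1 by ring, gO_succ, gO_succ, ih, Finset.prod_range_succ,
      Finset.prod_range_succ, show 2 * (m + 1) = 2 * m + 1 + 1 by ring]
    ring

theorem prod_even_pos {q : ℕ} (hq : 1 < q) (m : ℕ) :
    0 < ∏ i ∈ Finset.range m, (q ^ (2 * (i + 1)) - 1) :=
  Finset.prod_pos fun _ _ => Nat.sub_pos_of_lt (Nat.one_lt_pow (by omega) hq)

theorem odd_ord {q m : ℕ} (hr : r.Prime) (hq : 0 < q)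
    (h : r ∣ ∏ i ∈ Finset.range m, (q ^ (2 * i + 1) - 1)) :
    Odd (orderOf (q : ZMod r)) ∧ orderOf (q : ZMod r) < 2 * m := by
  obtain ⟨j, h2, h3⟩ := (Prime.dvd_finsetProd_iff hr.prime _).1 h
  rw [← ord_dvd_iff hq] at h3
  rw [Finset.mem_range] at h2
  exact ⟨(odd_two_mul_add_one j).of_dvd_nat h3, by have := Nat.le_of_dvd (by omega) h3; omega⟩

theorem IsSim.not_all_odd {P : FParam (RingHom.id F)} {S : PForm P (ι → F)} (h : IsSim H S)
    (hS : S.Nondeg) (hr : r.Prime) (hr2 : r ≠ 2) (h0 : (r : F) ≠ 0)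
    (hi : Odd (orderOf (Nat.card F : ZMod r))) (hn' : orderOf (Nat.card F : ZMod r) ≤ Fintype.card ι)
    (hn : 3 ≤ Fintype.card ι) (h6 : ¬ (Fintype.card ι = 6 ∧ r = 3))
    (h35 : ¬ ((r = 3 ∨ r = 5) ∧ Fintype.card ι = r ∧ padicValNat r (Nat.card F - 1) = 1)) :
    ¬ All H r := by
  by_cases e : orderOf (Nat.card F : ZMod r) = 1
  · exact h.not_all_one hS (fun _ => rfl) hr hr2 (fun _ _ => rfl)
      ((orderOf_eq_one_iff Nat.card_pos).1 e) hn h6 h35
  · exact h.not_all_dual hS (fun _ => rfl) hr h0 (by have := hi.pos; omega) hn' fun Q hQ e =>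
      Nat.not_even_iff_odd.2 hi ((dualP_id_eq_self_iff hr hr2 h0 hQ).1 e)

/-- a bilinear form given as a function -/
def toB {f : (ι → F) → (ι → F) → F} (h : IsBilinearForm f) : LinearMap.BilinForm F (ι → F) :=
  LinearMap.mk₂ F f h.add_left h.smul_left h.add_right fun c v x => h.smul_right c v x

theorem isSim_of {f : (ι → F) → (ι → F) → F} (h : ∀ x y, S.h x y = f x y) :
    IsSim (similarityGroup f) S := fun _ =>
  ⟨fun ⟨c, hc⟩ => ⟨c, c.ne_zero, fun x y => by rw [h, h, hc]⟩,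
    fun ⟨c, h1, h2⟩ => ⟨Units.mk0 c h1, fun x y => by rw [← h, ← h, h2]; rfl⟩⟩

theorem symp_model {f : (ι → F) → (ι → F) → F} (h : IsSymplecticForm f) :
    ∃ S : PForm (sympP F) (ι → F), S.Nondeg ∧ IsSim (similarityGroup f) S :=
  ⟨sympS (toB h.bilinear) h.alternating, fun x hx => by_contra fun e =>
    let ⟨y, hy⟩ := (h.nondegenerate x e).2; hy (hx y), isSim_of fun _ _ => rfl⟩

theorem orth_model (h2 : (2 : F) ≠ 0) {Q : (ι → F) → F} (h : IsNondegenerateQuadraticForm Q) :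
    ∃ S : PForm (orthP F) (ι → F), S.Nondeg ∧ IsSim (quadSimilarityGroup Q) S := by
  have h1 : ∀ x, QuadraticMap.polar Q x x = 2 * Q x := fun x => by
    rw [QuadraticMap.polar, ← two_smul F x, h.smul]; ring
  refine ⟨symmS h2 (toB h.polar_bilinear) ⟨fun x y => QuadraticMap.polar_comm _ _ _⟩,
    fun x hx => by_contra fun e => let ⟨y, hy⟩ := (h.nondegenerate x e).2; hy (hx y), fun g =>
    ⟨fun ⟨c, hc⟩ => ⟨c, c.ne_zero, fun x y => ?_⟩, fun ⟨c, h3, h4⟩ => ⟨Units.mk0 c h3, fun x => ?_⟩⟩⟩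
  · change QuadraticMap.polar Q _ _ = c * QuadraticMap.polar Q _ _
    rw [QuadraticMap.polar, QuadraticMap.polar, ← mulVec_add, hc, hc, hc]; ring
  · have : QuadraticMap.polar Q _ _ = c * QuadraticMap.polar Q _ _ := h4 x x
    rw [h1, h1] at this
    exact mul_left_cancel₀ h2 (by rw [this, Units.val_mk0]; ring)

theorem unit_model (hσ : ∀ a, σ (σ a) = a) (hne : σ ≠ RingHom.id F) {q : ℕ} (hq : ∀ x, σ x = x ^ q)
    {f : (ι → F) → (ι → F) → F} (h : IsUnitaryFormPow q f) :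
    ∃ S : PForm (unitP σ hσ) (ι → F), S.Nondeg ∧ IsSim (similarityGroup f) S := by
  refine ⟨unitS hσ hne (LinearMap.mk₂'ₛₗ σ (RingHom.id F) (fun x y => f y x)
    (fun x x' y => by rw [h.herm, h.add_left, ← hq, map_add, hq, hq, ← h.herm, ← h.herm])
    (fun c x y => by rw [h.herm, h.smul_left, ← hq, map_mul, hq (f _ _), ← h.herm]; rfl)
    (fun x y y' => h.add_left _ _ _) fun c x y => h.smul_left _ _ _)
    ⟨fun x y => (hq _).trans (h.herm _ _).symm⟩, fun x hx => by_contra fun e =>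
    let ⟨y, hy⟩ := (h.nondegenerate x e).1; hy (hx y), fun g =>
    ⟨fun ⟨c, hc⟩ => ⟨c, c.ne_zero, fun x y => hc y x⟩,
      fun ⟨c, h1, h2⟩ => ⟨Units.mk0 c h1, fun x y => h2 y x⟩⟩⟩

end H2.Eu
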