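import Cfsg.Agent.H2.EluF
import Cfsg.Agent.S0242

/-! Elusivity of `PSL_n(q)` on cosets of subfield subgroups: `mem_sub`, the relative Frobenius `psi`,
criteria through the characteristic polynomial, the index (`sub_idx`). -/

set_option autoImplicit false
set_option linter.unusedSectionVars false
namespace H2.Eu
open H11 H20.El Module Matrix Cfsg.Geo Polynomial
open scoped MatrixGroups

universe u
variable {F : Type u} [Field F] [Finite F] {ι κ : Type} [Fintype ι] [DecidableEq ι] [Fintype κ]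
  [DecidableEq κ] {V : Type*} [AddCommGroup V] [Module F V] [FiniteDimensional F V] {r : ℕ}
  {F₀ : Subfield F}

theorem mem_sub {g : GL ι F} : g ∈ subfieldSubgroup F₀ 1 ↔
    ∃ (c : F) (A : GL ι F₀), c ≠ 0 ∧ g.1 = c • A.1.map F₀.subtype := by
  have : g ∈ subfieldSubgroup F₀ 1 ↔
      g ∈ (GeneralLinearGroup.map (F₀.subtype : F₀ →+* F)).range ⊔ scalars ι F := by
    simp [subfieldSubgroup]
  rw [this, Subgroup.mem_sup_of_normal_right]
  constructor
  · rintro ⟨_, ⟨A, rfl⟩, z, hz, rfl⟩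
    obtain ⟨c, hc⟩ := (mem_scalars_iff z).1 hz
    exact ⟨c, A, c.ne_zero, by rw [Units.val_mul, hc, Matrix.mul_smul, Matrix.mul_one]; rfl⟩
  · rintro ⟨c, A, hc, h⟩
    have : (GeneralLinearGroup.scalar ι (Units.mk0 c hc)).1 = c • 1 := by simp [smul_one_eq_diagonal]
    exact ⟨_, ⟨A, rfl⟩, _, (mem_scalars_iff _).2 ⟨Units.mk0 c hc, this⟩, Units.ext (by
      rw [Units.val_mul, this, h, Matrix.mul_smul, Matrix.mul_one]; rfl)⟩

theorem scal_le_sub : scalars ι F ≤ subfieldSubgroup F₀ 1 := fun g hg =>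
  let ⟨c, hc⟩ := (mem_scalars_iff g).1 hg
  mem_sub.2 ⟨c, 1, c.ne_zero, by simp [hc]⟩

theorem map_mem_sub (A : GL ι F₀) : GeneralLinearGroup.map F₀.subtype A ∈ subfieldSubgroup F₀ 1 :=
  mem_sub.2 ⟨1, A, one_ne_zero, (one_smul F _).symm⟩

theorem inG_map {A : Matrix κ κ F₀} (hA : IsUnit A) (h : Fintype.card κ = Fintype.card ι) :
    InG (subfieldSubgroup F₀ (1 : GL ι F)) (mE (A.map F₀.subtype)) := by
  obtain ⟨e⟩ := Fintype.card_eq.1 h
  obtain ⟨B, hB⟩ := hA.map (reindexAlgEquiv F₀ F₀ e)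
  refine ⟨_, map_mem_sub B, (sim_reindex e _).trans ?_⟩
  rw [show (GeneralLinearGroup.map F₀.subtype B).1 = B.1.map F₀.subtype from rfl, hB]
  exact .refl _

theorem InG.exists_map {f : End F V} (h : InG (subfieldSubgroup F₀ (1 : GL ι F)) f) :
    ∃ (c : F) (A : GL ι F₀), c ≠ 0 ∧ Sim (c • f) (mE (A.1.map F₀.subtype)) := by
  obtain ⟨g, h1, h2⟩ := h
  obtain ⟨c, A, hc, h3⟩ := mem_sub.1 h1
  refine ⟨c⁻¹, A, inv_ne_zero hc, ?_⟩
  simpa only [h3, mE_smul, smul_smul, inv_mul_cancel₀ hc, one_smul] using h2.smul c⁻¹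

theorem pow_mem_of_sim [Nonempty ι] {f : End F V} {A : Matrix ι ι F₀} {z : F}
    (h : Sim f (mE (A.map F₀.subtype))) (hz : f ^ r = z • 1) : z ∈ F₀ := by
  obtain ⟨e, he⟩ := h.pow r
  have : (A ^ r).map F₀.subtype = z • 1 := matrix_ext_mulVec fun x => by
    obtain ⟨x, rfl⟩ := e.surjective x
    rw [← RingHom.mapMatrix_apply, map_pow, ← mE_apply, mE_pow, RingHom.mapMatrix_apply, ← he, hz]
    simp [smul_mulVec]
  obtain ⟨i⟩ := ‹Nonempty ι›
  have := congrFun₂ this i i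
  simp only [map_apply, Matrix.smul_apply, one_apply_eq, smul_eq_mul, mul_one] at this
  exact this ▸ ((A ^ r) i i).2

variable (F₀) in
/-- the relative Frobenius map -/
noncomputable def psi : F →+* F :=
  letI := Fintype.ofFinite F₀
  (FiniteField.frobeniusAlgHom F₀ F).toRingHom

theorem psi_apply (x : F) : psi F₀ x = x ^ Nat.card F₀ := by
  letI := Fintype.ofFinite F₀
  rw [Nat.card_eq_fintype_card]; rfl

theorem psi_eq_iff {x : F} : psi F₀ x = x ↔ x ∈ F₀ := by
  classical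
  letI := Fintype.ofFinite F₀
  refine ⟨fun h => ?_, fun h => (FiniteField.frobeniusAlgHom F₀ F).commutes ⟨x, h⟩⟩
  have h1 := Fintype.one_lt_card (α := F₀)
  have h2 := FiniteField.roots_X_pow_card_sub_X F₀
  have h3 := (splits_iff_card_roots.2 (by
    rw [h2, FiniteField.X_pow_card_sub_X_natDegree_eq _ h1]; rfl)).roots_map F₀.subtype
  have h4 : x ∈ ((X ^ Fintype.card F₀ - X : F₀[X]).map F₀.subtype).roots :=
    (mem_roots (map_ne_zero (FiniteField.X_pow_card_sub_X_ne_zero _ h1))).2 (by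
      rw [psi_apply, Nat.card_eq_fintype_card] at h; simp [h])
  obtain ⟨y, -, rfl⟩ := Multiset.mem_map.1 (h3 ▸ h4)
  exact y.2

theorem charpoly_fix {f : End F V} {A : Matrix ι ι F₀} (h : Sim f (mE (A.map F₀.subtype))) :
    f.charpoly.map (psi F₀) = f.charpoly := by
  rw [h.charpoly, charpoly_mE, Matrix.charpoly_map, Polynomial.map_map]
  congr 1
  exact RingHom.ext fun x => psi_eq_iff.2 x.2

theorem inG_of_fix (h0 : (r : F) ≠ 0) {f : End F (ι → F)} (h1 : f ^ r = 1)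
    (h2 : f.charpoly.map (psi F₀) = f.charpoly) : InG (subfieldSubgroup F₀ (1 : GL ι F)) f := by
  obtain ⟨Q, h3, h4, h5⟩ := lifts_and_natDegree_eq_and_monic (f := F₀.subtype) (p := f.charpoly)
    ((lifts_iff_coeff_lifts _).2 fun i => ⟨⟨f.charpoly.coeff i, psi_eq_iff.1 (by rw [← coeff_map, h2])⟩, rfl⟩)
    f.charpoly_monic
  obtain ⟨g, h6, h7⟩ := exists_ss_charpoly (V := ι → F₀) h5 (by simp [h4, f.charpoly_natDegree])
  obtain ⟨A, rfl⟩ := mE_surj g
  have h8 : A ^ r = 1 := by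
    rw [← mE_inj, mE_pow, mE_one, pow_eq_one_iff_ED]
    intro P hP
    refine (h6 P hP).prime.dvd_of_dvd_pow (n := (ED f).card) ((map_dvd_map' F₀.subtype).1 ?_)
    refine (Polynomial.map_dvd _ (charpoly_eq_prod_ED (mE A) ▸ Multiset.dvd_prod hP)).trans ?_
    rw [h7, h3, charpoly_eq_prod_ED]
    simpa using Multiset.prod_dvd_prod_of_dvd id (fun _ => X ^ r - 1) (pow_eq_one_iff_ED.1 h1)
  refine (inG_map (IsUnit.of_pow_eq_one h8 fun e => h0 (by simp [e])) rfl).sim
    ((ss_of_pow_eq_one h0 h1).sim_of_charpoly (ss_of_pow_eq_one h0 ?_) ?_)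
  · rw [← mE_pow, ← RingHom.mapMatrix_apply, ← map_pow, h8, map_one, mE_one]
  · rw [charpoly_mE, Matrix.charpoly_map, ← charpoly_mE, h7, h3]

theorem Eig.map_charpoly {f : End F V} {s : Multiset F} (h : Eig f s) (ψ : F →+* F) :
    f.charpoly.map ψ = ((s.map ψ).map fun a => X - C a).prod := by
  rw [h.charpoly, Polynomial.map_multiset_prod, Multiset.map_map, Multiset.map_map]; simp

theorem Eig.inG_sub (h0 : (r : F) ≠ 0) {f : End F (ι → F)} {s : Multiset F} (h : Eig f s)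
    (h1 : f ^ r = 1) (h2 : s.map (psi F₀) = s) : InG (subfieldSubgroup F₀ (1 : GL ι F)) f :=
  inG_of_fix h0 h1 (by rw [h.map_charpoly, h2, h.charpoly])

theorem sub_stab (f : End F V) (s : Multiset F) (h : Eig f s)
    (h' : InG (subfieldSubgroup F₀ (1 : GL ι F)) f) : ∃ t, s.map (t * psi F₀ ·) = s := by
  obtain ⟨c, A, hc, h1⟩ := h'.exists_map
  have := (h.smul c).eq_of_charpoly ((charpoly_fix h1).symm.trans ((h.smul c).map_charpoly _))
  refine ⟨c⁻¹ * psi F₀ c, Multiset.map_injective (mul_right_injective₀ hc) (.trans ?_ this.symm)⟩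
  rw [Multiset.map_map, Multiset.map_map]
  exact Multiset.map_congr rfl fun a _ => by simp [← mul_assoc, hc]

theorem inG_unip {g : End F (ι → F)} (h : Unip g) : InG (subfieldSubgroup F₀ (1 : GL ι F)) g := by
  obtain ⟨d, hd⟩ := Pg.exists_fun_ms (s := JT g) rfl
  have h1 : ∀ k, 1 ≤ d k := fun k => JT_pos (hd ▸ Multiset.mem_map_of_mem _ (Finset.mem_univ_val k))
  have h2 := JT_jordanTypeMatrix (F := F) h1
  have h3 := (h.sim_iff h2.1).2 (h2.2.trans hd).symm
  refine (inG_map (isUnit_mE.1 (JT_jordanTypeMatrix (F := F₀) h1).1.isUnit)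
    (by simpa using h3.finrank_eq.symm)).sim ?_
  convert h3 using 2
  rw [Cfsg.jordanTypeMatrix, blockDiagonal'_map _ _ (map_zero _)]
  congr 1; ext k i j
  simp only [Cfsg.jordanBlock, map_apply, of_apply]
  split_ifs <;> simp

theorem rank_map' {k K m : Type*} [Field k] [Field K] [Fintype m] [DecidableEq m] (f : k →+* K)
    (A : Matrix m m k) : (A.map f).rank = A.rank := by
  classical
  obtain ⟨V, U, e, hV, hU, h⟩ := A.exists_rank_normal_form
  have h1 := congrArg (fun X => (f.mapMatrix X).rank) h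
  simp only [map_mul] at h1
  rw [Matrix.rank_mul_eq_left_of_isUnit_det _ _ ((Matrix.isUnit_iff_isUnit_det _).1 (hU.map _)),
    Matrix.rank_mul_eq_right_of_isUnit_det _ _ ((Matrix.isUnit_iff_isUnit_det _).1 (hV.map _))] at h1
  refine h1.trans ?_
  rw [RingHom.mapMatrix_apply, ← Matrix.submatrix_map, Matrix.rank_submatrix, Matrix.fromBlocks_map,
    Matrix.map_one _ (map_zero f) (map_one f), Matrix.map_zero _ (map_zero f),
    Matrix.map_zero _ (map_zero f), Matrix.map_zero _ (map_zero f), ← Matrix.diagonal_one,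
    ← Matrix.diagonal_zero, Matrix.fromBlocks_diagonal, Matrix.rank_diagonal,
    Fintype.card_congr Equiv.subtypeSum]
  simp

theorem card_SL' (n : ℕ) : Nat.card (SpecialLinearGroup (Fin (n + 1)) F) =
    Nat.card F ^ (n + 1).choose 2 * ∏ j ∈ Finset.range n, (Nat.card F ^ (j + 2) - 1) := by
  have := Fintype.ofFinite F
  have h1 := Cfsg.Agent.S0242.result (F := F) Nat.card_eq_fintype_card.symm (n + 1) (by omega)
  have h2 := prod_sub_mul (Nat.card F) (le_refl (n + 1))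
  rw [← h1, gO, gO, Finset.prod_range_succ', Nat.sub_self, Finset.prod_range_zero, mul_one, zero_add,
    pow_one, ← mul_assoc, mul_comm] at h2
  exact Nat.eq_of_mul_eq_mul_right (Nat.sub_pos_of_lt Finite.one_lt_card) h2

theorem sub_idx (hr : r.Prime) (hrq : ¬ r ∣ Nat.card F) {n k : ℕ} (hn : 1 ≤ n)
    (hk : Nat.card F = Nat.card F₀ ^ k)
    (h : r ∣ (subfieldSubgroup F₀ 1).relIndex (specialLinear (Fin n) F)) : ∃ j, 2 ≤ j ∧ j ≤ n ∧
      ((Nat.card F₀ : ZMod r) ^ k) ^ j = 1 ∧ ((Nat.card F₀ : ZMod r) ^ j = 1 → r ∣ k) := by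
  obtain ⟨n, rfl⟩ := Nat.exists_eq_add_of_le' hn
  have h1 := idx_dvd' (H := subfieldSubgroup F₀ 1) (SpecialLinearGroup.map (n := Fin (n + 1)) F₀.subtype)
    (fun A B e => Subtype.ext (Matrix.map_injective F₀.subtype.injective (congrArg Subtype.val e)))
    fun A => mem_sub.2 ⟨1, SpecialLinearGroup.toGL A, one_ne_zero, (one_smul F _).symm⟩
  have h2 := Finite.one_lt_card (α := F₀)
  have h3 : ∀ j, Nat.card F ^ (j + 2) - 1 = (∑ l ∈ Finset.range k, (Nat.card F₀ ^ (j + 2)) ^ l) *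
      (Nat.card F₀ ^ (j + 2) - 1) := fun j => by
    have := geom_sum_mul_add (Nat.card F₀ ^ (j + 2) - 1) k
    rw [Nat.sub_add_cancel (Nat.one_le_pow _ _ (by omega))] at this
    rw [hk, pow_right_comm, ← this, Nat.add_sub_cancel]
  rw [card_SL', card_SL', Finset.prod_congr rfl fun j _ => h3 j, Finset.prod_mul_distrib] at h1
  obtain ⟨j, h4, h5⟩ := (Prime.dvd_finsetProd_iff hr.prime _).1 (dvd_of_idx hr
    (Finset.prod_pos fun _ _ => Nat.sub_pos_of_lt (Nat.one_lt_pow (by omega) h2)) h1 h hrq)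
  refine ⟨j + 2, by omega, by have := Finset.mem_range.1 h4; omega, ?_, fun e => ?_⟩
  · rw [← Nat.cast_pow, ← hk, ← orderOf_dvd_iff_pow_eq_one, ord_dvd_iff Nat.card_pos, h3]
    exact h5.mul_right _
  · rw [← ZMod.natCast_eq_zero_iff] at h5 ⊢
    simpa [e] using h5

theorem isSquare_of_sq (h0 : (2 : F) ≠ 0) (hk : Nat.card F = Nat.card F₀ ^ 2) {x : F} (hx : x ∈ F₀) :
    IsSquare x := by
  have := Fintype.ofFinite F
  by_cases e : x = 0
  · exact e ▸ IsSquare.zero
  obtain ⟨k, h1⟩ : Odd (Nat.card F₀) := (Nat.odd_pow_iff two_ne_zero).1 (hk ▸ two_ne_zero_iff.1 h0)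
  have h2 := psi_eq_iff.2 hx
  rw [psi_apply, h1, pow_succ, mul_eq_right₀ e] at h2
  refine (FiniteField.isSquare_iff (fun e => h0 (by
    rw [← Nat.cast_ofNat, ← e]; exact ringChar.Nat.cast_ringChar)) e).2 ?_
  rw [← Nat.card_eq_fintype_card, hk, h1, show (2 * k + 1) ^ 2 / 2 = 2 * k * (k + 1) by
    rw [show (2 * k + 1) ^ 2 = 1 + 2 * (2 * k * (k + 1)) by ring]; omega, pow_mul, h2, one_pow]

end H2.Eu
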