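import Cfsg.Agent.H2.EluF

/-! Elusivity of `PSL_n(q)` on cosets of extension-field subgroups: the model `ρ : L →ₐ Matrix`,
eigenspaces of normalising elements (`ext_cases`), semilinear maps (`inG_semi`), the Frobenius map. -/

set_option autoImplicit false
set_option linter.unusedSectionVars false
namespace H2.Eu
open H11 H20.El Module Matrix Cfsg.Geo Polynomial
open scoped MatrixGroups

universe u
variable {F : Type u} [Field F] [Finite F] {ι : Type} [Fintype ι] [DecidableEq ι]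
  {V W : Type*} [AddCommGroup V] [Module F V] [AddCommGroup W] [Module F W]
  [FiniteDimensional F V] [FiniteDimensional F W] {r : ℕ}

theorem ext_model [Nonempty ι] {k : ℕ} {K : Subalgebra F (Matrix ι ι F)} (hK : IsFieldSubalgebra k K) :
    ∃ (L : Type u) (_ : Field L) (_ : Algebra F L) (_ : Finite L) (ρ : L →ₐ[F] Matrix ι ι F),
      finrank F L = k ∧ ρ.range = K := by
  have : IsField K := ⟨exists_pair_ne K, fun x y => Subtype.ext (hK.comm _ x.2 _ y.2), fun {a} ha =>
    let ⟨y, h1, h2⟩ := hK.inv _ a.2 fun e => ha (Subtype.ext e); ⟨⟨y, h1⟩, Subtype.ext h2⟩⟩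
  exact ⟨K, this.toField, K.algebra, Subtype.finite, K.val, hK.finrank_eq, K.range_val⟩

theorem scal_le_norm (K : Subalgebra F (Matrix ι ι F)) : scalars ι F ≤ subalgebraNormalizer K := by
  intro g hg k
  obtain ⟨c, hc⟩ := (mem_scalars_iff g).1 hg
  rw [show g.1 * k = k * g.1 by simp [hc], Matrix.mul_assoc, Units.mul_inv, Matrix.mul_one]

theorem dvd_of_irr {P : F[X]} (hP : Irreducible P) (hm : P.Monic) {f : End F V} (hf : aeval f P = 0) :
    P.natDegree ∣ finrank F V := by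
  rw [finrank_eq_ED f]
  refine Multiset.dvd_sum fun a ha => ?_
  obtain ⟨Q, hQ, rfl⟩ := Multiset.mem_map.1 ha
  obtain ⟨π, e, h3, h4, rfl⟩ := pp_ED f Q hQ
  rw [eq_of_monic_of_associated (h3.pow _) hm ((hP.dvd_iff.1 (aeval_eq_zero_iff_ED.1 hf _ hQ)).resolve_left
    fun hu => h4.not_isUnit ((isUnit_pow_succ_iff).1 hu)).symm]

theorem sim_of_full (hr : r.Prime) (hr2 : r ≠ 2) (h0 : (r : F) ≠ 0)
    (hi : orderOf (Nat.card F : ZMod r) = r - 1) {f : End F V} {g : End F W} (hV : finrank F V = r)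
    (hW : finrank F W = r) (hf : f ^ r = 1) (hg : g ^ r = 1) (hf' : f ≠ 1) (hg' : g ≠ 1) : Sim f g := by
  have h2 := hr.two_le
  have h1 := (PhiF_spec hr h0).2
  rw [hi] at h1
  obtain ⟨P, hP⟩ := Finset.card_eq_one.1 ((Nat.mul_eq_right (by omega)).1 h1)
  have key : ∀ s : Multiset F[X], (∀ Q ∈ s, Q ∈ PhiF F r) → s ≠ 0 → (s.map natDegree).sum ≤ r →
      s = {P} := fun s h3 h4 h5 => by
    rw [sum_natDegree_PhiF hr h0 h3, hi] at h5
    have h6 : s.card = 1 := by
      have := Multiset.card_pos.2 h4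
      by_contra e
      have := Nat.mul_le_mul_right (r - 1) (show 2 ≤ s.card by omega)
      omega
    obtain ⟨Q, rfl⟩ := Multiset.card_eq_one.1 h6
    simpa [hP] using h3
  obtain ⟨a, ha⟩ := ED_eq_nED f
  obtain ⟨b, hb⟩ := ED_eq_nED g
  rw [sim_iff_nED (hV.trans hW.symm), key _ (mem_PhiF_of_pow hr h0 hf) (mt nED_eq_zero.1 hf')
    (by have := finrank_eq_nED ha; omega), key _ (mem_PhiF_of_pow hr h0 hg) (mt nED_eq_zero.1 hg')
    (by have := finrank_eq_nED hb; omega)]

variable {L : Type*} [Field L] [Algebra F L] [Finite L] (ρ : L →ₐ[F] Matrix ι ι F)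

theorem exists_gen : ∃ θ : L, (minpoly F θ).natDegree = finrank F L ∧ ∀ a, ∃ p : F[X], aeval θ p = a := by
  obtain ⟨θ, h⟩ := Field.exists_primitive_element F L
  refine ⟨θ, (Field.primitive_element_iff_minpoly_natDegree_eq F θ).1 h, fun a => ?_⟩
  have : a ∈ Algebra.adjoin F {θ} := by
    rw [← IntermediateField.adjoin_simple_toSubalgebra_of_isAlgebraic (.of_finite F θ), h]; trivial
  rwa [Algebra.adjoin_singleton_eq_range_aeval] at this

theorem ext_cases [Nonempty ι] {f : End F W} (h : InG (subalgebraNormalizer ρ.range) f) (c : F) :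
    finrank F L ∣ finrank F (LinearMap.ker (f - c • 1)) ∨
      2 * finrank F (LinearMap.ker (f - c • 1)) ≤ Fintype.card ι := by
  obtain ⟨g, h1, h2⟩ := h
  have := (h2.aeval (X - C c)).finrank_ker
  rw [map_sub, map_sub, aeval_X, aeval_X, aeval_C, aeval_C, Algebra.algebraMap_eq_smul_one,
    Algebra.algebraMap_eq_smul_one] at this
  rw [this]
  have hE : ∀ x, x ∈ LinearMap.ker (mE g.1 - c • 1) ↔ g.1 *ᵥ x = c • x := fun x => sub_eq_zero
  obtain ⟨θ, h3, -⟩ := exists_gen (F := F) (L := L)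
  obtain ⟨θ', h4⟩ := (h1 (ρ θ)).1 ⟨θ, rfl⟩
  have h5 : ∀ x, g.1 *ᵥ ρ θ *ᵥ x = ρ θ' *ᵥ g.1 *ᵥ x := fun x => by
    rw [mulVec_mulVec, mulVec_mulVec, show ρ θ' = _ from h4, Units.inv_mul_cancel_right]
  have h6 : ∀ a : L, a ≠ 0 → ∀ x, ρ a *ᵥ x = 0 → x = 0 := fun a ha x hx => by
    have := congrArg (ρ a⁻¹ *ᵥ ·) hx
    simpa only [mulVec_mulVec, ← map_mul, inv_mul_cancel₀ ha, map_one, one_mulVec, mulVec_zero] using this
  by_cases e : θ' = θ
  · subst e
    have h7 : ∀ x ∈ LinearMap.ker (mE g.1 - c • 1), mE (ρ θ') x ∈ LinearMap.ker (mE g.1 - c • 1) :=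
      fun x hx => (hE _).2 (by rw [mE_apply, h5, (hE x).1 hx, mulVec_smul])
    refine .inl (h3 ▸ dvd_of_irr (minpoly.irreducible (.of_finite F θ')) (minpoly.monic (.of_finite F θ'))
      (f := (mE (ρ θ')).restrict h7) (LinearMap.ext fun x => Subtype.ext ?_))
    refine (aeval_intertwine (e := Submodule.subtype _) (g := mE (ρ θ')) (fun _ => rfl) _ x).trans ?_
    rw [aeval_mE, aeval_algHom_apply, minpoly.aeval, map_zero, mE_zero]; rfl
  have h7 : θ ≠ 0 := fun e' => by
    subst e'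
    exact e (ρ.toRingHom.injective (by simpa using h4))
  refine .inr ?_
  have h8 := Submodule.finrank_add_finrank_le_of_disjoint (s := LinearMap.ker (mE g.1 - c • 1))
    (t := (LinearMap.ker (mE g.1 - c • 1)).map (mE (ρ θ))) (Submodule.disjoint_def.2 (by
      rintro _ h8 ⟨x, h9, rfl⟩
      have h10 := (hE _).1 h8
      rw [mE_apply, h5, (hE x).1 h9, ← mulVec_smul, ← sub_eq_zero, ← sub_mulVec, ← map_sub] at h10
      have := h6 _ (sub_ne_zero.2 e) _ h10
      rw [← (hE x).1 h9] at this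
      rw [eq_zero_of_mulVec_eq_zero g.det_ne_zero this, map_zero]))
  rw [← (Submodule.equivMapOfInjective _ (LinearMap.ker_eq_bot.1 (LinearMap.ker_eq_bot'.2 (h6 θ h7)))
    _).finrank_eq, finrank_fintype_fun_eq_card] at h8
  omega

theorem inG_semi [Module L W] [IsScalarTower F L W] (hW : finrank F W = Fintype.card ι) {f : End F W}
    (hf : IsUnit f) {σ : L → L} (hσ : Function.Surjective σ) (h : ∀ a x, f (a • x) = σ a • f x) :
    InG (subalgebraNormalizer ρ.range) f := by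
  obtain ⟨θ, -, h3⟩ := exists_gen (F := F) (L := L)
  obtain ⟨e, he⟩ := sim_irr (minpoly.irreducible (.of_finite F θ)) (minpoly.monic (.of_finite F θ))
    (f := Algebra.lsmul F F W θ) (g := mE (ρ θ))
    (by rw [aeval_algHom_apply, minpoly.aeval, map_zero])
    (by rw [aeval_mE, aeval_algHom_apply, minpoly.aeval, map_zero, mE_zero]) (by simp [hW])
  have h4 : ∀ (a : L) x, e (a • x) = ρ a *ᵥ e x := fun a x => by
    obtain ⟨p, rfl⟩ := h3 a
    have := aeval_intertwine (e := e.toLinearMap) he p x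
    rwa [aeval_mE, aeval_algHom_apply, aeval_algHom_apply] at this
  obtain ⟨A, hA⟩ := mE_surj (e.conj f)
  obtain ⟨g, rfl⟩ := isUnit_mE.1 (hA ▸ (sim_conj e f).isUnit_iff.1 hf)
  have h5 : ∀ a, g.1 * ρ a * (g⁻¹).1 = ρ (σ a) := fun a => by
    rw [Units.mul_inv_eq_iff_eq_mul]
    refine matrix_ext_mulVec fun x => ?_
    obtain ⟨x, rfl⟩ := e.surjective x
    rw [← mulVec_mulVec, ← mulVec_mulVec, ← h4, ← mE_apply, ← mE_apply g.1, hA,
      LinearEquiv.conj_apply_apply, LinearEquiv.conj_apply_apply, e.symm_apply_apply,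
      e.symm_apply_apply, h, h4]
  refine ⟨g, fun k => ⟨?_, fun ⟨b, hb⟩ => ?_⟩, hA ▸ sim_conj e f⟩
  · rintro ⟨a, rfl⟩
    exact ⟨σ a, (h5 a).symm⟩
  · obtain ⟨a, rfl⟩ := hσ b
    exact ⟨a, (Units.mul_right_inj g).1 ((Units.mul_left_inj g⁻¹).1 ((h5 a).trans hb))⟩

theorem exists_frob_end (hL : finrank F L = Fintype.card ι) (h1 : Fintype.card ι ≠ 1) :
    ∃ φ : End F L, φ ^ Fintype.card ι = 1 ∧ (∀ z : F, φ ≠ z • 1) ∧
      InG (subalgebraNormalizer ρ.range) φ := by
  have := Fintype.ofFinite F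
  have h2 := FiniteField.orderOf_frobeniusAlgEquivOfAlgebraic F L
  set φ := FiniteField.frobeniusAlgEquivOfAlgebraic F L
  have h3 : φ.toLinearMap ^ Fintype.card ι = 1 := by
    rw [← hL, ← h2]
    exact (map_pow (AlgEquiv.toLinearMapHom F L) φ _).symm.trans (by rw [pow_orderOf_eq_one, map_one])
  refine ⟨φ.toLinearMap, h3, fun z hz => h1 ?_, inG_semi ρ hL (IsUnit.of_pow_eq_one h3 (by
    rw [← hL]; exact finrank_pos.ne')) φ.surjective fun a x => map_mul φ a x⟩
  have h4 : ∀ x, φ x = z • x := LinearMap.congr_fun hz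
  have h5 := h4 1
  rw [← hL, ← h2, _root_.orderOf_eq_one_iff]
  ext x
  rw [h4, ← one_mul x, ← smul_mul_assoc, ← h5, map_one]; rfl

theorem inG_neg (hL : finrank F L = 2) {g : End F W} {a b : ℕ}
    (h : Eig g (Multiset.replicate (2 * a) (-1) + Multiset.replicate (2 * b) 1))
    (hn : 2 * a + 2 * b = Fintype.card ι) : InG (subalgebraNormalizer ρ.range) g := by
  have h4 := (eig_smul_one (V := Fin a → L) (-1 : F)).prodMap (eig_smul_one (V := Fin b → L) (1 : F))
  have h5 : ∀ m, finrank F (Fin m → L) = 2 * m := fun m => by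
    simp [finrank_pi_fintype, hL, mul_comm]
  rw [h5, h5] at h4
  exact (inG_semi ρ (by simp [h5, hn]) ((LinearMap.isUnit_iff_isUnit_det _).2 (by rw [h4.det]; simp))
    Function.surjective_id fun a x => by simp).sim (h.sim h4)

theorem inG_sqrt (h0 : (2 : F) ≠ 0) (hL : finrank F L = 2) {g : End F (ι → F)} {z : F}
    (h1 : Irreducible (X ^ 2 - C z)) (h2 : g ^ 2 = z • 1) : InG (subalgebraNormalizer ρ.range) g := by
  have hz : z ≠ 0 := fun e => not_pow_of_irr le_rfl h1 0 (by simp [e])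
  obtain ⟨-, m, -, hm, -⟩ := irr_spec two_ne_zero h1 h2
  have := Fintype.ofFinite F
  have := Fintype.ofFinite L
  obtain ⟨k, hk⟩ := two_ne_zero_iff.1 h0
  have h3 := FiniteField.pow_card_sub_one_eq_one z hz
  rw [← Nat.card_eq_fintype_card, hk, Nat.add_sub_cancel] at h3
  obtain ⟨a, ha⟩ := (FiniteField.isSquare_iff (F := L) (fun e => h0 ((algebraMap F L).injective (by
    rw [map_ofNat, map_zero, ← Nat.cast_ofNat, ← e]; exact ringChar.Nat.cast_ringChar)))
    ((map_ne_zero (algebraMap F L)).2 hz)).2 (by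
      rw [← Nat.card_eq_fintype_card, natCard_eq_pow_finrank (K := F), hL, hk,
        show (2 * k + 1) ^ 2 / 2 = 2 * k * (k + 1) by
          rw [show (2 * k + 1) ^ 2 = 1 + 2 * (2 * k * (k + 1)) by ring]; omega,
        pow_mul, ← map_pow, h3, map_one, one_pow])
  have h4 : Algebra.lsmul F F (Fin m → L) a ^ 2 = z • 1 := by
    rw [← map_pow, sq, ← ha, AlgHom.commutes, Algebra.algebraMap_eq_smul_one]
  have h5 : finrank F (Fin m → L) = Fintype.card ι := by simpa [finrank_pi_fintype, hL] using hm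
  exact (inG_semi ρ h5 ((isUnit_pow_iff two_ne_zero).1 (by
    rw [h4, ← Algebra.algebraMap_eq_smul_one]; exact hz.isUnit.map _)) Function.surjective_id
    fun b x => smul_comm a b x).sim (sim_irr' two_ne_zero h1 h2 h4 (by simp [h5]))

end H2.Eu
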