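import Cfsg.Agent.H11.ThC

/-! Order of the centraliser of a unipotent element of a finite unitary group (`card_cent`), by
counting the vectors that generate a non-degenerate Jordan block of maximal size. -/

set_option autoImplicit false
namespace H2.Gu
open H11 H11.PForm Module Polynomial

universe u
variable {K : Type u} [Field K] [Finite K] {σ : K →+* K} {hσ : ∀ a, σ (σ a) = a}
  (hne : σ ≠ RingHom.id K) {q : ℕ} (hK : Nat.card K = q ^ 2)

omit [Finite K] in
include hσ hne in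
theorem semi_card {E : Type*} [AddCommGroup E] [Module K E] {d : E → E}
    (h1 : ∀ x y, d (x + y) = d x + d y) (h2 : ∀ (c : K) x, d (c • x) = σ c • d x)
    (h3 : ∀ x, d (d x) = x) (W : Submodule K E) (hW : ∀ x ∈ W, d x ∈ W) :
    Nat.card W = Nat.card {x // x ∈ W ∧ d x = x} ^ 2 := by
  obtain ⟨θ, hθ⟩ := exists_σ_ne hne
  have h4 : θ - σ θ ≠ 0 := sub_ne_zero.2 hθ.symm
  have h5 : ∀ x y, d (x - y) = d x - d y := fun x y => by
    rw [sub_eq_add_neg, h1, ← neg_one_smul K y, h2]; simp [sub_eq_add_neg]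
  rw [sq, ← Nat.card_prod]
  refine (Nat.card_congr (Equiv.ofBijective (fun p => (⟨p.1.1 + θ • p.2.1,
    W.add_mem p.1.2.1 (W.smul_mem _ p.2.2.1)⟩ : W)) ⟨?_, fun x => ?_⟩)).symm
  · rintro ⟨⟨a, ha, ha'⟩, b, hb, hb'⟩ ⟨⟨a', hc, hc'⟩, b', hd, hd'⟩ h
    have e1 : a + θ • b = a' + θ • b' := congrArg Subtype.val h
    have e2 := congrArg d e1
    rw [h1, h1, h2, h2, ha', hb', hc', hd'] at e2
    obtain rfl : b = b' := smul_right_injective E h4 (by
      simp only [sub_smul]
      linear_combination (norm := abel1) e1 - e2)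
    obtain rfl : a = a' := add_right_cancel e1
    rfl
  · have e1 : d ((θ - σ θ)⁻¹ • (x.1 - d x)) = (θ - σ θ)⁻¹ • (x.1 - d x) := by
      rw [h2, h5, h3, map_inv₀, map_sub, hσ, ← neg_sub θ, ← neg_sub x.1, inv_neg, neg_smul_neg]
    have e2 : (θ - σ θ)⁻¹ • (x.1 - d x) ∈ W := W.smul_mem _ (W.sub_mem x.2 (hW _ x.2))
    refine ⟨(⟨x - θ • (θ - σ θ)⁻¹ • (x.1 - d x), W.sub_mem x.2 (W.smul_mem _ e2), ?_⟩,
      ⟨_, e2, e1⟩), Subtype.ext (by simp)⟩
    rw [h5, h2, e1, sub_eq_sub_iff_sub_eq_sub, ← sub_smul, smul_smul, ← neg_sub θ, neg_mul,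
      mul_inv_cancel₀ h4, neg_one_smul, neg_sub]

/-- invariant non-degenerate hermitian forms on one Jordan block -/
def HF (σ : K →+* K) (d : ℕ) : Type u :=
  {B : (Fin (d + 1) → K) →ₛₗ[σ] (Fin (d + 1) → K) →ₗ[K] K // (∀ u, (∀ v, B u v = 0) → u = 0) ∧
    (∀ x y, B x y = σ (B y x)) ∧ ∀ x y, B ((shf K d + 1) x) ((shf K d + 1) y) = B x y}

omit [Finite K] in
theorem shf_e (d : ℕ) : (shf K d ^ d) (Pi.single (Fin.last d) 1) ≠ 0 := fun h => by
  simpa [shf_pow, Pi.single_apply, Fin.ext_iff] using congr($h 0)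

omit [Finite K] in
theorem pow_comm {V W : Type*} [AddCommGroup V] [Module K V] [AddCommGroup W] [Module K W]
    {f : End K V} {g : End K W} {e : V →ₗ[K] W} (h : ∀ x, e (f x) = g (e x)) (n : ℕ) (x : V) :
    e ((f ^ n) x) = (g ^ n) (e x) := by
  simpa only [aeval_X_pow] using aeval_intertwine h (Polynomial.X ^ n) x

include hσ hne hK in
theorem card_HF {d : ℕ} (B : HF σ d) : Nat.card (HF σ d) + q ^ d = q ^ (d + 1) := by
  obtain ⟨B, hB, hs, hg⟩ := B
  have : Finite (End K (Fin (d + 1) → K)) := Finite.of_injective _ DFunLike.coe_injective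
  set s := shf K d
  set e : Fin (d + 1) → K := Pi.single (Fin.last d) 1
  have hg' : Function.Surjective (s + 1 : End K _) := ((End.isUnit_iff _).1 (unip_shf d).1.isUnit).2
  let R : Submodule K (End K (Fin (d + 1) → K)) :=
    { carrier := {a | ∀ x, a (s x) = s (a x)}
      add_mem' := fun ha hb x => by simp [ha x, hb x]
      zero_mem' := fun x => by simp
      smul_mem' := fun c a ha x => by simp [ha x] }
  have hR : ∀ a, a ∈ R ↔ ∀ x, a ((s + 1) x) = (s + 1) (a x) := fun a => by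
    simp only [LinearMap.add_apply, End.one_apply, map_add, add_left_inj]; rfl
  let R₀ : Submodule K (End K (Fin (d + 1) → K)) :=
    R ⊓ (LinearMap.ker (s ^ d)).comap (LinearMap.applyₗ e)
  have hR₀ : ∀ a, a ∈ R₀ ↔ a ∈ R ∧ (s ^ d) (a e) = 0 := fun a => Iff.rfl
  have hU : ∀ a ∈ R, (s ^ d) (a e) = 0 ↔ ¬ IsUnit a := fun a ha => by
    rw [← not_iff_not, not_not]
    refine ⟨fun h => (LinearMap.isUnit_iff_ker_eq_bot _).2
      (LinearMap.ker_eq_bot.2 (shf_inj ha h)), fun h h' => shf_e (K := K) d ?_⟩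
    rw [← pow_comm ha] at h'
    exact ((End.isUnit_iff _).1 h).1 (h'.trans (map_zero _).symm)
  have hb : Function.Bijective fun a : R => a.1 e := ⟨fun a b h => Subtype.ext (shf_hom_ext a.2 b.2 h),
    fun y => by
      obtain ⟨φ, h1, h2⟩ := shf_sum (N := s) (d := d) (y := y) (by rw [shf_pow_succ]; rfl)
      exact ⟨⟨φ, h1⟩, h2⟩⟩
  have c1 : Nat.card R = (q ^ (d + 1)) ^ 2 := by
    rw [Nat.card_eq_of_bijective _ hb, natCard_eq_pow_finrank (K := K), hK, finrank_fin_fun,
      ← pow_mul, ← pow_mul, mul_comm]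
  have c2 : Nat.card R₀ = (q ^ d) ^ 2 := by
    have h1 := (unip_shf (F := K) d).1.finrank_ker d
    rw [(unip_shf d).2, add_sub_cancel_right] at h1
    rw [Nat.card_eq_of_bijective (fun a : R₀ => (⟨a.1 e, a.2.2⟩ : LinearMap.ker (s ^ d)))
      ⟨fun a b h => Subtype.ext (shf_hom_ext a.2.1 b.2.1 (congrArg Subtype.val h)), fun y => by
        obtain ⟨a, ha⟩ := hb.2 y.1
        exact ⟨⟨a.1, a.2, by change (s ^ d) (a.1 e) = 0; rw [show a.1 e = y from ha]; exact y.2⟩,
          Subtype.ext ha⟩⟩, natCard_eq_pow_finrank (K := K), hK, h1, ← pow_mul, ← pow_mul, mul_comm]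
    simp
  have d1 : ∀ a b, ladj hσ hB (a + b) = ladj hσ hB a + ladj hσ hB b := fun a b =>
    ladj_eq hσ hB (by simp [ladj_spec])
  have d2 : ∀ (c : K) a, ladj hσ hB (c • a) = σ c • ladj hσ hB a := fun a b =>
    ladj_eq hσ hB (by simp [ladj_spec, hσ])
  have d3 : ∀ a, ladj hσ hB (ladj hσ hB a) = a := fun a => ladj_eq hσ hB fun x y => by
    rw [hs x, ladj_spec, ← hs]
  have d4 : ∀ a b, ladj hσ hB (a * b) = ladj hσ hB b * ladj hσ hB a := fun a b =>
    ladj_eq hσ hB (by simp [ladj_spec])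
  have d5 : ∀ a, IsUnit a → IsUnit (ladj hσ hB a) := by
    rintro _ ⟨a, rfl⟩
    exact IsUnit.of_mul_eq_one (ladj hσ hB a⁻¹.1) (by
      rw [← d4, Units.inv_mul]; exact ladj_eq hσ hB fun _ _ => rfl)
  have d6 : ∀ a ∈ R, ladj hσ hB a ∈ R := fun a ha => (hR _).2 fun x => sep_ext hB fun y => by
    obtain ⟨y, rfl⟩ := hg' y
    rw [ladj_spec, (hR a).1 ha, hg, hg, ladj_spec]
  have e1 := semi_card (hσ := hσ) hne d1 d2 d3 R d6
  have e2 := semi_card (hσ := hσ) hne d1 d2 d3 R₀ fun a ha => ⟨d6 a ha.1, (hU _ (d6 a ha.1)).2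
    fun h => (hU a ha.1).1 ha.2 (d3 a ▸ d5 _ h)⟩
  rw [← Nat.pow_left_injective two_ne_zero (e1.symm.trans c1),
    ← Nat.pow_left_injective two_ne_zero (e2.symm.trans c2)]
  have e3 : Nat.card (HF σ d) = Nat.card {a // (a ∈ R ∧ ladj hσ hB a = a) ∧ IsUnit a} := by
    refine (Nat.card_eq_of_bijective (fun a => (⟨B.comp a.1, fun u hu => ((End.isUnit_iff _).1
      a.2.2).1 ((hB _ hu).trans (map_zero _).symm), fun x y => by
        rw [LinearMap.comp_apply, LinearMap.comp_apply, ← hs, ← ladj_spec hσ hB, a.2.1.2],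
      fun x y => by
        rw [LinearMap.comp_apply, LinearMap.comp_apply, (hR _).1 a.2.1.1, hg]⟩ : HF σ d))
      ⟨fun a b h => Subtype.ext (LinearMap.ext fun x => sep_ext hB fun y =>
        congrArg (fun B : HF σ d => B.1 x y) h), ?_⟩).symm
    · rintro ⟨B', h1, h2, h3⟩
      obtain ⟨a, ha⟩ := exists_rep hσ hB (B' := B')
      refine ⟨⟨a, ⟨(hR _).2 fun x => sep_ext hB fun y => ?_, ladj_eq hσ hB fun x y => ?_⟩,
        (LinearMap.isUnit_iff_ker_eq_bot _).2 (LinearMap.ker_eq_bot'.2 fun x hx => h1 x fun y => by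
          rw [← ha, hx]; simp)⟩, Subtype.ext (LinearMap.ext₂ ha)⟩
      · obtain ⟨y, rfl⟩ := hg' y
        rw [ha, hg, h3, ha]
      · rw [ha, h2, ← ha, ← hs]
  rw [e3, ← card_or fun a h1 h2 => (hU a h2.1.1).1 h2.1.2 h1.2]
  refine Nat.card_congr (Equiv.subtypeEquivRight fun a => ⟨?_, fun h => ?_⟩)
  · rintro (h | h)
    exacts [h.1, ⟨h.1.1, h.2⟩]
  · by_cases h' : IsUnit a
    exacts [.inl ⟨h, h'⟩, .inr ⟨⟨h.1, (hU a h.1).2 h'⟩, h.2⟩]

variable {V : Type u} [AddCommGroup V] [Module K V] [FiniteDimensional K V]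
  {S : PForm (unitP σ hσ) V}

omit [Finite K] [FiniteDimensional K V] in
theorem h_pow (g : S.Isom) (i : ℕ) (x y : V) : S.h (((iE g - 1) ^ i) x) ((iE g ^ i) y) =
    (-1) ^ i * S.h x (((iE g - 1) ^ i) y) := by
  induction i generalizing y with
  | zero => simp
  | succ i ih =>
    have h1 : ∀ x y, S.h ((iE g - 1) x) (iE g y) = - S.h x ((iE g - 1) y) := fun x y => by
      simp [iE]
    have h2 : Commute (iE g - 1) (iE g ^ i) :=
      ((Commute.refl _).sub_left (Commute.one_left _)).pow_right i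
    rw [pow_succ', pow_succ' (iE g), End.mul_apply, End.mul_apply, h1, ← End.mul_apply, h2.eq,
      End.mul_apply, ih, ← End.mul_apply, ← pow_succ, ← pow_succ', pow_succ (-1 : K)]
    ring

omit [Finite K] [FiniteDimensional K V] in
theorem h_top {g : S.Isom} {d : ℕ} (hd : (iE g - 1) ^ (d + 1) = 0) (x y : V) :
    S.h (((iE g - 1) ^ d) x) y = (-1) ^ d * S.h x (((iE g - 1) ^ d) y) := by
  obtain ⟨y, rfl⟩ := ((End.isUnit_iff _).1 ((isUnit_iE g).pow d)).2 y
  have h1 : ∀ i, (iE g - 1) ^ d * iE g ^ i = (iE g - 1) ^ d := fun i => by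
    induction i with
    | zero => simp
    | succ i ih =>
      rw [pow_succ, ← mul_assoc, ih, ← sub_eq_zero, ← mul_sub_one, ← pow_succ, hd]
  rw [h_pow, ← End.mul_apply _ (iE g ^ d), h1]

include hne hK in
theorem card_X (hS : S.Nondeg) {g : S.Isom} {d : ℕ} (hd : (iE g - 1) ^ (d + 1) = 0) {a : ℕ}
    (ha : finrank K (LinearMap.ker ((iE g - 1) ^ d)) + (a + 1) = finrank K V) :
    (Nat.card {y // S.h y (((iE g - 1) ^ d) y) ≠ 0} : ℤ) =
      (q ^ 2) ^ (finrank K V - (a + 1)) * ((q - 1) * q ^ a * (q ^ (a + 1) - (-1) ^ (a + 1))) := by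
  set N := (iE g - 1) ^ d
  obtain ⟨θ, h0, hθ⟩ : ∃ θ : K, θ ≠ 0 ∧ σ θ * (-1) ^ d = θ := by
    rcases Nat.even_or_odd d with h | h
    · exact ⟨1, one_ne_zero, by simp [h.neg_one_pow]⟩
    · obtain ⟨θ, h1, h2⟩ := exists_mem_unit_Λ hσ hne
      exact ⟨θ, h1, by rw [h.neg_one_pow]; linear_combination -mem_unitP_Λ.1 h2⟩
  obtain ⟨C, hC⟩ := (LinearMap.ker N).exists_isCompl
  let T := unitS hσ hne (θ • (S.h.compl₂ N).domRestrict₁₂ C C) ⟨fun x y => by
    change σ (θ * S.h x (N y)) = θ * S.h y (N x)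
    rw [map_mul, ← S.unit_symm, h_top hd, ← mul_assoc, hθ]⟩
  have hT : ∀ x y, T.h x y = θ * S.h x (N y) := fun x y => rfl
  have h1 : ∀ x ∈ LinearMap.ker N, ∀ y, S.h x (N y) = 0 := fun x hx y => by
    have := h_top hd x y
    rw [show N x = 0 from hx] at this
    simpa using this
  have hT' : T.Nondeg := fun x hx => by
    have h2 : x.1 ∈ LinearMap.ker N := hS _ fun y => by
      obtain ⟨k, hk, c, hc, rfl⟩ := Submodule.mem_sup.1 (hC.sup_eq_top ▸ Submodule.mem_top (x := y))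
      rw [h_top hd, map_add, show N k = 0 from hk, zero_add,
        (mul_eq_zero.1 ((hT _ _).symm.trans (hx ⟨c, hc⟩))).resolve_left h0, mul_zero]
    exact Subtype.ext (Submodule.disjoint_def.1 hC.disjoint _ h2 x.2)
  have h2 : finrank K C = a + 1 := by
    have := Submodule.finrank_add_eq_of_isCompl hC
    omega
  have h3 := unit_cnt hne hK 0 _ hT' h2
  have : Finite V := Module.finite_of_finite K
  have h4 : Nat.card {y // S.h y (N y) ≠ 0} =
      Nat.card (LinearMap.ker N) * Nat.card {c : C // ¬ T.Sing c} := by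
    rw [← Nat.card_prod]
    refine (Nat.card_congr (Equiv.trans (β := {x : LinearMap.ker N × C // ¬ T.Sing x.2})
      ⟨fun p => ⟨(p.1, p.2.1), p.2.2⟩, fun p => (p.1.1, ⟨p.1.2, p.2⟩), fun _ => rfl, fun _ => rfl⟩
      ((Submodule.prodEquivOfIsCompl _ _ hC).toEquiv.subtypeEquiv fun x => ?_))).symm
    rw [T.unit_sing, hT]
    change _ ↔ S.h (x.1 + x.2) (N (x.1 + x.2)) ≠ 0
    rw [map_add N, show N x.1 = 0 from x.1.2, zero_add, map_add, LinearMap.add_apply, h1 _ x.1.2]
    simp [h0]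
  have h5 : Nat.card {c : C // ¬ T.Sing c} + T.cnt 0 = (q ^ 2) ^ (a + 1) := by
    rw [cnt_zero, ← card_or fun _ h h' => h h', ← hK, ← h2, ← natCard_eq_pow_finrank (K := K)]
    exact Nat.card_congr (Equiv.subtypeUnivEquiv fun c => (em _).symm)
  have h6 : (q : ℤ) ≠ 0 := by have := two_le_of_card_sq hK; omega
  rw [h4, natCard_eq_pow_finrank (K := K) (V := LinearMap.ker N), hK,
    show finrank K (LinearMap.ker N) = finrank K V - (a + 1) by omega]
  push_cast
  congr 1
  refine mul_left_cancel₀ h6 ?_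
  have h7 := congrArg (Nat.cast : ℕ → ℤ) h5
  push_cast at h7
  simp only [map_zero, add_zero, if_true] at h3
  rw [neg_pow] at h3
  have h8 : ((-1 : ℤ) ^ (a + 1)) = - (-1) ^ a := by ring
  linear_combination q * h7 - h3

include hne in
theorem cent_rec (hS : S.Nondeg) {g : S.Isom} (hg : Unip (iE g)) {d : ℕ}
    (hd : (iE g - 1) ^ (d + 1) = 0) {y₀ : V} (hy₀ : S.h y₀ (((iE g - 1) ^ d) y₀) ≠ 0) :
    ∃ (U : Submodule K V) (k : (S.restrict U).Isom), (S.restrict U).Nondeg ∧ Unip (iE k) ∧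
      JT (iE g) = (d + 1) ::ₘ JT (iE k) ∧ Nonempty (HF σ d) ∧
      Nat.card {y // S.h y (((iE g - 1) ^ d) y) ≠ 0} * Nat.card (Subgroup.centralizer {k}) =
        Nat.card (HF σ d) * Nat.card (Subgroup.centralizer {g}) := by
  set N := iE g - 1
  set e : Fin (d + 1) → K := Pi.single (Fin.last d) 1
  choose φ h1 h2 using fun y => shf_sum (N := N) (d := d) (y := y) (by rw [hd]; rfl)
  have h3 : ∀ y a, φ y ((shf K d + 1) a) = g.1 (φ y a) := fun y a => by
    rw [LinearMap.add_apply, map_add, h1]; simp [N]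
  have hinv : ∀ y, ∀ x ∈ LinearMap.range (φ y), g.1 x ∈ LinearMap.range (φ y) := by
    rintro y _ ⟨a, rfl⟩; exact ⟨_, h3 y a⟩
  have hnd : ∀ y, S.h y ((N ^ d) y) ≠ 0 → (S.comap (φ y)).Nondeg := fun y hy => by
    let R := (S.comap (φ y)).perp ⊤
    have h4 : R ≤ R.comap (shf K d) := fun a ha x _ => by
      obtain ⟨x', rfl⟩ := ((End.isUnit_iff _).1 (unip_shf (F := K) d).1.isUnit).2 x
      have h5 : S.h (φ y x') (φ y a) = 0 := ha x' trivial
      have h6 : S.h (φ y ((shf K d + 1) x')) (φ y a) = 0 := ha _ trivial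
      change S.h (φ y _) (φ y (shf K d a)) = 0
      rw [← add_sub_cancel_right (shf K d a) a, map_sub, map_sub, h6, sub_zero, ← h5]
      change S.h _ (φ y ((shf K d + 1) a)) = _
      rw [h3, h3, isom_h]
    have h5 := shf_inj (N := R.mapQ R _ h4) (φ := R.mkQ) (fun a => rfl) fun h => hy (by
      rw [← pow_comm (e := R.mkQ) (f := shf K d) (fun a => rfl), Submodule.mkQ_apply,
        Submodule.Quotient.mk_eq_zero] at h
      have h6 : S.h (φ y e) (φ y ((shf K d ^ d) e)) = 0 := h e trivial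
      rwa [pow_comm (h1 y), h2] at h6)
    exact fun x hx => h5 (by
      rw [map_zero, Submodule.mkQ_apply, Submodule.Quotient.mk_eq_zero]
      exact fun z _ => (S.comap (φ y)).h_swap_zero (hx z))
  have hinj : ∀ y, S.h y ((N ^ d) y) ≠ 0 → Function.Injective (φ y) := fun y hy =>
    shf_inj (h1 y) fun h => hy (by rw [h2] at h; rw [h, map_zero])
  have hU : ∀ y, S.h y ((N ^ d) y) ≠ 0 → (S.restrict (LinearMap.range (φ y))).Nondeg := by
    intro y hy
    rw [restrict_nondeg_iff']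
    rintro _ ⟨a, rfl⟩ h
    rw [hnd y hy a fun b => h _ ⟨b, rfl⟩, map_zero]
  let W := fun y => rst g _ (perp_inv (hinv y))
  have hW : ∀ y, Unip (iE (W y)) := fun y => hg.restrict (perp_inv (hinv y))
  have hJ : ∀ y, S.h y ((N ^ d) y) ≠ 0 → JT (iE g) = (d + 1) ::ₘ JT (iE (W y)) := fun y hy => by
    have h4 : Sim (shf K d + 1) (iE (rst g _ (hinv y))) :=
      ⟨LinearEquiv.ofInjective _ (hinj y hy), fun x => Subtype.ext (h3 y x)⟩
    rw [(isim_rst g (hU y hy) (hinv y)).sim.JT_eq, iE_prodI, JT_prodMap, ← h4.JT_eq,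
      (unip_shf d).2, Multiset.singleton_add]
  have hI : ∀ x y, S.h x ((N ^ d) x) ≠ 0 → S.h y ((N ^ d) y) ≠ 0 → ISim (W x) (W y) :=
    fun x y hx hy => unit_isim hne (hS.restrict_perp (hU x hx)) (hS.restrict_perp (hU y hy))
      (((hW x).sim_iff (hW y)).2 ((Multiset.cons_inj_right _).1 ((hJ x hx).symm.trans (hJ y hy))))
  have hc : ∀ k : Subgroup.centralizer {g}, ∀ x, k.1.1 (g.1 x) = g.1 (k.1.1 x) := fun k x =>
    congrArg (fun l : S.Isom => l.1 x) (Subgroup.mem_centralizer_singleton_iff.1 k.2)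
  have hN : ∀ k : Subgroup.centralizer {g}, ∀ x, iE k.1 (N x) = N (iE k.1 x) := fun k x => by
    simp [N, hc]
  have hφ : ∀ (k : Subgroup.centralizer {g}) x a, φ (k.1.1 x) a = k.1.1 (φ x a) := fun k x a =>
    LinearMap.congr_fun (shf_hom_ext (ψ := iE k.1 ∘ₗ φ x) (h1 _) (fun a => by
      rw [LinearMap.comp_apply, h1, hN]; rfl) (by rw [h2, LinearMap.comp_apply, h2]; rfl)) a
  let B : {y // S.h y ((N ^ d) y) ≠ 0} → HF σ d := fun y => ⟨(S.comap (φ y)).h, hnd y y.2,
    fun a b => (S.comap (φ y)).unit_symm b a, fun a b => by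
      rw [comap_h, comap_h, h3, h3, isom_h]⟩
  have : Finite V := Module.finite_of_finite K
  have : Finite (HF σ d) := Finite.of_injective (fun B (x y : Fin (d + 1) → K) => B.1 x y)
    fun a b h => Subtype.ext (LinearMap.ext₂ fun x y => congrFun (congrFun h x) y)
  have key : ∀ b, Nat.card (Subgroup.centralizer {g}) =
      Nat.card {y // B y = b} * Nat.card (Subgroup.centralizer {W y₀}) := fun b => by
    obtain ⟨x, hx, rfl⟩ : ∃ x hx, B ⟨x, hx⟩ = b := by
      obtain ⟨c, h4, h5⟩ := exists_intertwine hσ (hnd y₀ hy₀) (ε := 1) (by simp) b.2.1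
        (fun a b => by rw [one_mul]; exact (B ⟨y₀, hy₀⟩).2.2.1 a b)
        (fun x y => by rw [one_mul]; exact b.2.2.1 x y) (B ⟨y₀, hy₀⟩).2.2.2 b.2.2.2 (.inl hne)
      have h6 : ∀ a, c (shf K d a) = shf K d (c a) := fun a => by simpa using h5 a
      have h7 : φ (φ y₀ (c e)) = φ y₀ ∘ₗ c.toLinearMap := shf_hom_ext (h1 _)
        (fun a => by simp [h6, h1]) (by rw [h2]; rfl)
      refine ⟨φ y₀ (c e), fun h => ?_, Subtype.ext (LinearMap.ext₂ fun x y => ?_)⟩
      · have h6' : ∀ n a, c ((shf K d ^ n) a) = (shf K d ^ n) (c a) :=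
          pow_comm (e := c.toLinearMap) h6
        rw [← pow_comm (h1 y₀), ← h6'] at h
        have h8 : b.1 e ((shf K d ^ d) e) = 0 := (h4 _ _).symm.trans h
        refine shf_e (K := K) d (b.2.1 _ fun v => ?_)
        have h9 : ∀ v, v = v (Fin.last d) • e + shf K d (fun i => Fin.cases 0 (fun j => v j.castSucc) i) :=
          fun v => funext fun i => by
            induction i using Fin.lastCases with
            | last => simp [e, shf]
            | cast i => simp [e, shf, Fin.ne_of_lt (Fin.castSucc_lt_last i)]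
        rw [b.2.2.1, h9 v, map_add, LinearMap.add_apply, map_smulₛₗ, LinearMap.smul_apply, h8,
          smul_zero, zero_add, ← h4, comap_h, h6, h1, h6', pow_comm (h1 y₀), S.unit_symm, h_top hd,
          ← End.mul_apply, ← pow_succ, hd]
        simp
      · refine Eq.trans ?_ (h4 x y)
        change S.h (φ _ x) (φ _ y) = _
        rw [h7]; rfl
    rw [card_eq_orbit_mul (G := Subgroup.centralizer {g}) x
      (fun y => ∃ hy, B ⟨y, hy⟩ = B ⟨x, hx⟩) fun y => ⟨?_, ?_⟩, (hI _ _ hy₀ hx).card_centralizer]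
    · congr 1
      · exact Nat.card_congr (Equiv.subtypeSubtypeEquivSubtypeExists
          (fun y => S.h y ((N ^ d) y) ≠ 0) (fun y => B y = B ⟨x, hx⟩)).symm
      · have h4 : ∀ k : Subgroup.centralizer {W x},
            ext2 (hU x hx) k.1 ∈ Subgroup.centralizer {g} := fun k => by
          refine Subgroup.mem_centralizer_singleton_iff.2 (isom_ext_perp (hU x hx) (fun v hv => ?_)
            fun v hv => ?_)
          · rw [isom_mul_apply, isom_mul_apply, ext2_left _ _ hv, ext2_left _ _ (hinv x v hv)]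
          · rw [isom_mul_apply, isom_mul_apply, ext2_right _ _ ⟨v, hv⟩,
              ext2_right _ _ ⟨_, perp_inv (hinv x) v hv⟩]
            exact congrArg (fun l : (S.restrict _).Isom => (l.1 ⟨v, hv⟩ : V))
              (Subgroup.mem_centralizer_singleton_iff.1 k.2)
        refine (Nat.card_eq_of_bijective (fun k => (⟨⟨_, h4 k⟩, ext2_left _ _ ⟨e, h2 x⟩⟩ :
          MulAction.stabilizer (Subgroup.centralizer {g}) x)) ⟨fun a b h => Subtype.ext
              (ext2_injective _ (congrArg (fun k => k.1.1) h)), ?_⟩).symm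
        · rintro ⟨k, hk⟩
          have h4 : k.1 ∈ (ext2 (hU x hx)).range := by
            rw [ext2_range]
            rintro _ ⟨a, rfl⟩
            rw [← hφ, show k.1.1 x = x from hk]
          obtain ⟨l, hl⟩ := h4
          refine ⟨⟨l, Subgroup.mem_centralizer_singleton_iff.2 (isom_ext fun v => Subtype.ext ?_)⟩,
            Subtype.ext (Subtype.ext hl)⟩
          rw [isom_mul_apply, isom_mul_apply, rst_apply, ← ext2_right (hU x hx) l,
            ← ext2_right (hU x hx) l, hl, rst_apply, hc]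
    · rintro ⟨hy, h⟩
      obtain ⟨c, h4, h5⟩ := hI x y hx hy
      let a := (LinearEquiv.ofInjective _ (hinj x hx)).symm ≪≫ₗ LinearEquiv.ofInjective _ (hinj y hy)
      have h6 : ∀ v, (a ⟨φ x v, v, rfl⟩ : V) = φ y v := fun v => by
        rw [show (⟨φ x v, v, rfl⟩ : LinearMap.range (φ x)) =
          LinearEquiv.ofInjective _ (hinj x hx) v from rfl]
        simp [a]
      obtain ⟨k, h7, h8, h9⟩ := exists_isom_of_decomp (hU x hx) (hU y hy) a (unit_isIsom (by
        rintro ⟨_, u, rfl⟩ ⟨_, v, rfl⟩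
        rw [restrict_h, restrict_h, h6, h6]
        exact congrArg (fun B : HF σ d => B.1 u v) h)) c h4
      have h10 : ∀ v, k (φ x v) = φ y v := fun v => (h8 ⟨_, v, rfl⟩).trans (h6 v)
      refine ⟨⟨⟨k, h7⟩, Subgroup.mem_centralizer_singleton_iff.2 (isom_ext_perp (hU x hx) ?_
        fun v hv => ?_)⟩, ?_⟩
      · rintro _ ⟨v, rfl⟩
        change k (g.1 _) = g.1 (k _)
        rw [← h3, h10, h10, h3]
      · exact (h9 ⟨_, perp_inv (hinv x) v hv⟩).trans ((congrArg Subtype.val (h5 ⟨v, hv⟩)).trans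
          (congrArg g.1 (h9 ⟨v, hv⟩).symm))
      · change k x = y
        rw [← h2 x, h10, h2]
    · rintro ⟨k, rfl⟩
      refine ⟨?_, Subtype.ext (LinearMap.ext₂ fun a b => ?_)⟩
      · change S.h (iE k.1 x) ((N ^ d) (iE k.1 x)) ≠ 0
        rw [← pow_comm (hN k)]
        exact (isom_h k.1 _ _).trans_ne hx
      · change S.h (φ (k.1.1 x) a) (φ (k.1.1 x) b) = _
        rw [hφ, hφ, isom_h]; rfl
  refine ⟨_, W y₀, hS.restrict_perp (hU _ hy₀), hW _, hJ _ hy₀, ⟨B ⟨_, hy₀⟩⟩, ?_⟩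
  have h4 : 0 < Nat.card (Subgroup.centralizer {W y₀}) := Nat.card_pos
  rw [card_eq_of_fibers B (Nat.card (Subgroup.centralizer {g}) /
    Nat.card (Subgroup.centralizer {W y₀})) fun b => by rw [key b, Nat.mul_div_cancel _ h4],
    mul_assoc, Nat.div_mul_cancel ⟨_, (key (B ⟨_, hy₀⟩)).trans (mul_comm _ _)⟩]

include hne in
theorem exists_X (hS : S.Nondeg) {g : S.Isom} {d : ℕ} (hd : (iE g - 1) ^ (d + 1) = 0) {a : ℕ}
    (hK : Nat.card K = q ^ 2)
    (ha : finrank K (LinearMap.ker ((iE g - 1) ^ d)) + (a + 1) = finrank K V) :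
    ∃ y, S.h y (((iE g - 1) ^ d) y) ≠ 0 := by
  by_contra! h
  have : IsEmpty {y // S.h y (((iE g - 1) ^ d) y) ≠ 0} := ⟨fun y => y.2 (h _)⟩
  have h1 := card_X hne hK hS hd ha
  have h2 : (2 : ℤ) ≤ q := by exact_mod_cast two_le_of_card_sq hK
  have h3 : (2 : ℤ) ≤ q ^ (a + 1) := h2.trans (le_self_pow₀ (by omega) (by omega))
  have h4 : (-1 : ℤ) ^ (a + 1) ≤ 1 := by rcases neg_one_pow_eq_or ℤ (a + 1) with h | h <;> omega
  rw [Nat.card_of_isEmpty] at h1
  exact absurd h1 (ne_of_lt (mul_pos (by positivity) (mul_pos (mul_pos (by omega) (by positivity))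
    (by omega))))

/-- `|GU_a(q)|` as an integer -/
def gz (q a : ℕ) : ℤ :=
  (q : ℤ) ^ (a * (a - 1) / 2) * ∏ j : Fin a, ((q : ℤ) ^ ((j : ℕ) + 1) - (-1) ^ ((j : ℕ) + 1))

theorem gz_succ (q a : ℕ) : gz q (a + 1) = q ^ a * (q ^ (a + 1) - (-1) ^ (a + 1)) * gz q a := by
  rw [gz, gz, Fin.prod_univ_castSucc, ← Nat.choose_two_right, ← Nat.choose_two_right,
    Nat.choose_succ_succ', Nat.choose_one_right, pow_add]
  simp only [Fin.val_castSucc, Fin.val_last]
  ring

include hne hK in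
theorem card_cent (D n : ℕ) : ∀ {V : Type u} [AddCommGroup V] [Module K V] [FiniteDimensional K V]
    {S : PForm (unitP σ hσ) V} {g : S.Isom}, S.Nondeg → Unip (iE g) → (JT (iE g)).card = n →
    (∀ k ∈ JT (iE g), k < D) → (Nat.card (Subgroup.centralizer {g}) : ℤ) =
      q ^ gam (JT (iE g)) D * ∏ i ∈ Finset.range D, gz q ((JT (iE g)).count i) := by
  induction n with
  | zero =>
    intro V _ _ _ S g _ _ h _
    rw [Multiset.card_eq_zero] at h
    have : Subsingleton V := finrank_zero_iff.1 (by rw [← JT_sum (iE g), h]; rfl)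
    have : Subsingleton S.Isom := ⟨fun a b => isom_ext fun x => Subsingleton.elim _ _⟩
    rw [h, Nat.card_unique, show gam 0 D = 0 by simp [gam], pow_zero, one_mul]
    exact (Finset.prod_eq_one fun i _ => show gz q 0 = 1 by simp [gz]).symm
  | succ n ih =>
    intro V _ _ _ S g hS hf h hD
    obtain ⟨d, ν, h1, h2⟩ := exists_max_cons (μ := JT (iE g)) (by rintro h'; simp [h'] at h)
      fun k => JT_pos
    have h5 : ∀ k ∈ JT (iE g), k ≤ d + 1 := by simpa [h1] using h2
    have hd := hf.pow_eq_zero_iff.2 h5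
    have ha : finrank K (LinearMap.ker ((iE g - 1) ^ d)) + (ν.count (d + 1) + 1) = finrank K V := by
      rw [hf.finrank_ker, ← JT_sum (iE g), ← Multiset.count_cons_self, ← h1]
      revert h5
      induction JT (iE g) using Multiset.induction_on with
      | empty => simp
      | cons k s ih =>
        intro h5
        have := ih fun j hj => h5 j (by simp [hj])
        have := h5 k (by simp)
        simp only [Multiset.map_cons, Multiset.sum_cons, Multiset.count_cons]
        split_ifs <;> omega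
    obtain ⟨y, hy⟩ := exists_X hne hS hd hK ha
    obtain ⟨U, k, hU, hk, h6, ⟨B⟩, h7⟩ := cent_rec hne hS hf hd hy
    obtain rfl : ν = JT (iE k) := (Multiset.cons_inj_right _).1 (h1.symm.trans h6)
    have h8 := congrArg (Nat.cast : ℕ → ℤ) h7
    have h9 := congrArg (Nat.cast : ℕ → ℤ) (card_HF (hσ := hσ) hne hK B)
    push_cast at h8 h9
    have h3 := hD (d + 1) (by simp [h1])
    have h4 := gam_cons h2 h3
    have h10 : (JT (iE k)).count (d + 1) ≤ (JT (iE k)).sum := (Multiset.count_le_card _ _).trans (by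
      simpa using Multiset.card_nsmul_le_sum fun j (hj : j ∈ JT (iE k)) => JT_pos hj)
    obtain ⟨b, hb⟩ := Nat.exists_eq_add_of_le h10
    rw [card_X hne hK hS hd ha, ih hU hk (by simpa [h1] using h) fun j hj => hD j (by simp [h1, hj]),
      ← JT_sum (iE g), h1, Multiset.sum_cons, hb, eq_sub_of_add_eq h9,
      show d + 1 + ((JT (iE k)).count (d + 1) + b) - ((JT (iE k)).count (d + 1) + 1) = d + b by
        omega] at h8
    rw [h1, prod_count_cons (gz q) h3 (gz_succ _ _),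
      show gam ((d + 1) ::ₘ JT (iE k)) D = gam (JT (iE k)) D + 2 * b + d by omega]
    have h11 : (2 : ℤ) ≤ q := by exact_mod_cast two_le_of_card_sq hK
    refine mul_left_cancel₀ (a := (q : ℤ) ^ d * (q - 1)) (mul_pos (by positivity) (by omega)).ne' ?_
    linear_combination -h8

end H2.Gu
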