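import Cfsg.Agent.S0356

/-! Counting in an S(3,6,22): `H2.S22.sum_a`, `sum_aa`, `sum_ia`, and `H2.S22.srg_of_sum`. -/

set_option linter.unusedSectionVars false

namespace H2
namespace S22

open Finset

theorem srg_of_sum {V : Type*} [Fintype V] (G : SimpleGraph V) [DecidableRel G.Adj]
    (A : V → V → ℤ) (hA : ∀ v w, A v w = if G.Adj v w then 1 else 0) (n k l m : ℕ)
    (hn : Fintype.card V = n) (hk : ∀ v, ∑ u, A v u = k)
    (hc : ∀ v w, v ≠ w → ∑ u, A v u * A w u = m + ((l : ℤ) - m) * A v w) :
    G.IsSRGWith n k l m := by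
  classical
  have hcn : ∀ v w, (Fintype.card (G.commonNeighbors v w) : ℤ) = ∑ u, A v u * A w u := by
    intro v w
    rw [Fintype.card_of_subtype (univ.filter fun u => G.Adj v u ∧ G.Adj w u)
      (fun u => by simp [SimpleGraph.mem_commonNeighbors]), card_filter]
    push_cast
    refine sum_congr rfl fun u _ => ?_
    rw [hA, hA]
    by_cases h1 : G.Adj v u <;> by_cases h2 : G.Adj w u <;> simp [h1, h2]
  refine ⟨hn, fun v => ?_, fun v w h => ?_, fun v w hvw h => ?_⟩
  · have : (G.degree v : ℤ) = ∑ u, A v u := by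
      rw [← SimpleGraph.card_neighborFinset_eq_degree, SimpleGraph.neighborFinset_eq_filter,
        card_filter]
      push_cast
      exact sum_congr rfl fun u _ => (hA v u).symm
    rw [hk] at this
    exact_mod_cast this
  · have := hcn v w
    rw [hc v w h.ne, hA, if_pos h] at this
    have : (Fintype.card (G.commonNeighbors v w) : ℤ) = l := by rw [this]; ring
    exact_mod_cast this
  · have := hcn v w
    rw [hc v w hvw, hA, if_neg h] at this
    have : (Fintype.card (G.commonNeighbors v w) : ℤ) = m := by rw [this]; ring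
    exact_mod_cast this

variable {α : Type*} {B : Set (Finset α)}

open Classical in
/-- incidence indicator -/
noncomputable def inc (x : α) (d : B) : ℤ := if x ∈ (d : Finset α) then 1 else 0

open Classical in
/-- disjointness indicator -/
noncomputable def dj (b d : B) : ℤ := if Disjoint (b : Finset α) (d : Finset α) then 1 else 0

open Classical in
/-- equality indicator -/
noncomputable def dl {β : Type*} (b d : β) : ℤ := if b = d then 1 else 0

theorem inc_mul_self (x : α) (d : B) : inc x d * inc x d = inc x d := by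
  unfold inc; split_ifs <;> simp

theorem dj_comm (b d : B) : dj b d = dj d b := by
  unfold dj
  by_cases h : Disjoint (b : Finset α) (d : Finset α)
  · rw [if_pos h, if_pos h.symm]
  · rw [if_neg h, if_neg (fun h' => h h'.symm)]

theorem sum_dl {β : Type*} [Fintype β] (b : β) (f : β → ℤ) : ∑ d, dl b d * f d = f b := by
  classical
  unfold dl
  simp [ite_mul]

variable [Fintype α] [Fintype B]

theorem sum_inc (hB : Cfsg.IsSteinerSystem 3 6 B) (d : B) : ∑ x, inc x d = 6 := by
  classical
  unfold inc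
  rw [sum_boole]
  have : (univ.filter fun x => x ∈ (d : Finset α)) = d := by ext; simp
  rw [this, hB.1 d d.2]; rfl

theorem sum3 (hB : Cfsg.IsSteinerSystem 3 6 B) {x y z : α} (hxy : x ≠ y) (hxz : x ≠ z)
    (hyz : y ≠ z) : ∑ d : B, inc x d * inc y d * inc z d = 1 := by
  classical
  obtain ⟨b, ⟨hb, hs⟩, hu⟩ := hB.2 {x, y, z} (card_eq_three.2 ⟨x, y, z, hxy, hxz, hyz, rfl⟩)
  rw [sum_eq_single (⟨b, hb⟩ : B)]
  · have h1 : x ∈ b := hs (by simp)
    have h2 : y ∈ b := hs (by simp)
    have h3 : z ∈ b := hs (by simp)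
    simp [inc, h1, h2, h3]
  · intro d _ hd
    by_contra h
    apply hd
    apply Subtype.ext
    refine hu d ⟨d.2, ?_⟩
    unfold inc at h
    intro w hw
    simp only [mem_insert, mem_singleton] at hw
    rcases hw with rfl | rfl | rfl <;> by_contra h' <;> simp [h'] at h
  · simp

theorem sum2 (hα : Fintype.card α = 22) (hB : Cfsg.IsSteinerSystem 3 6 B) {x y : α}
    (hxy : x ≠ y) : ∑ d : B, inc x d * inc y d = 5 := by
  classical
  set S := ∑ d : B, inc x d * inc y d with hS
  have h1 : 6 * S = ∑ z, ∑ d : B, inc x d * inc y d * inc z d := by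
    rw [sum_comm, hS, mul_sum]
    refine sum_congr rfl fun d _ => ?_
    rw [← mul_sum, sum_inc hB]; ring
  have h2 : ∀ z, ∑ d : B, inc x d * inc y d * inc z d = 1 + dl x z * (S - 1) + dl y z * (S - 1) := by
    intro z
    by_cases hx : x = z
    · subst hx
      have : ∑ d : B, inc x d * inc y d * inc x d = S :=
        sum_congr rfl fun d _ => by rw [mul_right_comm, inc_mul_self]
      rw [this]; simp [dl, hxy.symm]
    by_cases hy : y = z
    · subst hy
      have : ∑ d : B, inc x d * inc y d * inc y d = S :=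
        sum_congr rfl fun d _ => by rw [mul_assoc, inc_mul_self]
      rw [this]; simp [dl, hxy]
    rw [sum3 hB hxy hx hy]; simp [dl, hx, hy]
  simp only [h2, sum_add_distrib, sum_dl, sum_const, card_univ, hα] at h1
  simp at h1
  omega

theorem sum1 (hα : Fintype.card α = 22) (hB : Cfsg.IsSteinerSystem 3 6 B) (x : α) :
    ∑ d : B, inc x d = 21 := by
  classical
  set S := ∑ d : B, inc x d with hS
  have h1 : 6 * S = ∑ z, ∑ d : B, inc x d * inc z d := by
    rw [sum_comm, hS, mul_sum]
    refine sum_congr rfl fun d _ => ?_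
    rw [← mul_sum, sum_inc hB]; ring
  have h2 : ∀ z, ∑ d : B, inc x d * inc z d = 5 + dl x z * (S - 5) := by
    intro z
    by_cases hx : x = z
    · subst hx
      simp [inc_mul_self, dl, hS]
    rw [sum2 hα hB hx]; simp [dl, hx]
  simp only [h2, sum_add_distrib, sum_dl, sum_const, card_univ, hα] at h1
  simp at h1
  omega

theorem sum2' (hα : Fintype.card α = 22) (hB : Cfsg.IsSteinerSystem 3 6 B) (x y : α) :
    ∑ d : B, inc x d * inc y d = 5 + 16 * dl x y := by
  by_cases h : x = y
  · subst h; simp [inc_mul_self, sum1 hα hB, dl]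
  · rw [sum2 hα hB h]; simp [dl, h]

theorem card_B (hα : Fintype.card α = 22) (hB : Cfsg.IsSteinerSystem 3 6 B) :
    Fintype.card B = 77 := by
  have h1 : ∑ x, ∑ d : B, inc x d = ∑ d : B, ∑ x, inc x d := sum_comm
  simp only [sum1 hα hB, sum_inc hB, sum_const, card_univ, hα, nsmul_eq_mul] at h1
  omega

theorem dj_self (hB : Cfsg.IsSteinerSystem 3 6 B) (b : B) : dj b b = 0 := by
  unfold dj
  rw [if_neg]
  intro h
  have := hB.1 b b.2
  rw [disjoint_self.1 h] at this
  simp at this

theorem inter (hα : Fintype.card α = 22) (hB : Cfsg.IsSteinerSystem 3 6 B) (b d : B) :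
    ∑ x, inc x b * inc x d = 2 - 2 * dj b d + 4 * dl b d := by
  classical
  by_cases h : b = d
  · subst h; simp [inc_mul_self, sum_inc hB, dj_self hB, dl]
  have h1 : ∑ x, inc x b * inc x d = (((b : Finset α) ∩ d).card : ℤ) := by
    have : ((b : Finset α) ∩ d) = univ.filter fun x => x ∈ (b : Finset α) ∧ x ∈ (d : Finset α) := by
      ext; simp
    rw [this, card_filter]
    push_cast
    refine sum_congr rfl fun x _ => ?_
    unfold inc
    by_cases h1 : x ∈ (b : Finset α) <;> by_cases h2 : x ∈ (d : Finset α) <;> simp [h1, h2]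
  rw [h1]
  rcases Cfsg.Agent.S0356.result hα hB b.2 d.2 (fun e => h (Subtype.ext e)) with h2 | h2
  · have : Disjoint (b : Finset α) d := disjoint_iff_inter_eq_empty.2 (card_eq_zero.1 h2)
    simp [h2, dj, dl, h, this]
  · have : ¬ Disjoint (b : Finset α) d := fun h' => by
      rw [disjoint_iff_inter_eq_empty.1 h'] at h2; simp at h2
    simp [h2, dj, dl, h, this]

theorem sum_a (hα : Fintype.card α = 22) (hB : Cfsg.IsSteinerSystem 3 6 B) (b : B) :
    ∑ d, dj b d = 16 := by
  have h1 : ∑ d : B, ∑ x, inc x b * inc x d = ∑ x, inc x b * 21 := by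
    rw [sum_comm]
    exact sum_congr rfl fun x _ => by rw [← mul_sum, sum1 hα hB]
  rw [← sum_mul, sum_inc hB] at h1
  have h2 := sum_dl b (fun _ => (1 : ℤ))
  simp only [mul_one] at h2
  simp only [inter hα hB, sum_add_distrib, sum_sub_distrib, ← mul_sum, h2, sum_const, card_univ,
    card_B hα hB] at h1
  simp at h1
  omega

theorem sum_ia (hα : Fintype.card α = 22) (hB : Cfsg.IsSteinerSystem 3 6 B) (x : α) (b : B) :
    ∑ d, inc x d * dj b d = 6 - 6 * inc x b := by
  have h1 : ∑ d : B, inc x d * ∑ y, inc y b * inc y d = ∑ y, inc y b * (5 + 16 * dl x y) := by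
    simp only [mul_sum]
    rw [sum_comm]
    refine sum_congr rfl fun y _ => ?_
    rw [← sum2' hα hB, mul_sum]
    exact sum_congr rfl fun d _ => by ring
  have h2 : ∑ y, inc y b * (5 + 16 * dl x y) = 30 + 16 * inc x b := by
    have : ∀ y, inc y b * (5 + 16 * dl x y) = 5 * inc y b + 16 * (dl x y * inc y b) :=
      fun y => by ring
    simp only [this, sum_add_distrib, ← mul_sum, sum_inc hB, sum_dl]; ring
  have h3 : ∀ d, inc x d * ∑ y, inc y b * inc y d =
      2 * inc x d - 2 * (inc x d * dj b d) + 4 * (dl b d * inc x d) := fun d => by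
    rw [inter hα hB]; ring
  rw [h2] at h1
  simp only [h3, sum_add_distrib, sum_sub_distrib, ← mul_sum, sum_dl, sum1 hα hB] at h1
  omega

theorem sum_aa (hα : Fintype.card α = 22) (hB : Cfsg.IsSteinerSystem 3 6 B) (b c : B)
    (hbc : b ≠ c) : ∑ d, dj b d * dj c d = 4 - 4 * dj b c := by
  have h1 : ∑ d : B, dj b d * ∑ y, inc y c * inc y d = ∑ y, inc y c * (6 - 6 * inc y b) := by
    simp only [mul_sum]
    rw [sum_comm]
    refine sum_congr rfl fun y _ => ?_
    rw [← sum_ia hα hB, mul_sum]
    exact sum_congr rfl fun d _ => by ring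
  have h2 : ∑ y, inc y c * (6 - 6 * inc y b) = 36 - 6 * (2 - 2 * dj b c) := by
    have : ∀ y, inc y c * (6 - 6 * inc y b) = 6 * inc y c - 6 * (inc y b * inc y c) :=
      fun y => by ring
    simp only [this, sum_sub_distrib, ← mul_sum, sum_inc hB, inter hα hB, dl, if_neg hbc]; ring
  have h3 : ∀ d, dj b d * ∑ y, inc y c * inc y d =
      2 * dj b d - 2 * (dj b d * dj c d) + 4 * (dl c d * dj b d) := fun d => by
    rw [inter hα hB]; ring
  rw [h2] at h1
  simp only [h3, sum_add_distrib, sum_sub_distrib, ← mul_sum, sum_dl, sum_a hα hB] at h1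
  omega

section adj
omit [Fintype α] [Fintype B]
open Cfsg

theorem adj_nn : ¬ (pointBlockGraph B).Adj none none := fun h => h.ne rfl
theorem adj_np (x : α) : (pointBlockGraph B).Adj none (some (Sum.inl x)) :=
  (SimpleGraph.fromRel_adj _ _ _).2 ⟨by simp, Or.inl trivial⟩
theorem adj_nb (b : B) : ¬ (pointBlockGraph B).Adj none (some (Sum.inr b)) := fun h =>
  ((SimpleGraph.fromRel_adj _ _ _).1 h).2.elim (fun h => h) (fun h => h)
theorem adj_pp (x y : α) : ¬ (pointBlockGraph B).Adj (some (Sum.inl x)) (some (Sum.inl y)) :=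
  fun h => ((SimpleGraph.fromRel_adj _ _ _).1 h).2.elim (fun h => h) (fun h => h)
theorem adj_pb (x : α) (b : B) :
    (pointBlockGraph B).Adj (some (Sum.inl x)) (some (Sum.inr b)) ↔ x ∈ (b : Finset α) :=
  ⟨fun h => ((SimpleGraph.fromRel_adj _ _ _).1 h).2.elim (fun h => h) (fun h => h.elim),
    fun h => (SimpleGraph.fromRel_adj _ _ _).2 ⟨by simp, Or.inl h⟩⟩
theorem adj_bb (b c : B) :
    (pointBlockGraph B).Adj (some (Sum.inr b)) (some (Sum.inr c)) ↔
      b ≠ c ∧ Disjoint (b : Finset α) (c : Finset α) :=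
  ⟨fun h => ⟨fun e => h.ne (by rw [e]),
      ((SimpleGraph.fromRel_adj _ _ _).1 h).2.elim (fun h => h) (fun h => Disjoint.symm h)⟩,
    fun h => (SimpleGraph.fromRel_adj _ _ _).2 ⟨by simpa using h.1, Or.inl h.2⟩⟩

end adj

end S22
end H2
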