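import Cfsg.Agent.H2.S22
import Cfsg.Agent.S0410
import Cfsg.Agent.S0414
import Cfsg.Agent.S0428

/-! The Higman–Sims graph: every SRG(100,22,0,6) is a point-block graph of an S(3,6,22)
(`H2.HSG.model`), pointed uniqueness (`iso_pointed`), `card_aut`. -/

set_option linter.unusedSectionVars false

namespace H2
namespace HSG

open Finset S22 Cfsg

section model
variable {V : Type*} [Fintype V] (G : SimpleGraph V) [DecidableRel G.Adj]

/-- adjacency indicator -/
def A (x y : V) : ℤ := if G.Adj x y then 1 else 0

theorem A_comm (x y : V) : A G x y = A G y x := by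
  unfold A; simp only [G.adj_comm]

theorem A_self (x : V) : A G x x = 0 := by simp [A]

theorem A_sq (x y : V) : A G x y * A G x y = A G x y := by unfold A; split_ifs <;> simp

theorem sum_deg (x : V) : ∑ u, A G x u = G.degree x := by
  classical
  rw [← SimpleGraph.card_neighborFinset_eq_degree, SimpleGraph.neighborFinset_eq_filter,
    card_filter]
  push_cast
  rfl

theorem sum_cn (v w : V) : ∑ u, A G v u * A G w u = (Fintype.card (G.commonNeighbors v w) : ℤ) := by
  classical
  rw [Fintype.card_of_subtype (univ.filter fun u => G.Adj v u ∧ G.Adj w u)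
    (fun u => by simp [SimpleGraph.mem_commonNeighbors]), card_filter]
  push_cast
  refine sum_congr rfl fun u _ => ?_
  unfold A
  by_cases h1 : G.Adj v u <;> by_cases h2 : G.Adj w u <;> simp [h1, h2]

variable {G}

theorem srg_cn {n k l m : ℕ} (hG : G.IsSRGWith n k l m) (x y : V) :
    ∑ u, A G x u * A G y u = k * dl x y + l * A G x y + m * (1 - A G x y - dl x y) := by
  by_cases h : x = y
  · subst h
    simp [A_sq, sum_deg, hG.regular.degree_eq, dl, A_self]
  rw [sum_cn]
  by_cases ha : G.Adj x y
  · rw [hG.of_adj x y ha]; simp [dl, h, A, ha]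
  · rw [hG.of_not_adj h ha]; simp [dl, h, A, ha]

theorem no_tri {n k m : ℕ} (hG : G.IsSRGWith n k 0 m) {x y z : V} (h1 : G.Adj x y) (h2 : G.Adj x z) :
    ¬ G.Adj y z := fun h3 => by
  have := hG.of_adj x y h1
  rw [Fintype.card_eq_zero_iff] at this
  exact this.false ⟨z, h2, h3⟩

variable (G) in
/-- points -/
abbrev P (v : V) := {x : V // G.Adj v x}

variable (G) in
/-- far vertices -/
abbrev Q (v : V) := {d : V // d ≠ v ∧ ¬ G.Adj v d}

/-- the decomposition map -/
def dec (v : V) : Option (P G v ⊕ Q G v) → V
  | none => v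
  | some (Sum.inl x) => x
  | some (Sum.inr d) => d

theorem dec_bij (v : V) : Function.Bijective (dec (G := G) v) := by
  constructor
  · rintro (_ | x | b) (_ | y | c) h
    · rfl
    · exact absurd h y.2.ne
    · exact absurd h c.2.1.symm
    · exact absurd h x.2.ne.symm
    · rw [Subtype.ext h]
    · exact absurd (show G.Adj v c from (show (x : V) = c from h) ▸ x.2) c.2.2
    · exact absurd h b.2.1
    · exact absurd (show G.Adj v b from (show (b : V) = y from h).symm ▸ y.2) b.2.2
    · rw [Subtype.ext h]
  · intro u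
    by_cases h : u = v
    · exact ⟨none, h.symm⟩
    by_cases h2 : G.Adj v u
    · exact ⟨some (Sum.inl ⟨u, h2⟩), rfl⟩
    · exact ⟨some (Sum.inr ⟨u, h, h2⟩), rfl⟩

variable [DecidableEq V]

theorem split (v : V) (F : V → ℤ) :
    ∑ u, F u = F v + ∑ x : P G v, F x + ∑ d : Q G v, F d := by
  rw [← (Equiv.ofBijective _ (dec_bij (G := G) v)).sum_comp, Fintype.sum_option,
    Fintype.sum_sum_type, add_assoc]
  rfl

variable (hG : G.IsSRGWith 100 22 0 6) (v : V)
include hG

theorem A_vP (x : P G v) : A G v x = 1 := if_pos x.2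
theorem A_vQ (d : Q G v) : A G v d = 0 := if_neg d.2.2
theorem A_PP (x y : P G v) : A G x y = 0 := if_neg (no_tri hG x.2 y.2)

theorem deg22 (x : V) : ∑ u, A G x u = 22 := by rw [sum_deg, hG.regular.degree_eq]; rfl

theorem card_P : Fintype.card (P G v) = 22 := by
  have := deg22 hG v
  rw [split (G := G) v] at this
  simp only [A_self, A_vP hG, A_vQ hG, sum_const, card_univ, nsmul_eq_mul] at this
  omega

theorem card_Q : Fintype.card (Q G v) = 77 := by
  have := split (G := G) v (fun _ => 1)
  simp only [sum_const, card_univ, nsmul_eq_mul, hG.card, card_P hG] at this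
  omega

theorem dl_val {p : V → Prop} (x y : Subtype p) : dl (x : V) y = dl x y := by
  unfold dl; simp only [Subtype.ext_iff]; congr

theorem p2 (x y : P G v) : ∑ d : Q G v, A G x d * A G y d = 5 + 16 * dl x y := by
  have := srg_cn hG x y
  rw [split (G := G) v, dl_val hG] at this
  simp only [A_PP hG, A_comm G _ v, A_vP hG] at this
  simp at this
  omega

theorem p1 (x : P G v) : ∑ d : Q G v, A G x d = 21 := by
  have := p2 hG v x x
  simpa [A_sq, dl] using this

theorem b1 (b : Q G v) : ∑ x : P G v, A G x b = 6 := by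
  have := srg_cn hG v b
  rw [split (G := G) v] at this
  simp only [A_self, A_vP hG, A_vQ hG, dl, if_neg b.2.1.symm, A_comm G b] at this
  simpa using this

theorem b2 (b : Q G v) : ∑ d : Q G v, A G b d = 16 := by
  have := deg22 hG b
  rw [split (G := G) v, A_comm, A_vQ hG] at this
  have h := b1 hG v b
  simp only [A_comm G _ (b : V)] at h
  omega

omit hG in
/-- intersection number -/
def mm (b d : Q G v) : ℤ := ∑ x : P G v, A G x b * A G x d

theorem mm_adj (b d : Q G v) (h : G.Adj b d) : mm v b d = 0 := by
  refine sum_eq_zero fun x _ => ?_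
  unfold A
  split_ifs with h1 h2
  · exact absurd h (no_tri hG h1 h2)
  all_goals simp

theorem mm_self (b : Q G v) : mm v b b = 6 := by simp [mm, A_sq, b1 hG]

theorem mm_two (b d : Q G v) (hbd : b ≠ d) (h : ¬ G.Adj b d) : mm v b d = 2 := by
  have s1 : ∑ d, mm v b d = 126 := by
    unfold mm
    rw [sum_comm]
    simp only [← mul_sum, p1 hG]
    rw [← sum_mul, b1 hG]; rfl
  have s2 : ∑ d, mm v b d * mm v b d = 276 := by
    have : ∀ d, mm v b d * mm v b d =
        ∑ x : P G v, ∑ y : P G v, A G x b * A G y b * (A G x d * A G y d) := by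
      intro d
      unfold mm
      rw [sum_mul_sum]
      exact sum_congr rfl fun x _ => sum_congr rfl fun y _ => by ring
    simp only [this]
    rw [sum_comm]
    have h2 : ∀ x : P G v, ∑ d : Q G v, ∑ y : P G v, A G x b * A G y b * (A G x d * A G y d) =
        46 * A G x b := by
      intro x
      rw [sum_comm]
      simp only [← mul_sum, p2 hG]
      have : ∀ y : P G v, A G x b * A G y b * (5 + 16 * dl x y) =
          5 * A G x b * A G y b + 16 * (dl x y * (A G x b * A G y b)) := fun y => by ring
      simp only [this, sum_add_distrib, ← mul_sum, sum_dl, b1 hG, A_sq]; ring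
    simp only [h2, ← mul_sum, b1 hG]; rfl
  have s3 : ∀ d : Q G v, A G b d * mm v b d = 0 := fun d => by
    unfold A; split_ifs with h1
    · rw [mm_adj hG v b d h1]; simp
    · simp
  have s4 : ∑ d : Q G v, (1 - A G b d - dl b d) * (mm v b d - 2) ^ 2 = 0 := by
    have : ∀ d : Q G v, (1 - A G b d - dl b d) * (mm v b d - 2) ^ 2 =
        mm v b d * mm v b d - 4 * mm v b d + 4 - 4 * A G b d - dl b d * (mm v b d - 2) ^ 2 :=
      fun d => by linear_combination (4 - mm v b d) * s3 d
    simp only [this, sum_add_distrib, sum_sub_distrib, ← mul_sum, sum_dl, s1, s2, b2 hG, mm_self hG,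
      sum_const, card_univ, card_Q hG]
    norm_num
  have s5 := (sum_eq_zero_iff_of_nonneg (fun d _ => by
    refine mul_nonneg ?_ (sq_nonneg _)
    by_cases e : b = d
    · subst e; simp [A_self, dl]
    · unfold A; split_ifs <;> simp [dl, e])).1 s4 d (mem_univ _)
  simp only [A, if_neg h, dl, if_neg hbd] at s5
  have : mm v b d - 2 = 0 := by simpa using s5
  omega

omit hG in
/-- the block of a far vertex -/
def blk (d : Q G v) : Finset (P G v) := univ.filter fun x => G.Adj x d

omit hG in
theorem card_inter (b d : Q G v) : ((blk v b ∩ blk v d).card : ℤ) = mm v b d := by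
  unfold blk mm
  rw [← filter_and, card_filter]
  push_cast
  refine sum_congr rfl fun x _ => ?_
  unfold A
  by_cases h1 : G.Adj x b <;> by_cases h2 : G.Adj x d <;> simp [h1, h2]

theorem card_blk (b : Q G v) : (blk v b).card = 6 := by
  have := card_inter v b b
  rw [inter_self, mm_self hG] at this
  exact_mod_cast this

theorem card_inter_le (b d : Q G v) (h : b ≠ d) : (blk v b ∩ blk v d).card ≤ 2 := by
  have := card_inter v b d
  by_cases h1 : G.Adj b d
  · rw [mm_adj hG v b d h1] at this; omega
  · rw [mm_two hG v b d h h1] at this; omega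

theorem blk_inj : Function.Injective (blk (G := G) v) := by
  intro b d h
  by_contra hne
  have := card_inter_le hG v b d hne
  rw [h, inter_self, card_blk hG] at this
  omega

theorem disj_iff (b d : Q G v) (h : b ≠ d) : Disjoint (blk v b) (blk v d) ↔ G.Adj b d := by
  have := card_inter v b d
  rw [disjoint_iff_inter_eq_empty, ← card_eq_zero]
  by_cases h1 : G.Adj b d
  · rw [mm_adj hG v b d h1] at this; simp only [h1, iff_true]; omega
  · rw [mm_two hG v b d h h1] at this; simp only [h1, iff_false]; omega

theorem steiner : IsSteinerSystem 3 6 (Set.range (blk (G := G) v)) := by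
  refine ⟨by rintro _ ⟨b, rfl⟩; exact card_blk hG v b, fun s hs => ?_⟩
  have huniq : ∀ s : Finset (P G v), s.card = 3 → ∀ b d : Q G v, s ⊆ blk v b → s ⊆ blk v d → b = d := by
    intro s hs b d h1 h2
    by_contra hne
    have := card_inter_le hG v b d hne
    have := card_le_card (subset_inter h1 h2)
    omega
  have hex : ∃ b, s ⊆ blk v b := by
    obtain ⟨x, y, z, hxy, hxz, hyz, rfl⟩ := card_eq_three.1 hs
    let t : P G v → ℤ := fun w => ∑ d : Q G v, A G x d * A G y d * A G w d
    have t1 : ∑ w, t w = 30 := by
      simp only [t]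
      rw [sum_comm]
      simp only [← mul_sum, b1 hG]
      rw [← sum_mul, p2 hG]; simp [dl, hxy]
    have tx : t x = 5 := by
      have := p2 hG v x y
      simp only [dl, if_neg hxy] at this
      simp only [t, mul_right_comm _ (A G y _), A_sq, this]; rfl
    have ty : t y = 5 := by
      have := p2 hG v x y
      simp only [dl, if_neg hxy] at this
      simp only [t, mul_assoc, A_sq, this]; rfl
    have tc : ∀ w, t w = ((univ.filter fun d : Q G v => ({x, y, w} : Finset _) ⊆ blk v d).card : ℤ) := by
      intro w
      rw [card_filter]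
      push_cast
      refine sum_congr rfl fun d _ => ?_
      unfold A
      by_cases h1 : G.Adj x d <;> by_cases h2 : G.Adj y d <;> by_cases h3 : G.Adj w d <;>
        simp [h1, h2, h3, blk, insert_subset_iff]
    have tle : ∀ w, x ≠ w → y ≠ w → t w ≤ 1 := by
      intro w h1 h2
      rw [tc]
      have : (univ.filter fun d : Q G v => ({x, y, w} : Finset _) ⊆ blk v d).card ≤ 1 :=
        card_le_one.2 fun b hb d hd => huniq _ (card_eq_three.2 ⟨x, y, w, hxy, h1, h2, rfl⟩) b d
          (mem_filter.1 hb).2 (mem_filter.1 hd).2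
      exact_mod_cast this
    have s4 : ∑ w, (1 - dl x w - dl y w) * (1 - t w) = 0 := by
      have : ∀ w, (1 - dl x w - dl y w) * (1 - t w) =
          1 - t w - dl x w * (1 - t w) - dl y w * (1 - t w) := fun w => by ring
      simp only [this, sum_sub_distrib, sum_dl, t1, tx, ty, sum_const, card_univ, card_P hG]
      norm_num
    have s5 := (sum_eq_zero_iff_of_nonneg (fun w _ => by
      by_cases e1 : x = w
      · subst e1; simp [dl, hxy.symm]
      by_cases e2 : y = w
      · subst e2; simp [dl, hxy]
      have := tle w e1 e2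
      simp only [dl, if_neg e1, if_neg e2]
      omega)).1 s4 z (mem_univ _)
    simp only [dl, if_neg hxz, if_neg hyz] at s5
    have h1 : t z = 1 := by omega
    rw [tc] at h1
    obtain ⟨b, hb⟩ := card_pos.1 (show 0 < (univ.filter fun d : Q G v =>
      ({x, y, z} : Finset _) ⊆ blk v d).card by omega)
    exact ⟨b, (mem_filter.1 hb).2⟩
  obtain ⟨b, hb⟩ := hex
  refine ⟨blk v b, ⟨⟨b, rfl⟩, hb⟩, ?_⟩
  rintro _ ⟨⟨d, rfl⟩, hd⟩
  rw [huniq s hs d b hd hb]

theorem model : ∃ e : G ≃g pointBlockGraph (Set.range (blk (G := G) v)), e v = none := by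
  let E := Equiv.ofBijective _ (dec_bij (G := G) v)
  let eQ := Equiv.ofInjective _ (blk_inj hG v)
  let f : Option (P G v ⊕ Q G v) ≃ Option (P G v ⊕ Set.range (blk (G := G) v)) :=
    Equiv.optionCongr (Equiv.sumCongr (Equiv.refl _) eQ)
  refine ⟨⟨E.symm.trans f, ?_⟩, ?_⟩
  · intro a w
    obtain ⟨a, rfl⟩ := E.surjective a
    obtain ⟨w, rfl⟩ := E.surjective w
    simp only [Equiv.trans_apply, Equiv.symm_apply_apply]
    rcases a with _ | x | b <;> rcases w with _ | y | c
    · exact iff_of_false adj_nn (G.irrefl)
    · exact iff_of_true (adj_np y) y.2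
    · exact iff_of_false (adj_nb _) c.2.2
    · exact iff_of_true (adj_np x).symm x.2.symm
    · exact iff_of_false (adj_pp x y) (no_tri hG x.2 y.2)
    · exact (adj_pb x (eQ c)).trans (by simp [eQ, blk]; rfl)
    · exact iff_of_false (fun h => adj_nb _ h.symm) (fun h => b.2.2 h.symm)
    · exact (SimpleGraph.adj_comm _ _ _).trans ((adj_pb y (eQ b)).trans
        (by rw [G.adj_comm]; simp [eQ, blk]; rfl))
    · refine (adj_bb (eQ b) (eQ c)).trans ?_
      by_cases h : b = c
      · subst h; simp
      · simp only [ne_eq, EmbeddingLike.apply_eq_iff_eq, h, not_false_eq_true, true_and]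
        exact disj_iff hG v b c h
  · show f (E.symm (E none)) = none
    rw [Equiv.symm_apply_apply]; rfl

end model

section iso
variable {α β : Type*} [DecidableEq β] {B : Set (Finset α)} {B' : Set (Finset β)}

/-- the block bijection -/
noncomputable def blkEquiv (e : α ≃ β) (h : (fun b : Finset α => b.image e) '' B = B') : B ≃ B' :=
  Equiv.ofBijective (fun b => ⟨(b : Finset α).image e, h ▸ ⟨b, b.2, rfl⟩⟩) ⟨fun b c hbc =>
    Subtype.ext (image_injective e.injective (congrArg Subtype.val hbc)), fun c => by
      obtain ⟨c, hc⟩ := c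
      rw [← h] at hc
      obtain ⟨b, hb, rfl⟩ := hc
      exact ⟨⟨b, hb⟩, rfl⟩⟩

/-- the induced graph isomorphism -/
noncomputable def isoOf (e : α ≃ β) (h : (fun b : Finset α => b.image e) '' B = B') :
    pointBlockGraph B ≃g pointBlockGraph B' :=
  ⟨Equiv.optionCongr (Equiv.sumCongr e (blkEquiv e h)), by
    have hm : ∀ (x : α) (b : B), e x ∈ (blkEquiv e h b : Finset β) ↔ x ∈ (b : Finset α) :=
      fun x b => e.injective.mem_finset_image
    intro a w
    rcases a with _ | x | b <;> rcases w with _ | y | c
    · exact iff_of_false adj_nn adj_nn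
    · exact iff_of_true (adj_np _) (adj_np _)
    · exact iff_of_false (adj_nb _) (adj_nb _)
    · exact iff_of_true (adj_np _).symm (adj_np _).symm
    · exact iff_of_false (adj_pp _ _) (adj_pp _ _)
    · exact (adj_pb (e x) (blkEquiv e h c)).trans ((hm x c).trans (adj_pb x c).symm)
    · exact iff_of_false (fun h => adj_nb _ h.symm) (fun h => adj_nb _ h.symm)
    · exact (SimpleGraph.adj_comm _ _ _).trans ((adj_pb (e y) (blkEquiv e h b)).trans
        ((hm y b).trans ((adj_pb y b).symm.trans (SimpleGraph.adj_comm _ _ _))))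
    · refine (adj_bb (blkEquiv e h b) (blkEquiv e h c)).trans (Iff.trans ?_ (adj_bb b c).symm)
      exact and_congr (blkEquiv e h).injective.ne_iff (disjoint_image e.injective)⟩

theorem isoOf_none (e : α ≃ β) (h : (fun b : Finset α => b.image e) '' B = B') :
    isoOf e h none = none := rfl

theorem isoOf_pt (e : α ≃ β) (h : (fun b : Finset α => b.image e) '' B = B') (x : α) :
    isoOf e h (some (Sum.inl x)) = some (Sum.inl (e x)) := rfl

end iso

theorem iso_pointed {V W : Type*} [Fintype V] [Fintype W] {G : SimpleGraph V} {H : SimpleGraph W}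
    [DecidableRel G.Adj] [DecidableRel H.Adj] (hG : G.IsSRGWith 100 22 0 6)
    (hH : H.IsSRGWith 100 22 0 6) (v : V) (w : W) : ∃ e : G ≃g H, e v = w := by
  classical
  obtain ⟨e1, h1⟩ := model hG v
  obtain ⟨e2, h2⟩ := model hH w
  obtain ⟨e, h⟩ := Cfsg.Agent.S0410.result (card_P hG v) (card_P hH w) (steiner hG v) (steiner hH w)
  refine ⟨(e1.trans (isoOf e h)).trans e2.symm, ?_⟩
  show e2.symm (isoOf e h (e1 v)) = w
  rw [h1, isoOf_none, ← h2]
  exact e2.symm_apply_apply w

/-- transport of automorphism groups -/
def autCongr {V W : Type*} {G : SimpleGraph V} {H : SimpleGraph W} (e : G ≃g H) :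
    (G ≃g G) ≃* (H ≃g H) where
  toFun f := (e.symm.trans f).trans e
  invFun f := (e.trans f).trans e.symm
  left_inv f := by ext x; simp
  right_inv f := by ext x; simp
  map_mul' f g := by ext x; simp

open scoped Pointwise in
theorem card_stab {α : Type*} [Fintype α] [DecidableEq α] (B : Set (Finset α)) :
    Nat.card (MulAction.stabilizer (pointBlockGraph B ≃g pointBlockGraph B)
      (none : Option (α ⊕ B))) = Nat.card (setSystemAut B) := by
  symm
  have key : ∀ f g : pointBlockGraph B ≃g pointBlockGraph B, f none = none → g none = none →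
      (∀ x, f (some (Sum.inl x)) = g (some (Sum.inl x))) → f = g := by
    intro f g hf hg h
    have hb : ∀ f : pointBlockGraph B ≃g pointBlockGraph B, f none = none → ∀ b,
        ∃ c, f (some (Sum.inr b)) = some (Sum.inr c) := by
      intro f hf b
      rcases e : f (some (Sum.inr b)) with _ | y | c
      · rw [← hf] at e; exact absurd (f.injective e) (by simp)
      · have := adj_np (B := B) y
        rw [← e, ← hf, f.map_rel_iff] at this
        exact absurd this (adj_nb b)
      · exact ⟨c, rfl⟩
    ext a
    rcases a with _ | x | b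
    · rw [hf, hg]
    · rw [h]
    · obtain ⟨c, hc⟩ := hb f hf b
      obtain ⟨d, hd⟩ := hb g hg b
      have : c = d := by
        apply Subtype.ext
        ext y
        obtain ⟨a, ha⟩ := f.surjective (some (Sum.inl y))
        have hadj : (pointBlockGraph B).Adj none a := by
          rw [← f.map_rel_iff, hf, ha]; exact adj_np y
        rcases a with _ | x | b'
        · exact absurd hadj adj_nn
        · rw [← adj_pb, ← adj_pb, ← hc, ← hd, ← ha, f.map_rel_iff, h, g.map_rel_iff]
        · exact absurd hadj (adj_nb _)
      rw [hc, hd, this]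
  refine Nat.card_congr (Equiv.ofBijective (fun g => ⟨isoOf g.1 g.2, rfl⟩) ⟨fun g k h => ?_, ?_⟩)
  · apply Subtype.ext
    ext x
    have := congrArg (fun f : MulAction.stabilizer (pointBlockGraph B ≃g pointBlockGraph B)
      (none : Option (α ⊕ B)) => f.1 (some (Sum.inl x))) h
    have h2 : (some (Sum.inl (g.1 x)) : Option (α ⊕ B)) = some (Sum.inl (k.1 x)) := this
    simpa using h2
  · rintro ⟨f, hf⟩
    have hf' : f none = none := hf
    have hp : ∀ f : pointBlockGraph B ≃g pointBlockGraph B, f none = none → ∀ x,
        ∃ y, f (some (Sum.inl x)) = some (Sum.inl y) := by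
      intro f hf x
      have := adj_np (B := B) x
      rw [← f.map_rel_iff, hf] at this
      rcases e : f (some (Sum.inl x)) with _ | y | c
      · rw [e] at this; exact absurd this adj_nn
      · exact ⟨y, rfl⟩
      · rw [e] at this; exact absurd this (adj_nb _)
    choose s hs using hp f hf'
    have hinj : Function.Injective s := fun x y h => by
      have : f (some (Sum.inl x)) = f (some (Sum.inl y)) := by rw [hs, hs, h]
      simpa using f.injective this
    let σ : Equiv.Perm α := Equiv.ofBijective s (Finite.injective_iff_bijective.1 hinj)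
    have himg : ∀ b c : B, f (some (Sum.inr b)) = some (Sum.inr c) →
        (b : Finset α).image σ = c := by
      intro b c h
      ext y
      obtain ⟨x, rfl⟩ := σ.surjective y
      rw [σ.injective.mem_finset_image, ← adj_pb, ← adj_pb, ← h, ← f.map_rel_iff, hs]; rfl
    have hσ : (fun b : Finset α => b.image σ) '' B = B := by
      apply Set.eq_of_subset_of_ncard_le _ _ (Set.toFinite _)
      · rintro _ ⟨b, hb, rfl⟩
        rcases e : f (some (Sum.inr ⟨b, hb⟩)) with _ | y | c
        · rw [← hf'] at e; exact absurd (f.injective e) (by simp)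
        · have := adj_np (B := B) y
          rw [← e, ← hf', f.map_rel_iff] at this
          exact absurd this (adj_nb _)
        · have := himg _ _ e
          simp only at this ⊢
          rw [this]; exact c.2
      · rw [Set.ncard_image_of_injective _ (image_injective σ.injective)]
    refine ⟨⟨σ, hσ⟩, Subtype.ext (key _ _ rfl hf' fun x => ?_)⟩
    rw [hs]; rfl

theorem card_aut_pb {α : Type*} [Fintype α] [DecidableEq α] (hα : Fintype.card α = 22)
    {B : Set (Finset α)} (hB : IsSteinerSystem 3 6 B) :
    Nat.card (pointBlockGraph B ≃g pointBlockGraph B) = 88704000 := by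
  classical
  haveI : Fintype B := Fintype.ofFinite _
  have hG := Cfsg.Agent.S0428.result hα hB
  haveI : MulAction.IsPretransitive (pointBlockGraph B ≃g pointBlockGraph B) (Option (α ⊕ B)) :=
    ⟨fun v w => iso_pointed hG hG v w⟩
  have h1 := MulAction.index_stabilizer_of_transitive (pointBlockGraph B ≃g pointBlockGraph B)
    (none : Option (α ⊕ B))
  rw [Nat.card_eq_fintype_card, hG.card] at h1
  rw [← Subgroup.index_mul_card (MulAction.stabilizer _ (none : Option (α ⊕ B))), h1, card_stab,
    (Cfsg.Agent.S0414.result hα hB).1]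

theorem card_aut {V : Type*} [Fintype V] {G : SimpleGraph V} [DecidableRel G.Adj]
    (hG : G.IsSRGWith 100 22 0 6) : Nat.card (G ≃g G) = 88704000 := by
  classical
  obtain ⟨v⟩ : Nonempty V := Fintype.card_pos_iff.1 (by rw [hG.card]; norm_num)
  obtain ⟨e, -⟩ := model hG v
  rw [Nat.card_congr (autCongr e).toEquiv, card_aut_pb (card_P hG v) (steiner hG v)]

end HSG
end H2
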