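import Cfsg.Agent.H2.HSR
import Cfsg.Agent.H14.LeeO

/-! The Higman–Sims group embeds in the automorphism group of any SRG(100,22,0,6):
`H2.HSG.hs_hom`. -/

namespace H2
namespace HSG

open MulAction H14 Cfsg

theorem ch_orbit {x : Λ} (hx : x ∈ TH) {c : ℤ} (hc : c ∈ [16, 8, 0, -8, -16, -32])
    (h0 : sd 77 22 0 0 c ≠ 0) : ∃ y : TH,
      (orbit (stabilizer CH (⟨x, hx⟩ : TH)) y).ncard = sd 77 22 0 0 c := by
  obtain ⟨y, hy, -, h⟩ := rk_TH.exists_orbit hx hc h0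
  refine ⟨⟨y, hy⟩, ?_⟩
  rw [← h, ← Set.ncard_image_of_injective _ Subtype.val_injective]
  congr 1
  ext z
  constructor
  · rintro ⟨_, ⟨g, rfl⟩, rfl⟩
    exact ⟨⟨g.1.1, g.1.2, congrArg Subtype.val g.2⟩, rfl⟩
  · rintro ⟨g, rfl⟩
    exact ⟨_, ⟨⟨⟨g.1, g.2.1⟩, Subtype.ext g.2.2⟩, rfl⟩, rfl⟩

theorem hs_hom {V : Type*} [Fintype V] {Y : SimpleGraph V} [DecidableRel Y.Adj]
    (hY : Y.IsSRGWith 100 22 0 6) : ∃ f : Spor.HS →* (Y ≃g Y), Function.Injective f := by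
  haveI : Finite TH := PH.finite
  haveI : Fintype TH := Fintype.ofFinite _
  have hΩ : Fintype.card TH = 100 := by
    rw [← Nat.card_eq_fintype_card, ← ncard_TH]; rfl
  haveI : IsPretransitive CH TH := ⟨fun x y => by
    obtain ⟨g, hg, e⟩ := rk_TH.tr x x.2 y y.2
    exact ⟨⟨g, hg⟩, Subtype.ext e⟩⟩
  have hx := (PH.dec 0).2
  obtain ⟨b, hb⟩ := ch_orbit hx (c := 8) (by simp) (by decide)
  obtain ⟨c, hc⟩ := ch_orbit hx (c := 16) (by simp) (by decide)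
  obtain ⟨f, hf⟩ := rank3_hom (Γ := CH) hΩ _ b c hb hc hY
  exact ⟨f.comp eHS.symm.toMonoidHom, hf.comp eHS.symm.injective⟩

end HSG
end H2
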