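import Cfsg.Agent.H2.HSG

/-! Rank 3 groups of degree 100 with subdegrees 22, 77 act on an SRG(100,22,0,6):
`H2.HSG.rank3`, `H2.HSG.rank3_hom`. -/

set_option linter.unusedSectionVars false

namespace H2
namespace HSG

open Finset S22 MulAction

theorem three_dvd_tri {V : Type*} [Fintype V] {X : SimpleGraph V} [DecidableRel X.Adj]
    {n k l m : ℕ} (h : X.IsSRGWith n k l m) : 3 ∣ n * k * l := by
  classical
  let T := {t : V × V × V // X.Adj t.1 t.2.1 ∧ X.Adj t.1 t.2.2 ∧ X.Adj t.2.1 t.2.2}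
  let f : Function.End T := fun t => ⟨(t.1.2.1, t.1.2.2, t.1.1), t.2.2.2, t.2.1.symm, t.2.2.1.symm⟩
  have hf : f ^ 3 ^ 1 = 1 := by
    funext t; rfl
  haveI : Fact (Nat.Prime 3) := ⟨by norm_num⟩
  have h1 := Equiv.Perm.card_fixedPoints_modEq hf
  have h2 : Fintype.card f.fixedPoints = 0 := by
    rw [Fintype.card_eq_zero_iff]
    refine ⟨fun ⟨t, ht⟩ => t.2.1.ne ?_⟩
    exact (congrArg (fun t : T => t.1.1) ht).symm
  have h3 : (Fintype.card T : ℤ) = n * k * l := by
    rw [Fintype.card_subtype, card_filter]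
    push_cast
    rw [Fintype.sum_prod_type]
    have : ∀ x, ∑ p : V × V, (if X.Adj x p.1 ∧ X.Adj x p.2 ∧ X.Adj p.1 p.2 then (1 : ℤ) else 0) =
        k * l := by
      intro x
      rw [Fintype.sum_prod_type]
      have : ∀ y, ∑ z, (if X.Adj x y ∧ X.Adj x z ∧ X.Adj y z then (1 : ℤ) else 0) = A X x y * l := by
        intro y
        by_cases hxy : X.Adj x y
        · rw [← h.of_adj x y hxy, ← sum_cn, A, if_pos hxy, one_mul]
          refine sum_congr rfl fun z _ => ?_
          unfold A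
          by_cases h1 : X.Adj x z <;> by_cases h2 : X.Adj y z <;> simp [h1, h2, hxy]
        · simp [A, hxy]
      simp only [this, ← sum_mul, sum_deg, h.regular.degree_eq]
    simp only [this, sum_const, card_univ, h.card, nsmul_eq_mul]; ring
  rw [h2] at h1
  have h4 : Fintype.card T = n * k * l := by exact_mod_cast h3
  rw [← h4]
  exact (Nat.modEq_zero_iff_dvd).1 h1

theorem mu_ne_zero {V : Type*} [Fintype V] {X : SimpleGraph V} [DecidableRel X.Adj]
    {l : ℕ} (h : X.IsSRGWith 100 22 l 0) : False := by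
  classical
  have hS : ∀ k ≤ 5, ∃ S : Finset V, S.card = k ∧ ∀ x ∈ S, ∀ y ∈ S, ¬ X.Adj x y := by
    intro k
    induction k with
    | zero => intro _; exact ⟨∅, rfl, by simp⟩
    | succ k ih =>
      intro hk
      obtain ⟨S, h1, h2⟩ := ih (by omega)
      have hc : (S ∪ S.biUnion (fun x => X.neighborFinset x)).card < (univ : Finset V).card := by
        refine lt_of_le_of_lt (card_union_le _ _) ?_
        have := card_biUnion_le (s := S) (t := fun x => X.neighborFinset x)
        simp only [SimpleGraph.card_neighborFinset_eq_degree, h.regular.degree_eq, sum_const,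
          smul_eq_mul] at this
        rw [card_univ, h.card]
        omega
      obtain ⟨u, -, hu⟩ := exists_mem_notMem_of_card_lt_card hc
      simp only [mem_union, mem_biUnion, SimpleGraph.mem_neighborFinset, not_or, not_exists,
        not_and] at hu
      refine ⟨insert u S, by rw [card_insert_of_notMem hu.1, h1], ?_⟩
      intro x hx y hy
      rcases mem_insert.1 hx with e1 | hx' <;> rcases mem_insert.1 hy with e2 | hy'
      · rw [e1, e2]; exact X.irrefl
      · rw [e1]; exact fun e => hu.2 y hy' e.symm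
      · rw [e2]; exact hu.2 x hx'
      · exact h2 x hx' y hy'
  obtain ⟨S, h1, h2⟩ := hS 5 le_rfl
  have h3 : (S.biUnion (fun x => X.neighborFinset x)).card = ∑ x ∈ S, (X.neighborFinset x).card := by
    refine card_biUnion fun x hx y hy hxy => ?_
    have := h.of_not_adj hxy (h2 x hx y hy)
    rw [Fintype.card_eq_zero_iff] at this
    refine disjoint_left.2 fun z hz1 hz2 => this.false ⟨z, ?_, ?_⟩
    · simpa using hz1
    · simpa using hz2
  have h4 := card_le_univ (S.biUnion (fun x => X.neighborFinset x))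
  simp only [SimpleGraph.card_neighborFinset_eq_degree, h.regular.degree_eq, sum_const,
    smul_eq_mul, h1] at h3
  rw [h.card] at h4
  omega

theorem params {V : Type*} [Fintype V] {X : SimpleGraph V} [DecidableRel X.Adj]
    {l m : ℕ} (h : X.IsSRGWith 100 22 l m) : X.IsSRGWith 100 22 0 6 := by
  have h1 := h.param_eq X (by norm_num)
  have h2 := three_dvd_tri h
  have h3 : m ≠ 0 := by rintro rfl; exact mu_ne_zero h
  have : l = 0 ∧ m = 6 := by omega
  obtain ⟨rfl, rfl⟩ := this
  exact h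

variable {Γ Ω : Type*} [Group Γ] [MulAction Γ Ω] [Fintype Ω]

/-- the orbital relation -/
def Orb (Γ : Type*) {Ω : Type*} [Group Γ] [MulAction Γ Ω] (a b x y : Ω) : Prop :=
  ∃ g : Γ, g • a = x ∧ g • b = y

theorem orb_smul (a b x y : Ω) (g : Γ) : Orb Γ a b (g • x) (g • y) ↔ Orb Γ a b x y :=
  ⟨fun ⟨k, h1, h2⟩ => ⟨g⁻¹ * k, by rw [mul_smul, h1, inv_smul_smul], by
    rw [mul_smul, h2, inv_smul_smul]⟩,
    fun ⟨k, h1, h2⟩ => ⟨g * k, by rw [mul_smul, h1], by rw [mul_smul, h2]⟩⟩

theorem orb_base (a b y : Ω) : Orb Γ a b a y ↔ y ∈ orbit (stabilizer Γ a) b :=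
  ⟨fun ⟨k, h1, h2⟩ => ⟨⟨k, h1⟩, h2⟩, fun ⟨k, h⟩ => ⟨k, k.2, h⟩⟩

open Classical in
theorem orb_card [IsPretransitive Γ Ω] (a b x : Ω) :
    (univ.filter (Orb Γ a b x)).card = (orbit (stabilizer Γ a) b).ncard := by
  obtain ⟨g, rfl⟩ := exists_smul_eq Γ a x
  rw [← Set.ncard_coe_finset]
  symm
  refine Set.ncard_congr (fun y _ => g • y) (fun y hy => ?_)
    (fun _ _ _ _ e => MulAction.injective g e) (fun y hy => ⟨g⁻¹ • y, ?_, smul_inv_smul _ _⟩)
  · simp only [coe_filter, mem_univ, true_and, Set.mem_ofPred_eq, orb_smul]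
    exact (orb_base a b y).2 hy
  · simp only [coe_filter, mem_univ, true_and, Set.mem_ofPred_eq] at hy
    rw [← orb_base, ← orb_smul _ _ _ _ g, smul_inv_smul]; exact hy

theorem rank3 [IsPretransitive Γ Ω] (hΩ : Fintype.card Ω = 100) (a b c : Ω)
    (hb : (orbit (stabilizer Γ a) b).ncard = 22) (hc : (orbit (stabilizer Γ a) c).ncard = 77) :
    ∃ X : SimpleGraph Ω, (∀ (g : Γ) x y, X.Adj (g • x) (g • y) ↔ X.Adj x y) ∧
      ∀ [DecidableRel X.Adj], X.IsSRGWith 100 22 0 6 := by
  classical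
  have hne : ∀ d, 1 < (orbit (stabilizer Γ a) d).ncard → a ∉ orbit (stabilizer Γ a) d := by
    intro d hd ha
    rw [← orbit_eq_iff.2 ha] at hd
    have : orbit (stabilizer Γ a) a = {a} := by
      ext y; exact ⟨fun ⟨k, h⟩ => h ▸ k.2, fun h => by rw [Set.mem_singleton_iff.1 h]; exact mem_orbit_self a⟩
    rw [this, Set.ncard_singleton] at hd
    omega
  have hab := hne b (by omega)
  have hac := hne c (by omega)
  have hdis : Disjoint (orbit (stabilizer Γ a) b) (orbit (stabilizer Γ a) c) := by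
    refine Set.disjoint_left.2 fun y h1 h2 => ?_
    rw [← orbit_eq_iff.2 h1, orbit_eq_iff.2 h2] at hb
    omega
  have hcov : ∀ y, y ≠ a → y ∉ orbit (stabilizer Γ a) b → y ∈ orbit (stabilizer Γ a) c := by
    have : insert a (orbit (stabilizer Γ a) b ∪ orbit (stabilizer Γ a) c) = Set.univ := by
      apply Set.eq_of_subset_of_ncard_le (Set.subset_univ _) _ (Set.toFinite _)
      rw [Set.ncard_insert_of_notMem (by simp [hab, hac]), Set.ncard_union_eq hdis, hb, hc,
        Set.ncard_univ, Nat.card_eq_fintype_card, hΩ]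
    intro y h1 h2
    have h3 : y ∈ insert a (orbit (stabilizer Γ a) b ∪ orbit (stabilizer Γ a) c) := this ▸ trivial
    simpa [h1, h2] using h3
  have hcov' : ∀ x y, y ≠ x → ¬ Orb Γ a b x y → Orb Γ a c x y := by
    intro x y h1 h2
    obtain ⟨g, rfl⟩ := exists_smul_eq Γ a x
    obtain ⟨y, rfl⟩ := (MulAction.surjective g) y
    simp only [orb_smul, orb_base] at h2 ⊢
    exact hcov y (fun e => h1 (by rw [e])) h2
  have hba : b ≠ a := fun e => hab (e ▸ mem_orbit_self b)
  have hsym : Orb Γ a b b a := by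
    by_contra hn
    obtain ⟨g, h1, h2⟩ := hcov' b a hba.symm hn
    have key : ∀ x y, Orb Γ a b x y ↔ Orb Γ a c y x := fun x y =>
      ⟨fun ⟨k, e1, e2⟩ => ⟨k * g, by rw [mul_smul, h1, e2], by rw [mul_smul, h2, e1]⟩,
        fun ⟨k, e1, e2⟩ => ⟨k * g⁻¹, by rw [mul_smul, inv_smul_eq_iff.2 h2.symm, e2], by
          rw [mul_smul, inv_smul_eq_iff.2 h1.symm, e1]⟩⟩
    have s1 : ∑ x, (univ.filter (Orb Γ a b x)).card = ∑ y, (univ.filter (Orb Γ a c y)).card := by
      simp only [card_filter]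
      rw [sum_comm]
      exact sum_congr rfl fun y _ => sum_congr rfl fun x _ => by simp only [key]
    simp only [orb_card, hb, hc, sum_const, card_univ, hΩ] at s1
    simp at s1
  have hsymm : ∀ x y, Orb Γ a b x y → Orb Γ a b y x := by
    rintro _ _ ⟨g, rfl, rfl⟩
    exact (orb_smul _ _ _ _ g).2 hsym
  let X : SimpleGraph Ω := ⟨Orb Γ a b, ⟨hsymm⟩, ⟨by
    rintro x ⟨g, h1, h2⟩
    exact hba (MulAction.injective g (h2.trans h1.symm))⟩⟩
  have hinv : ∀ (g : Γ) x y, X.Adj (g • x) (g • y) ↔ X.Adj x y := fun g x y => orb_smul a b x y g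
  refine ⟨X, hinv, ?_⟩
  intro _
  have hcn : ∀ (g : Γ) x y, Fintype.card (X.commonNeighbors (g • x) (g • y)) =
      Fintype.card (X.commonNeighbors x y) := by
    intro g x y
    symm
    refine Fintype.card_congr ((MulAction.toPerm g).subtypeEquiv fun z => ?_)
    simp only [SimpleGraph.mem_commonNeighbors, MulAction.toPerm_apply, hinv]
  refine params (l := Fintype.card (X.commonNeighbors a b))
    (m := Fintype.card (X.commonNeighbors a c)) ⟨hΩ, fun x => ?_, ?_, ?_⟩
  · rw [← SimpleGraph.card_neighborFinset_eq_degree, SimpleGraph.neighborFinset_eq_filter, ← hb,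
      ← orb_card a b x]
    congr
  · rintro _ _ ⟨g, rfl, rfl⟩; exact hcn g a b
  · intro x y hxy h
    obtain ⟨g, rfl, rfl⟩ := hcov' x y hxy.symm h
    exact hcn g a c

/-- the action homomorphism to the automorphism group of an invariant graph -/
def toAut (X : SimpleGraph Ω) (h : ∀ (g : Γ) x y, X.Adj (g • x) (g • y) ↔ X.Adj x y) :
    Γ →* (X ≃g X) where
  toFun g := ⟨MulAction.toPerm g, h g _ _⟩
  map_one' := by ext x; exact one_smul Γ x
  map_mul' g k := by ext x; exact mul_smul g k x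

theorem rank3_hom [IsPretransitive Γ Ω] [FaithfulSMul Γ Ω] (hΩ : Fintype.card Ω = 100) (a b c : Ω)
    (hb : (orbit (stabilizer Γ a) b).ncard = 22) (hc : (orbit (stabilizer Γ a) c).ncard = 77)
    {V : Type*} [Fintype V] {Y : SimpleGraph V} [DecidableRel Y.Adj]
    (hY : Y.IsSRGWith 100 22 0 6) : ∃ f : Γ →* (Y ≃g Y), Function.Injective f := by
  classical
  obtain ⟨X, h, hX⟩ := rank3 (Γ := Γ) hΩ a b c hb hc
  obtain ⟨v⟩ : Nonempty V := Fintype.card_pos_iff.1 (by rw [hY.card]; norm_num)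
  obtain ⟨e, -⟩ := iso_pointed hX hY a v
  refine ⟨(autCongr e).toMonoidHom.comp (toAut X h), (autCongr e).injective.comp fun g k hgk => ?_⟩
  exact eq_of_smul_eq_smul (α := Ω) fun x => congrArg (fun f : X ≃g X => f x) hgk

end HSG
end H2
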