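import Cfsg.Agent.H2.Mw2
import Cfsg.Agent.H2.Wr1
import Cfsg.Agent.H9.MaxClass

/-! Harada's theorem on self-centralizing `E₈`, part 1: general lemmas (`kap` commutator map, `g7` two-generator
bound from a centralizer of order 4, `finq`, the model `E` of `E₈`, `basis3`, and the flag homomorphism `flag`). -/

set_option autoImplicit false
open Subgroup

namespace H2.Hd

universe u
variable {G : Type u} [Group G] [Finite G]

omit [Finite G] in
theorem kap (N : Subgroup G) (hN : ∀ x ∈ N, ∀ y ∈ N, x * y = y * x) (a : G) (ha : ∀ x ∈ N, a * x * a⁻¹ ∈ N) :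
    ∃ R : Subgroup G, (∀ r, r ∈ R ↔ ∃ v ∈ N, r = a * v * a⁻¹ * v⁻¹) ∧
      Nat.card R * Nat.card (N ⊓ centralizer {a} : Subgroup G) = Nat.card N := by
  let f : N →* G := MonoidHom.mk' (fun v => a * v * a⁻¹ * (v : G)⁻¹) fun v w => by
    have := hN _ (inv_mem v.2) _ (mul_mem (ha _ w.2) (inv_mem w.2))
    simp only [coe_mul]
    calc a * (v * w) * a⁻¹ * ((v : G) * w)⁻¹ = a * v * a⁻¹ * ((a * w * a⁻¹ * (w : G)⁻¹) * (v : G)⁻¹) := by group
      _ = _ := by rw [← this]; group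
  refine ⟨f.range, fun r => ⟨fun ⟨v, h⟩ => ⟨v, v.2, h.symm⟩, fun ⟨v, hv, h⟩ => ⟨⟨v, hv⟩, h.symm⟩⟩, ?_⟩
  have : f.ker = (centralizer {a}).subgroupOf N := by
    ext v
    rw [MonoidHom.mem_ker, mem_subgroupOf, mem_centralizer_singleton_iff]
    show a * v * a⁻¹ * (v : G)⁻¹ = 1 ↔ _
    rw [mul_inv_eq_one, mul_inv_eq_iff_eq_mul, eq_comm]
  rw [inf_comm, ← H2.card_subgroupOf', ← this, ← index_ker, mul_comm, card_mul_index]

omit [Finite G] in
theorem comm_fix {a x : G} (haa : a * a = 1) (h : a * x * a⁻¹ * x⁻¹ * (a * x * a⁻¹ * x⁻¹) = 1) :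
    a * x * a⁻¹ * x⁻¹ * a = a * (a * x * a⁻¹ * x⁻¹) := by
  have hi : a⁻¹ = a := inv_eq_of_mul_eq_one_right haa
  rw [eq_inv_of_mul_eq_one_left h]
  conv_rhs => rw [← eq_inv_of_mul_eq_one_left h]
  rw [hi]
  calc (a * x * a * x⁻¹)⁻¹ * a = x * a⁻¹ * x⁻¹ := by group
    _ = (a * a) * x * a * x⁻¹ := by rw [haa, hi]; group
    _ = _ := by group

omit [Finite G] in
theorem comm_inv {a x : G} (haa : a * a = 1) :
    a * (a * x * a⁻¹ * x⁻¹) * a⁻¹ = (a * x * a⁻¹ * x⁻¹)⁻¹ := by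
  have hi : a⁻¹ = a := inv_eq_of_mul_eq_one_right haa
  calc a * (a * x * a⁻¹ * x⁻¹) * a⁻¹ = (a * a) * x * a⁻¹ * x⁻¹ * a⁻¹ := by group
    _ = x * a * x⁻¹ * a⁻¹ := by rw [haa, one_mul]; conv_lhs => rw [hi]
                                rw [hi]
    _ = _ := by group

omit [Finite G] in
theorem comm_of_sq {N : Subgroup G} (h : ∀ x ∈ N, x * x = 1) : ∀ x ∈ N, ∀ y ∈ N, x * y = y * x := by
  intro x hx y hy
  have e := h _ (mul_mem hx hy)
  calc x * y = (x * y)⁻¹ := eq_inv_of_mul_eq_one_left e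
    _ = _ := by rw [mul_inv_rev, inv_eq_of_mul_eq_one_right (h x hx), inv_eq_of_mul_eq_one_right (h y hy)]

omit [Finite G] in
theorem kap2 (N : Subgroup G) (hN : ∀ x ∈ N, x * x = 1) (a : G) (ha : ∀ x ∈ N, a * x * a⁻¹ ∈ N)
    (haa : a * a = 1) : ∃ R : Subgroup G, (∀ r, r ∈ R ↔ ∃ v ∈ N, r = a * v * a⁻¹ * v⁻¹) ∧
      Nat.card R * Nat.card (N ⊓ centralizer {a} : Subgroup G) = Nat.card N ∧ R ≤ N ⊓ centralizer {a} := by
  obtain ⟨R, h1, h2⟩ := kap N (comm_of_sq hN) a ha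
  refine ⟨R, h1, h2, fun r hr => ?_⟩
  obtain ⟨v, hv, rfl⟩ := (h1 r).1 hr
  have hm := mul_mem (ha v hv) (inv_mem hv)
  exact ⟨hm, mem_centralizer_singleton_iff.2 (comm_fix haa (hN _ hm))⟩

theorem card_le_two {K : Subgroup G} {z : G} (h : ∀ x ∈ K, x = 1 ∨ x = z) : Nat.card K ≤ 2 := by
  classical
  calc Nat.card K = (K : Set G).ncard := rfl
    _ ≤ ({1, z} : Set G).ncard := Set.ncard_le_ncard (fun x hx => h x hx) (Set.toFinite _)
    _ ≤ 2 := (Set.ncard_insert_le _ _).trans (by simp)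

theorem card_le_four {K : Subgroup G} {z y w : G} (h : ∀ x ∈ K, x = 1 ∨ x = z ∨ x = y ∨ x = w) :
    Nat.card K ≤ 4 := by
  classical
  calc Nat.card K = (K : Set G).ncard := rfl
    _ ≤ ({1, z, y, w} : Set G).ncard := Set.ncard_le_ncard (fun x hx => h x hx) (Set.toFinite _)
    _ ≤ 4 := (Set.ncard_insert_le _ _).trans (Nat.succ_le_succ ((Set.ncard_insert_le _ _).trans
        (Nat.succ_le_succ ((Set.ncard_insert_le _ _).trans (by simp)))))

theorem g7 (hG : IsPGroup 2 G) (a : G) (h4 : Nat.card (centralizer {a} : Subgroup G) ≤ 4) (L M : Subgroup G)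
    (hM : ∀ x ∈ L, x * x ∈ M) : Nat.card L ≤ 4 * Nat.card M ∧
      (2 * Nat.card M < Nat.card L → ∃ t ∈ L, t ≠ 1 ∧ t * a = a * t) := by
  have pM := H2.card_pos' M
  by_cases hc : IsMulCommutative (⊤ : Subgroup G)
  · have hcc : ∀ x y : G, x * y = y * x := fun x y =>
      congrArg Subtype.val (hc.is_comm.comm ⟨x, mem_top _⟩ ⟨y, mem_top _⟩)
    have : Nat.card L ≤ 4 := (card_le_of_le fun x _ => mem_centralizer_singleton_iff.2 (hcc x a)).trans h4
    refine ⟨by omega, fun h => ?_⟩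
    obtain ⟨⟨t, ht⟩, h1⟩ := (ne_bot_iff_exists_ne_one (H := L)).1 ((one_lt_card_iff_ne_bot L).1 (by omega))
    exact ⟨t, ht, fun e => h1 (Subtype.ext e), hcc t a⟩
  obtain ⟨k, x, h⟩ := H9.mc_of_card_centralizer (hG.to_subgroup ⊤) (mem_top a) (by rwa [top_inf_eq]) hc
  set K := zpowers x ⊓ L with hK
  have e1 : Nat.card L ≤ 2 * Nat.card K := by
    rw [← H2.card_inf_mul_relIndex (zpowers x) L, mul_comm]
    refine Nat.mul_le_mul_right _ ?_
    have := h.idx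
    rw [relIndex_top_right] at this
    exact this ▸ Nat.le_of_dvd (H2.index_pos _) (by
      haveI : (zpowers x).Normal := normal_of_index_eq_two this
      exact relIndex_dvd_index_of_normal _ _)
  have hcm : ∀ p ∈ K, ∀ q ∈ K, p * q = q * p := by
    rintro _ ⟨⟨i, rfl⟩, -⟩ _ ⟨⟨j, rfl⟩, -⟩
    exact (Commute.zpow_zpow_self x i j).eq
  let f : K →* G := MonoidHom.mk' (fun v => (v : G) * v) fun v w => by
    simp only [coe_mul]
    calc (v : G) * w * (v * w) = v * (w * v) * w := by group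
      _ = _ := by rw [hcm _ w.2 _ v.2]; group
  have e2 : Nat.card f.range ≤ Nat.card M := card_le_of_le (by rintro _ ⟨v, rfl⟩; exact hM _ v.2.2)
  have e3 : Nat.card (f.ker.map K.subtype) ≤ 2 := card_le_two (z := x ^ 2 ^ (k + 1)) (by
    rintro _ ⟨v, hv, rfl⟩
    exact h.eq_one_or_eq_u v.2.1 hv)
  rw [card_map_of_injective K.subtype_injective] at e3
  have e4 := f.ker.card_mul_index
  rw [index_ker] at e4
  have e5 : Nat.card K ≤ 2 * Nat.card M := e4 ▸ Nat.mul_le_mul e3 e2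
  refine ⟨by omega, fun hl => ?_⟩
  haveI : Fact (Nat.Prime 2) := Nat.fact_prime_two
  obtain ⟨⟨t, ht⟩, h1⟩ := exists_prime_orderOf_dvd_card' (G := K) 2 (by
    haveI : Nontrivial K := Finite.one_lt_card_iff_nontrivial.1 (by omega)
    exact (hG.to_subgroup K).card_eq_or_dvd.resolve_left (by omega))
  have h2 : orderOf t = 2 := by rw [← h1, ← orderOf_coe]
  refine ⟨t, ht.2, fun e => by rw [e, orderOf_one] at h2; omega, ?_⟩
  rw [h.eq_u ht.1 h2]
  exact (h.commute_u (mem_top a)).eq.symm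

/-- the centralizer of `a` modulo `C` has order at most 4 -/
def X4 (C : Subgroup G) (a : G) : Prop :=
  ∃ b, ∀ x, a * x * a⁻¹ * x⁻¹ ∈ C → x ∈ C ∨ x * a ∈ C ∨ x * b ∈ C ∨ x * b * a ∈ C

omit [Finite G] in
theorem x4_of {C : Subgroup G} {a : G} (h : ∀ x x', a * x * a⁻¹ * x⁻¹ ∈ C → a * x' * a⁻¹ * x'⁻¹ ∈ C →
    x ∉ C → x * a ∉ C → x' ∉ C → x' * a ∉ C → x * x' ∈ C ∨ x * x' * a ∈ C) : X4 C a := by
  by_cases h0 : ∃ b, a * b * a⁻¹ * b⁻¹ ∈ C ∧ b ∉ C ∧ b * a ∉ C
  · obtain ⟨b, h1, h2, h3⟩ := h0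
    refine ⟨b, fun x hx => ?_⟩
    by_cases e1 : x ∈ C
    · exact Or.inl e1
    by_cases e2 : x * a ∈ C
    · exact Or.inr (Or.inl e2)
    exact Or.inr (Or.inr (h x b hx h1 e1 e2 h2 h3))
  · push Not at h0
    refine ⟨1, fun x hx => ?_⟩
    by_cases e1 : x ∈ C
    · exact Or.inl e1
    exact Or.inr (Or.inl (h0 x hx e1))

omit [Finite G] in
theorem mk_comm {C : Subgroup G} [C.Normal] {a x : G} :
    (x : G ⧸ C) * a = a * x ↔ a * x * a⁻¹ * x⁻¹ ∈ C := by
  rw [← QuotientGroup.eq_one_iff]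
  simp only [QuotientGroup.mk_mul, QuotientGroup.mk_inv]
  rw [mul_inv_eq_one, mul_inv_eq_iff_eq_mul, eq_comm]

theorem X4.card {C : Subgroup G} [C.Normal] {a : G} (h : X4 C a) :
    Nat.card (centralizer {(a : G ⧸ C)} : Subgroup (G ⧸ C)) ≤ 4 := by
  obtain ⟨b, hb⟩ := h
  refine card_le_four (z := (a : G ⧸ C)⁻¹) (y := (b : G ⧸ C)⁻¹) (w := ((b : G ⧸ C) * a)⁻¹) fun q hq => ?_
  obtain ⟨x, rfl⟩ := QuotientGroup.mk_surjective q
  have := hb x (mk_comm.1 (mem_centralizer_singleton_iff.1 hq))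
  simp only [← QuotientGroup.eq_one_iff, QuotientGroup.mk_mul, mul_assoc] at this
  simpa only [eq_inv_iff_mul_eq_one] using this

theorem g7q (hG : IsPGroup 2 G) {C : Subgroup G} [C.Normal] {a : G} (h : X4 C a) (H M : Subgroup G)
    (hM : ∀ x ∈ H, x * x ∈ M) : C.relIndex H ≤ 4 * C.relIndex M ∧
      (2 * C.relIndex M < C.relIndex H → ∃ t ∈ H, t ∉ C ∧ a * t * a⁻¹ * t⁻¹ ∈ C) := by
  obtain ⟨h1, h2⟩ := g7 (hG.to_quotient C) _ h.card (H.map (QuotientGroup.mk' C)) (M.map (QuotientGroup.mk' C))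
    (by rintro _ ⟨x, hx, rfl⟩; exact ⟨x * x, hM x hx, rfl⟩)
  rw [H2.card_map_mk', H2.card_map_mk'] at h1 h2
  refine ⟨h1, fun e => ?_⟩
  obtain ⟨_, ⟨t, ht, rfl⟩, h3, h4⟩ := h2 e
  exact ⟨t, ht, fun e => h3 ((QuotientGroup.eq_one_iff t).2 e), mk_comm.1 h4⟩

theorem finq {C : Subgroup G} [C.Normal] {a : G} (h : X4 C a) (haa : a * a = 1) {N : Subgroup G} (hCN : C ≤ N)
    (hN : ∀ x ∈ N, x * x ∈ C) (haN : ∀ x ∈ N, a * x * a⁻¹ ∈ N) (ha : a ∉ N) {H : Subgroup G} (hH : H ≤ N)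
    (h2 : 2 < C.relIndex H) :
    ∃ x ∈ N, ∃ g ∈ H, a * x * a⁻¹ * x⁻¹ ∉ C ∧ g⁻¹ * (a * x * a⁻¹ * x⁻¹) ∈ C := by
  set N' := N.map (QuotientGroup.mk' C) with hN'
  obtain ⟨R, r1, r2, r3⟩ := kap2 N' (by
      rintro _ ⟨x, hx, rfl⟩
      exact (QuotientGroup.eq_one_iff _).2 (hN x hx)) (a : G ⧸ C)
    (by rintro _ ⟨x, hx, rfl⟩; exact ⟨_, haN x hx, rfl⟩)
    (by rw [← QuotientGroup.mk_mul, haa, QuotientGroup.mk_one])
  have c1 := h.card
  have c2 : Nat.card (N' ⊓ centralizer {(a : G ⧸ C)} : Subgroup (G ⧸ C)) ≤ 2 := by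
    have hlt : N' ⊓ centralizer {(a : G ⧸ C)} ≤ centralizer {(a : G ⧸ C)} := inf_le_right
    have e1 := H2.card_mul_relIndex hlt
    have e2 := H2.relIndex_pos (N' ⊓ centralizer {(a : G ⧸ C)}) (centralizer {(a : G ⧸ C)})
    have e3 : (N' ⊓ centralizer {(a : G ⧸ C)}).relIndex (centralizer {(a : G ⧸ C)}) ≠ 1 := fun e => by
      obtain ⟨x, hx, hxa⟩ := (relIndex_eq_one.1 e (mem_centralizer_singleton_iff.2 rfl)).1
      have := mul_mem hx (hCN (QuotientGroup.eq.1 hxa))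
      exact ha (by simpa using this)
    have : 2 ≤ (N' ⊓ centralizer {(a : G ⧸ C)}).relIndex (centralizer {(a : G ⧸ C)}) := by omega
    nlinarith
  have c3 := card_le_of_le r3
  have hle : H.map (QuotientGroup.mk' C) ≤ N' := map_mono hH
  have c4 := H2.card_mul_relIndex hle
  have c5 := H2.relIndex_pos (H.map (QuotientGroup.mk' C)) N'
  rw [← H2.card_map_mk'] at h2
  have c6 : Nat.card N' ≤ 4 := by nlinarith
  have c7 : (H.map (QuotientGroup.mk' C)).relIndex N' = 1 := by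
    by_contra hne
    have : 2 ≤ (H.map (QuotientGroup.mk' C)).relIndex N' := by omega
    nlinarith
  have c8 : 1 < Nat.card R := by
    by_contra hne
    have : Nat.card R ≤ 1 := by omega
    rw [c7] at c4
    nlinarith
  obtain ⟨⟨t, ht⟩, h1⟩ := (ne_bot_iff_exists_ne_one (H := R)).1 ((one_lt_card_iff_ne_bot R).1 c8)
  obtain ⟨g, hg, hgt⟩ := relIndex_eq_one.1 c7 (r3 ht).1
  obtain ⟨_, ⟨x, hx, rfl⟩, rfl⟩ := (r1 t).1 ht
  exact ⟨x, hx, g, hg, fun e => h1 (Subtype.ext ((QuotientGroup.eq_one_iff _).2 e)), QuotientGroup.eq.1 hgt⟩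

/-- A concrete elementary abelian group of order 8. -/
structure E where
  i : Bool
  j : Bool
  k : Bool

instance instDecEqE : DecidableEq E := fun x y =>
  decidable_of_iff (x.i = y.i ∧ x.j = y.j ∧ x.k = y.k) (by cases x; cases y; simp)
instance instDecForallE (p : E → Prop) [DecidablePred p] : Decidable (∀ x, p x) :=
  decidable_of_iff (∀ a b c : Bool, p ⟨a, b, c⟩) ⟨fun h x => h x.1 x.2 x.3, fun h a b c => h ⟨a, b, c⟩⟩
/-- coordinates -/
def eE : E ≃ Bool × Bool × Bool where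
  toFun x := (x.i, x.j, x.k)
  invFun x := ⟨x.1, x.2.1, x.2.2⟩
  left_inv _ := rfl
  right_inv _ := rfl
instance instFintypeE : Fintype E := Fintype.ofEquiv _ eE.symm
instance instMulE : Mul E := ⟨fun x y => ⟨xor x.i y.i, xor x.j y.j, xor x.k y.k⟩⟩
instance instOneE : One E := ⟨⟨false, false, false⟩⟩
instance instInvE : Inv E := ⟨fun x => x⟩
instance instGroupE : Group E :=
  Group.ofLeftAxioms (by decide +kernel) (by decide +kernel) (by decide +kernel)

theorem card_E : Nat.card E = 8 := by rw [Nat.card_congr eE]; simp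

/-- basis -/
def f1 : E := ⟨true, false, false⟩
/-- basis -/
def f2 : E := ⟨false, true, false⟩
/-- basis -/
def f3 : E := ⟨false, false, true⟩

theorem casesE (e : E) : e = 1 ∨ e = f1 ∨ e = f2 ∨ e = f1 * f2 ∨ e = f3 ∨ e = f1 * f3 ∨ e = f2 * f3 ∨
    e = f1 * f2 * f3 := by revert e; decide +kernel

theorem basis3 {X : Subgroup G} (hX : ∀ x ∈ X, x * x = 1) (h8 : Nat.card X = 8) {z a : G} (hz : z ∈ X)
    (ha : a ∈ X) (hz1 : z ≠ 1) (ha1 : a ≠ 1) (haz : a ≠ z) :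
    ∃ ι : E →* G, Function.Injective ι ∧ ι.range = X ∧ ι f1 = z ∧ ι f2 = a := by
  obtain ⟨b, hb, hb'⟩ : ∃ b ∈ X, ¬ (b = 1 ∨ b = z ∨ b = a ∨ b = z * a) := by
    by_contra hne
    push Not at hne
    have := card_le_four (K := X) (z := z) (y := a) (w := z * a) fun x hx => by
      have := hne x hx; tauto
    omega
  have hc := comm_of_sq hX
  let ι : E →* G := MonoidHom.mk' (fun e => z ^ e.i.toNat * a ^ e.j.toNat * b ^ e.k.toNat) fun x y => by
    show z ^ (xor x.i y.i).toNat * a ^ (xor x.j y.j).toNat * b ^ (xor x.k y.k).toNat = _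
    rw [Mw.pow_xor (hX z hz), Mw.pow_xor (hX a ha), Mw.pow_xor (hX b hb),
      (Commute.pow_pow (hc z hz a ha) _ _).mul_mul_mul_comm]
    exact (show Commute (z ^ y.i.toNat * a ^ y.j.toNat) (b ^ x.k.toNat) from
      hc _ (mul_mem (pow_mem hz _) (pow_mem ha _)) _ (pow_mem hb _)).mul_mul_mul_comm _ _
  have i1 : ι f1 = z := by show z ^ 1 * a ^ 0 * b ^ 0 = z; simp
  have i2 : ι f2 = a := by show z ^ 0 * a ^ 1 * b ^ 0 = a; simp
  have i3 : ι f3 = b := by show z ^ 0 * a ^ 0 * b ^ 1 = b; simp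
  have iz : z⁻¹ = z := inv_eq_of_mul_eq_one_right (hX z hz)
  have ia : a⁻¹ = a := inv_eq_of_mul_eq_one_right (hX a ha)
  have iza : (z * a)⁻¹ = z * a := inv_eq_of_mul_eq_one_right (hX _ (mul_mem hz ha))
  have hinj : Function.Injective ι := by
    rw [injective_iff_map_eq_one]
    intro e he
    rcases casesE e with rfl | rfl | rfl | rfl | rfl | rfl | rfl | rfl <;>
      try simp only [map_mul, i1, i2, i3] at he
    · rfl
    · exact absurd he hz1
    · exact absurd he ha1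
    · exact absurd ((eq_inv_of_mul_eq_one_right he).trans iz) haz
    · exact absurd (Or.inl he) hb'
    · exact absurd (Or.inr (Or.inl ((eq_inv_of_mul_eq_one_right he).trans iz))) hb'
    · exact absurd (Or.inr (Or.inr (Or.inl ((eq_inv_of_mul_eq_one_right he).trans ia)))) hb'
    · exact absurd (Or.inr (Or.inr (Or.inr ((eq_inv_of_mul_eq_one_right he).trans iza)))) hb'
  refine ⟨ι, hinj, eq_of_le_of_card_ge ?_ ?_, i1, i2⟩
  · rintro _ ⟨e, rfl⟩
    exact mul_mem (mul_mem (pow_mem hz _) (pow_mem ha _)) (pow_mem hb _)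
  · rw [← Nat.card_congr (MonoidHom.ofInjective hinj).toEquiv, card_E, h8]

/-- the unitriangular action -/
def act (d : Wr.D) (e : E) : E := ⟨xor (xor e.i (d.a && e.j)) (d.z && e.k), xor e.j (d.b && e.k), e.k⟩

theorem flag (hG : IsPGroup 2 G) {V : Subgroup G} [V.Normal] (hV : ∀ x ∈ V, x * x = 1) (h8 : Nat.card V = 8)
    {s : G} (hs : s ∈ V) (hs1 : s ≠ 1) (hc : ∀ g, g * s = s * g) :
    ∃ φ : G →* Wr.D, φ.ker = centralizer (V : Set G) ∧
      ∀ g, (∀ v ∈ V, g * v * g⁻¹ * v⁻¹ = 1 ∨ g * v * g⁻¹ * v⁻¹ = s) → (φ g).b = false := by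
  haveI : (zpowers s).Normal := H9.normal_zpowers_of_center (mem_center_iff.2 hc)
  obtain ⟨t, ht, hts, -, htc⟩ := Kf.step hG (zpowers s) V (fun h => by
    have := card_le_two (K := V) (z := s) fun x hx => Kf.mem_zpowers_invol (hV s hs) (h hx)
    omega)
  obtain ⟨ι, hi, hr, i1, i2⟩ := basis3 hV h8 hs ht hs1 (fun e => hts (e ▸ one_mem _))
    (fun e => hts (e ▸ mem_zpowers _))
  have hex : ∀ g : G, ∃ d : Wr.D, ∀ e, g * ι e * g⁻¹ = ι (act d e) := by
    intro g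
    have hn : ∀ e, ∃ e', ι e' = g * ι e * g⁻¹ := fun e =>
      (show g * ι e * g⁻¹ ∈ ι.range from hr ▸ Subgroup.Normal.conj_mem inferInstance _ (hr ▸ ⟨e, rfl⟩) g)
    choose p hp using hn
    have pm : ∀ x y, p (x * y) = p x * p y := fun x y => hi (by rw [map_mul, hp, hp, hp, map_mul]; group)
    have pi : ∀ x, p x = 1 → x = 1 := fun x hx => hi (by
      have := hp x
      rw [hx, map_one] at this
      simpa using this.symm)
    have p1 : p f1 = f1 := hi (by rw [hp, i1, hc]; group)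
    have p2 : p f2 = f2 ∨ p f2 = f1 * f2 := by
      rcases Kf.mem_zpowers_invol (hV s hs) (htc g) with h | h
      · left; apply hi; rw [hp, i2]; exact mul_inv_eq_one.1 h
      · right; apply hi; rw [hp, map_mul, i1, i2]; exact eq_mul_of_mul_inv_eq h
    have p0 : p 1 = 1 := by have := pm 1 1; rw [mul_one] at this; exact (mul_eq_left.1 this.symm)
    have key : ∀ x y : E, (x = f2 ∨ x = f1 * f2) → y ≠ 1 → f1 * y ≠ 1 → x * y ≠ 1 → f1 * x * y ≠ 1 →
        act ⟨x.i, y.j, y.i⟩ f2 = x ∧ act ⟨x.i, y.j, y.i⟩ f3 = y := by decide +kernel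
    have d0 : ∀ d, act d 1 = 1 := by decide +kernel
    have d1 : ∀ d, act d f1 = f1 := by decide +kernel
    have dm : ∀ d u v, act d (u * v) = act d u * act d v := by decide +kernel
    obtain ⟨d2, d3⟩ := key (p f2) (p f3) p2
      (fun e => absurd (pi _ e) (by decide +kernel))
      (fun e => absurd (pi (f1 * f3) (by rw [pm, p1, e])) (by decide +kernel))
      (fun e => absurd (pi (f2 * f3) (by rw [pm, e])) (by decide +kernel))
      (fun e => absurd (pi (f1 * f2 * f3) (by rw [pm, pm, p1, e])) (by decide +kernel))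
    refine ⟨⟨(p f2).i, (p f3).j, (p f3).i⟩, fun e => ?_⟩
    rw [← hp]
    rcases casesE e with rfl | rfl | rfl | rfl | rfl | rfl | rfl | rfl <;>
      simp only [pm, dm, p0, p1, d0, d1, d2, d3]
  choose φ hφ using hex
  have faith : ∀ d d' : Wr.D, (∀ e, act d e = act d' e) → d = d' := by decide +kernel
  have am : ∀ (d d' : Wr.D) e, act (d * d') e = act d (act d' e) := by decide +kernel
  have a1 : ∀ e, act 1 e = e := by decide +kernel
  refine ⟨MonoidHom.mk' φ fun g h => faith _ _ fun e => hi (by rw [am, ← hφ, ← hφ, ← hφ]; group), ?_, ?_⟩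
  · ext g
    rw [MonoidHom.mem_ker]
    constructor
    · intro h v hv
      obtain ⟨e, rfl⟩ : v ∈ ι.range := hr ▸ hv
      have := hφ g e
      rw [show φ g = 1 from h, a1] at this
      exact (mul_inv_eq_iff_eq_mul.1 this).symm
    · intro h
      refine faith _ _ fun e => hi ?_
      show ι (act (φ g) e) = _
      rw [← hφ, a1, ← h _ (show ι e ∈ V from hr ▸ ⟨e, rfl⟩)]; group
  · intro g hg
    have key : ∀ d : Wr.D, (act d f3 * f3⁻¹ = 1 ∨ act d f3 * f3⁻¹ = f1) → d.b = false := by decide +kernel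
    refine key (φ g) ((hg (ι f3) (hr ▸ ⟨_, rfl⟩)).imp (fun h => hi ?_) (fun h => hi ?_))
    · rw [map_mul, map_inv, ← hφ, h, map_one]
    · rw [map_mul, map_inv, ← hφ, h, i1]

omit [Finite G] in
theorem flag_bound {C : Subgroup G} (φ : G →* Wr.D) (hφ : φ.ker = C) (H M : Subgroup G)
    (hM : ∀ x ∈ H, x * x ∈ M) : C.relIndex H ≤ 4 * C.relIndex M := by
  haveI : Fact (Nat.Prime 2) := Nat.fact_prime_two
  rw [← hφ, relIndex_ker, relIndex_ker]
  refine (g7 (IsPGroup.of_card (n := 3) (by rw [Nat.card_congr Wr.eD]; simp)) ⟨true, false, false⟩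
    (card_le_four (z := ⟨true, false, false⟩) (y := ⟨false, false, true⟩) (w := ⟨true, false, true⟩)
      fun x hx => ?_) _ _ (by rintro _ ⟨x, hx, rfl⟩; exact ⟨x * x, hM x hx, map_mul _ _ _⟩)).1
  have := mem_centralizer_singleton_iff.1 hx
  revert this
  generalize x = y
  revert y; decide +kernel

end H2.Hd
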