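import Cfsg.Agent.H2.Hd1

/-! Harada's theorem on self-centralizing `E₈`, part 2: position of `A` relative to a normal elementary abelian `V`
(`J1`, `J2`, `trich`) and the case `|V| ≥ 16` (`rank4`). -/

set_option autoImplicit false
open Subgroup

namespace H2.Hd

universe u
variable {G : Type u} [Group G] [Finite G]

/-- `|A ∩ V| = 4` -/
structure J2 (V : Subgroup G) (s y a : G) : Prop where
  sV : s ∈ V
  yV : y ∈ V
  aV : a ∉ V
  aa : a * a = 1
  ay : a * y = y * a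
  s1 : s ≠ 1
  y1 : y ≠ 1
  ys : y ≠ s
  sc : ∀ g, g * s = s * g
  cen : ∀ x, x * y = y * x → x * a = a * x → (x = 1 ∨ x = s ∨ x = y ∨ x = s * y) ∨ x * a ∈ V

/-- `|A ∩ V| = 2` -/
structure J1 (A V : Subgroup G) (z : G) : Prop where
  zV : z ∈ V
  z1 : z ≠ 1
  zc : ∀ g, g * z = z * g
  A2 : ∀ x ∈ A, x * x = 1
  ex : ∃ a ∈ A, a ∉ V
  AV : ∀ x ∈ A, x ∈ V → x = 1 ∨ x = z
  gen : ∀ a ∈ A, a ∉ V → ∃ b ∈ A, b ∉ V ∧ a * b ∉ V ∧ (∀ x, x * a = a * x → x * b = b * x → x ∈ A) ∧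
    ∀ x ∈ A, x ∈ V ∨ x * b ∈ V ∨ x * a ∈ V ∨ x * a * b ∈ V

theorem trich {A V : Subgroup G} (A2 : ∀ x ∈ A, x * x = 1) (A8 : Nat.card A = 8)
    (hC : centralizer (A : Set G) = A) (V2 : ∀ x ∈ V, x * x = 1) {s : G} (sV : s ∈ V) (s1 : s ≠ 1)
    (sc : ∀ g, g * s = s * g) : V = A ∨ (∃ y a, J2 V s y a) ∨ J1 A V s := by
  have sA : s ∈ A := hC ▸ fun g _ => sc g
  have hcen : ∀ ι : E →* G, ι.range = A → ι f1 = s → ∀ x, x * ι f2 = ι f2 * x → x * ι f3 = ι f3 * x → x ∈ A := by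
    intro ι hr i1 x h2 h3
    rw [← hC]
    intro v hv
    obtain ⟨e, rfl⟩ : v ∈ ι.range := hr ▸ hv
    have c1 : Commute (ι f1) x := by rw [i1]; exact (sc x).symm
    have c2 : Commute (ι f2) x := h2.symm
    have c3 : Commute (ι f3) x := h3.symm
    rcases casesE e with rfl | rfl | rfl | rfl | rfl | rfl | rfl | rfl <;> try simp only [map_mul, map_one]
    exacts [(Commute.one_left x).eq, c1, c2, c1.mul_left c2, c3, c1.mul_left c3, c2.mul_left c3,
      (c1.mul_left c2).mul_left c3]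
  by_cases h : ∃ y ∈ A, y ∈ V ∧ y ≠ 1 ∧ y ≠ s
  · obtain ⟨y, yA, yV, y1, ys⟩ := h
    obtain ⟨ι, hi, hr, i1, i2⟩ := basis3 A2 A8 sA yA s1 y1 ys
    have hιA : ∀ e, ι e ∈ A := fun e => hr ▸ ⟨e, rfl⟩
    have hlow : ∀ e : E, e.k = false → ι e = 1 ∨ ι e = s ∨ ι e = y ∨ ι e = s * y := by
      intro e he
      have : ∀ e : E, e.k = false → e = 1 ∨ e = f1 ∨ e = f2 ∨ e = f1 * f2 := by decide +kernel
      rcases this e he with rfl | rfl | rfl | rfl <;> simp [i1, i2]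
    have hlowV : ∀ e : E, e.k = false → ι e ∈ V := fun e he => by
      rcases hlow e he with h | h | h | h <;> rw [h]
      exacts [one_mem _, sV, yV, mul_mem sV yV]
    have hk : ∀ e : E, e.k = false ∨ (e * f3).k = false := by decide +kernel
    by_cases ha : ι f3 ∈ V
    · left
      have hAV : A ≤ V := fun x hx => by
        obtain ⟨e, rfl⟩ : x ∈ ι.range := hr ▸ hx
        rcases hk e with h | h
        · exact hlowV e h
        · simpa using mul_mem (hlowV _ h) (inv_mem ha)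
      exact le_antisymm (fun v hv => hC ▸ fun x hx => comm_of_sq V2 _ (hAV hx) _ hv) hAV
    · refine Or.inr (Or.inl ⟨y, ι f3, sV, yV, ha, A2 _ (hιA _), comm_of_sq A2 _ (hιA _) _ yA, s1, y1, ys, sc,
        fun x h2 h3 => ?_⟩)
      obtain ⟨e, rfl⟩ : x ∈ ι.range := hr ▸ hcen ι hr i1 x (i2 ▸ h2) h3
      rw [← map_mul]
      exact (hk e).imp (hlow e) (hlowV _)
  · push Not at h
    have AV : ∀ x ∈ A, x ∈ V → x = 1 ∨ x = s := fun x hx hv => by
      have := h x hx hv; tauto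
    refine Or.inr (Or.inr ⟨sV, s1, sc, A2, ?_, AV, fun a aA aV => ?_⟩)
    · by_contra hne
      push Not at hne
      have := card_le_two (K := A) fun x hx => AV x hx (hne x hx)
      omega
    obtain ⟨ι, hi, hr, i1, i2⟩ := basis3 A2 A8 sA aA s1 (fun e => aV (e ▸ one_mem _)) (fun e => aV (e ▸ sV))
    have hιA : ∀ e, ι e ∈ A := fun e => hr ▸ ⟨e, rfl⟩
    have hV : ∀ e, ι e ∈ V ↔ e = 1 ∨ e = f1 := fun e => ⟨fun h => (AV _ (hιA e) h).imp
      (fun h => hi (by rw [h, map_one])) (fun h => hi (by rw [h, i1])), by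
        rintro (rfl | rfl)
        · rw [map_one]; exact one_mem _
        · rw [i1]; exact sV⟩
    refine ⟨ι f3, hιA _, by rw [hV]; decide +kernel, by rw [← i2, ← map_mul, hV]; decide +kernel,
      fun x h2 h3 => hcen ι hr i1 x (i2 ▸ h2) h3, fun x hx => ?_⟩
    obtain ⟨e, rfl⟩ : x ∈ ι.range := hr ▸ hx
    rw [← i2]
    simp only [← map_mul, hV]
    clear hx
    revert e; decide +kernel

omit [Finite G] in
theorem adj {a e v : G} (h : a * e * a⁻¹ * e⁻¹ = a * v * a⁻¹ * v⁻¹) : v⁻¹ * e * a = a * (v⁻¹ * e) := by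
  calc v⁻¹ * e * a = (a * v * a⁻¹)⁻¹ * (a * v * a⁻¹ * v⁻¹) * e * a := by group
    _ = _ := by rw [← h]; group

omit [Finite G] in
theorem cent_shift {V : Subgroup G} (V2 : ∀ x ∈ V, x * x = 1) {t a : G} (h : t * a ∈ V) :
    V ⊓ centralizer {t} ≤ V ⊓ centralizer {a} := fun v hv => ⟨hv.1, mem_centralizer_singleton_iff.2 (by
  have h1 : Commute v t := mem_centralizer_singleton_iff.1 hv.2
  have h2 : Commute v (t * a) := comm_of_sq V2 _ hv.1 _ h
  simpa using (h1.inv_right.mul_right h2).eq)⟩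

theorem free {V : Subgroup G} [hn : V.Normal] (V2 : ∀ x ∈ V, x * x = 1) (h16 : 16 ≤ Nat.card V) {a : G}
    (aa : a * a = 1) (h4 : Nat.card (V ⊓ centralizer {a} : Subgroup G) ≤ 4) :
    Nat.card V = 16 ∧ Nat.card (V ⊓ centralizer {a} : Subgroup G) = 4 ∧
      ∀ r ∈ V, r * a = a * r → ∃ v ∈ V, r = a * v * a⁻¹ * v⁻¹ := by
  obtain ⟨R, r1, r2, r3⟩ := kap2 V V2 a (fun x hx => hn.conj_mem x hx a) aa
  have c := card_le_of_le r3
  have e1 : Nat.card (V ⊓ centralizer {a} : Subgroup G) = 4 := by nlinarith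
  have e2 : Nat.card R = 4 := by rw [e1] at r2 c; omega
  refine ⟨by rw [← r2, e1, e2], e1, fun r hr h => (r1 r).1 ?_⟩
  rw [eq_of_le_of_card_ge r3 (by omega)]
  exact ⟨hr, mem_centralizer_singleton_iff.2 h⟩

theorem final4 (hG : IsPGroup 2 G) {V : Subgroup G} [hn : V.Normal] (V2 : ∀ x ∈ V, x * x = 1)
    (h16 : Nat.card V = 16) (hC : centralizer (V : Set G) ≤ V) {a : G} (hX : X4 V a)
    (nt : ∀ t, t ∉ V → a * t * a⁻¹ * t⁻¹ ∈ V → Nat.card (V ⊓ centralizer {t} : Subgroup G) ≤ 4)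
    (H M : Subgroup G) (hM : ∀ x ∈ H, x * x ∈ M) : Nat.card H ≤ 16 * Nat.card M := by
  obtain ⟨g1, g2⟩ := g7q hG hX H M hM
  have e1 := H2.card_inf_mul_relIndex V H
  have e2 := H2.card_inf_mul_relIndex V M
  have key : ∀ h ∈ H, Nat.card (V ⊓ H : Subgroup G) ≤
      Nat.card (V ⊓ M : Subgroup G) * Nat.card (V ⊓ centralizer {h} : Subgroup G) := by
    intro h hh
    obtain ⟨R, r1, r2⟩ := kap (V ⊓ H) (fun x hx y hy => comm_of_sq V2 x hx.1 y hy.1) h
      fun x hx => ⟨hn.conj_mem x hx.1 h, H.mul_mem (H.mul_mem hh hx.2) (H.inv_mem hh)⟩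
    rw [← r2]
    refine Nat.mul_le_mul (card_le_of_le fun r hr => ?_) (card_le_of_le (inf_le_inf_right _ inf_le_left))
    obtain ⟨v, hv, rfl⟩ := (r1 r).1 hr
    exact ⟨mul_mem (hn.conj_mem v hv.1 h) (V.inv_mem hv.1), Mw.comm_mem hM hh hv.2⟩
  have pM := H2.card_pos' M
  by_cases h1 : Nat.card (V ⊓ H : Subgroup G) ≤ 4 * Nat.card (V ⊓ M : Subgroup G)
  · have := Nat.mul_le_mul h1 g1
    rw [← e1, ← e2]; nlinarith
  by_cases h2 : Nat.card (V ⊓ H : Subgroup G) ≤ 8 * Nat.card (V ⊓ M : Subgroup G)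
  · have h3 : V.relIndex H ≤ 2 * V.relIndex M := by
      by_contra hne
      obtain ⟨t, ht, t1, t2⟩ := g2 (by omega)
      have := (key t ht).trans (Nat.mul_le_mul_left _ (nt t t1 t2))
      omega
    have := Nat.mul_le_mul h2 h3
    rw [← e1, ← e2]; nlinarith
  have : H ≤ V := fun h hh => hC (by
    have k1 := key h hh
    have k2 := H2.card_mul_relIndex (inf_le_left : V ⊓ centralizer {h} ≤ V)
    have k3 := H2.relIndex_pos (V ⊓ centralizer {h}) V
    have k4 : 8 < Nat.card (V ⊓ centralizer {h} : Subgroup G) := by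
      by_contra hne
      have := Nat.mul_le_mul_left (Nat.card (V ⊓ M : Subgroup G)) (not_lt.1 hne)
      omega
    have k5 : (V ⊓ centralizer {h}).relIndex V = 1 := by
      by_contra hne
      have : 2 ≤ (V ⊓ centralizer {h}).relIndex V := by omega
      nlinarith
    exact fun v hv => mem_centralizer_singleton_iff.1 (relIndex_eq_one.1 k5 hv).2)
  have := card_le_of_le this
  omega

namespace J2
variable {V : Subgroup G} {s y a : G} (J : J2 V s y a)
include J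

omit [Finite G] in
theorem memA0 (V2 : ∀ x ∈ V, x * x = 1) {x : G} (hx : x ∈ V) (h : x * a = a * x) :
    x = 1 ∨ x = s ∨ x = y ∨ x = s * y :=
  (J.cen x (comm_of_sq V2 _ hx _ J.yV) h).resolve_right fun e => J.aV (by simpa using mul_mem (inv_mem hx) e)

theorem cent_le (V2 : ∀ x ∈ V, x * x = 1) : Nat.card (V ⊓ centralizer {a} : Subgroup G) ≤ 4 :=
  card_le_four fun _ hx => J.memA0 V2 hx.1 (mem_centralizer_singleton_iff.1 hx.2)

omit [Finite G] in
theorem cen' {x : G} (h1 : x * y = y * x) (h2 : x * a = a * x) : x ∈ V ∨ x * a ∈ V := by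
  refine (J.cen x h1 h2).imp_left ?_
  rintro (rfl | rfl | rfl | rfl)
  exacts [one_mem _, J.sV, J.yV, mul_mem J.sV J.yV]

omit [Finite G] in
/-- elements normalizing `C_V(a)` fix `y` modulo `s` -/
theorem conj_y [hn : V.Normal] (V2 : ∀ x ∈ V, x * x = 1) {x : G}
    (hx : ∀ v ∈ V, a * x * a⁻¹ * x⁻¹ * v = v * (a * x * a⁻¹ * x⁻¹)) :
    x * y * x⁻¹ = y ∨ x * y * x⁻¹ = s * y := by
  have h1 := hn.conj_mem y J.yV x
  have h2 : x * y * x⁻¹ * a = a * (x * y * x⁻¹) := by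
    symm
    calc a * (x * y * x⁻¹) = (a * x * a⁻¹ * x⁻¹) * x * (a * y) * x⁻¹ := by group
      _ = (a * x * a⁻¹ * x⁻¹) * (x * y * x⁻¹) * (x * a * x⁻¹) := by rw [J.ay]; group
      _ = _ := by rw [hx _ h1]; group
  rcases J.memA0 V2 h1 h2 with h | h | h | h
  · exact absurd (by simpa using h) J.y1
  · refine absurd ?_ J.ys
    calc y = x⁻¹ * (x * y * x⁻¹) * x := by group
      _ = s := by rw [h, mul_assoc, ← J.sc]; group
  · exact Or.inl h
  · exact Or.inr h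

omit [Finite G] in
theorem two {x x' : G} (h : x * y * x⁻¹ = s * y) (h' : x' * y * x'⁻¹ = s * y) (ss : s * s = 1) :
    x * x' * y = y * (x * x') := by
  calc x * x' * y = x * (x' * y * x'⁻¹) * x' := by group
    _ = (x * s) * y * x⁻¹ * x * x' := by rw [h']; group
    _ = s * (x * y * x⁻¹) * x * x' := by rw [J.sc]; group
    _ = _ := by rw [h, ← mul_assoc, ss]; group

theorem rank4 (hG : IsPGroup 2 G) [hn : V.Normal] (V2 : ∀ x ∈ V, x * x = 1) (h16 : 16 ≤ Nat.card V)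
    (H M : Subgroup G) (hM : ∀ x ∈ H, x * x ∈ M) : Nat.card H ≤ 16 * Nat.card M := by
  obtain ⟨f1, f2, f3⟩ := free V2 h16 J.aa (J.cent_le V2)
  have hJ : ∀ e, e * y = y * e → a * e * a⁻¹ * e⁻¹ ∈ V → e ∈ V ∨ e * a ∈ V := by
    intro e h1 h2
    obtain ⟨v, hv, h3⟩ := f3 _ h2 (comm_fix J.aa (V2 _ h2))
    refine (J.cen' (x := v⁻¹ * e) ?_ (adj h3)).imp (fun h => by simpa using mul_mem hv h)
      (fun h => by simpa [mul_assoc] using mul_mem hv h)
    rw [mul_assoc, h1, ← mul_assoc, comm_of_sq V2 _ (inv_mem hv) _ J.yV, mul_assoc]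
  have hC : centralizer (V : Set G) ≤ V := by
    by_contra hne
    obtain ⟨e, he, heV, -, hec⟩ := Kf.step hG V _ hne
    have := (hJ e (he y J.yV).symm (hec a)).resolve_left heV
    have h2 := card_le_of_le ((show V ≤ V ⊓ centralizer {e} from fun v hv =>
      ⟨hv, mem_centralizer_singleton_iff.2 (he v hv)⟩).trans (cent_shift V2 this))
    omega
  refine final4 hG V2 f1 hC (a := a) (x4_of fun x x' h h' x1 x2 x1' x2' => ?_) (fun t t1 t2 => ?_) H M hM
  · have k : ∀ x, a * x * a⁻¹ * x⁻¹ ∈ V → x ∉ V → x * a ∉ V → x * y * x⁻¹ = s * y := fun x h x1 x2 =>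
      (J.conj_y V2 fun v hv => comm_of_sq V2 _ h _ hv).resolve_left fun e =>
        (hJ x (mul_inv_eq_iff_eq_mul.1 e) h).elim x1 x2
    refine hJ _ (J.two (k x h x1 x2) (k x' h' x1' x2') (V2 s J.sV)) ?_
    have := mul_mem h (hn.conj_mem _ h' x)
    convert this using 1; group
  by_contra hne
  set U := V ⊓ centralizer {t} with hU
  have hU1 : ∀ v ∈ U, a * v * a⁻¹ ∈ U := fun v hv => ⟨hn.conj_mem v hv.1 a, mem_centralizer_singleton_iff.2 (by
    have e1 : v * t = t * v := mem_centralizer_singleton_iff.1 hv.2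
    have e2 := comm_of_sq V2 _ (inv_mem t2) _ (hn.conj_mem v hv.1 a)
    calc a * v * a⁻¹ * t = a * v * a⁻¹ * (a * t * a⁻¹ * t⁻¹)⁻¹ * (a * t * a⁻¹) := by group
      _ = (a * t * a⁻¹ * t⁻¹)⁻¹ * a * (v * t) * a⁻¹ := by rw [← e2]; group
      _ = _ := by rw [e1]; group)⟩
  obtain ⟨v, hv, hy⟩ := f3 y J.yV J.ay.symm
  have hyU : y ∈ U := by
    rw [hy]
    by_cases hvU : v ∈ U
    · exact mul_mem (hU1 v hvU) (inv_mem hvU)
    have k2 := H2.card_mul_relIndex (inf_le_left : U ≤ V)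
    have k3 := H2.relIndex_pos U V
    have k4 : U.relIndex V ≠ 1 := fun e => hvU (relIndex_eq_one.1 e hv)
    have k5 : U.relIndex V < 4 := by nlinarith
    have k6 : U.relIndex V ≠ 3 := fun e => by rw [e] at k2; omega
    refine H9.mul_inv_mem_of_relIndex_two (P := V) (by omega) (hn.conj_mem v hv a) hv (fun e => hvU ?_) hvU
    have := hU1 _ e
    rwa [show a * (a * v * a⁻¹) * a⁻¹ = (a * a) * v * (a * a)⁻¹ by group, J.aa, one_mul, inv_one, mul_one] at this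
  have := (hJ t (mem_centralizer_singleton_iff.1 hyU.2).symm t2).resolve_left t1
  exact hne ((card_le_of_le (cent_shift V2 this)).trans f2.le)

end J2

namespace J1
variable {A V : Subgroup G} {z : G} (J : J1 A V z)
include J

theorem cent_le [hn : V.Normal] (V2 : ∀ x ∈ V, x * x = 1) {a : G} (ha : a ∈ A) (haV : a ∉ V) :
    Nat.card (V ⊓ centralizer {a} : Subgroup G) ≤ 4 := by
  obtain ⟨b, hb, -, -, hc, -⟩ := J.gen a ha haV
  have hab : Commute b a := comm_of_sq J.A2 _ hb _ ha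
  obtain ⟨R, -, r2, r3⟩ := kap2 (V ⊓ centralizer {a}) (fun x hx => V2 x hx.1) b (fun x hx =>
    ⟨hn.conj_mem x hx.1 b, mem_centralizer_singleton_iff.2
      ((hab.mul_left (mem_centralizer_singleton_iff.1 hx.2)).mul_left hab.inv_left)⟩) (J.A2 b hb)
  have h2 : Nat.card (V ⊓ centralizer {a} ⊓ centralizer {b} : Subgroup G) ≤ 2 :=
    card_le_two fun x hx => J.AV x (hc x (mem_centralizer_singleton_iff.1 hx.1.2)
      (mem_centralizer_singleton_iff.1 hx.2)) hx.1.1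
  rw [← r2]
  exact Nat.mul_le_mul ((card_le_of_le r3).trans h2) h2

theorem half [hn : V.Normal] (V2 : ∀ x ∈ V, x * x = 1) {a b : G} (ha : a ∈ A) (hb : b ∈ A)
    (hc : ∀ x, x * a = a * x → x * b = b * x → x ∈ A)
    (h2 : 2 < Nat.card (V ⊓ centralizer {a} : Subgroup G)) {e : G} (hea : e * a = a * e)
    (heb : b * e * b⁻¹ * e⁻¹ ∈ V) : ∃ u ∈ V, u⁻¹ * e ∈ A := by
  have hab : Commute b a := comm_of_sq J.A2 _ hb _ ha
  have k : ∀ e, e * a = a * e → b * e * b⁻¹ * e⁻¹ ∈ V → b * e * b⁻¹ * e⁻¹ = 1 ∨ b * e * b⁻¹ * e⁻¹ = z :=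
    fun e hea heb => J.AV _ (hc _ (((hab.mul_left hea).mul_left hab.inv_left).mul_left
      (Commute.inv_left hea)) (comm_fix (J.A2 b hb) (V2 _ heb))) heb
  have k1 : ∀ e, b * e * b⁻¹ * e⁻¹ = 1 → e * b = b * e := fun e h =>
    (mul_inv_eq_iff_eq_mul.1 (mul_inv_eq_one.1 h)).symm
  rcases k e hea heb with h | h
  · exact ⟨1, one_mem _, by simpa using hc e hea (k1 e h)⟩
  obtain ⟨u, hu, hu'⟩ : ∃ u ∈ V ⊓ centralizer {a}, ¬ (u = 1 ∨ u = z) := by
    by_contra hne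
    push Not at hne
    have := card_le_two (K := V ⊓ centralizer {a}) (z := z) fun x hx => by have := hne x hx; tauto
    omega
  have hua : u * a = a * u := mem_centralizer_singleton_iff.1 hu.2
  have h' := (k u hua (mul_mem (hn.conj_mem u hu.1 b) (inv_mem hu.1))).resolve_left
    fun e => hu' (J.AV u (hc u hua (k1 u e)) hu.1)
  exact ⟨u, hu.1, hc _ ((Commute.inv_left hua).mul_left hea) (adj (h.trans h'.symm))⟩

theorem rank4 (hG : IsPGroup 2 G) [hn : V.Normal] (V2 : ∀ x ∈ V, x * x = 1) (h16 : 16 ≤ Nat.card V)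
    (H M : Subgroup G) (hM : ∀ x ∈ H, x * x ∈ M) : Nat.card H ≤ 16 * Nat.card M := by
  have hJ : ∀ a ∈ A, a ∉ V → ∀ b ∈ A, (∀ x, x * a = a * x → x * b = b * x → x ∈ A) → ∀ e,
      a * e * a⁻¹ * e⁻¹ ∈ V → b * e * b⁻¹ * e⁻¹ ∈ V → ∃ u ∈ V, u⁻¹ * e ∈ A := by
    intro a ha haV b hb hc e h1 h2
    obtain ⟨-, f2, f3⟩ := free V2 h16 (J.A2 a ha) (J.cent_le V2 ha haV)
    obtain ⟨v, hv, h3⟩ := f3 _ h1 (comm_fix (J.A2 a ha) (V2 _ h1))
    obtain ⟨u, hu, h4⟩ := J.half V2 ha hb hc (by omega) (adj h3) (by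
      have := mul_mem (mul_mem (hn.conj_mem _ (inv_mem hv) b) h2) hv
      convert this using 1; group)
    exact ⟨v * u, mul_mem hv hu, by simpa [mul_assoc] using h4⟩
  have hS : ∀ e u, e ∉ V → u ∈ V → u⁻¹ * e ∈ A → Nat.card (V ⊓ centralizer {e} : Subgroup G) ≤ 4 := by
    intro e u he hu h
    refine (card_le_of_le (cent_shift V2 (a := u⁻¹ * e) ?_)).trans
      (J.cent_le V2 h fun h' => he (by simpa using mul_mem hu h'))
    have : e * (u⁻¹ * e) = u * (u⁻¹ * e * (u⁻¹ * e)) := by group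
    rw [this, J.A2 _ h, mul_one]; exact hu
  obtain ⟨a₀, ha₀, ha₀V⟩ := J.ex
  obtain ⟨b₀, hb₀, -, -, hc₀, -⟩ := J.gen a₀ ha₀ ha₀V
  have hC : centralizer (V : Set G) ≤ V := by
    by_contra hne
    obtain ⟨e, he, heV, -, hec⟩ := Kf.step hG V _ hne
    obtain ⟨u, hu, h⟩ := hJ a₀ ha₀ ha₀V b₀ hb₀ hc₀ e (hec _) (hec _)
    have h2 := (card_le_of_le (show V ≤ V ⊓ centralizer {e} from fun v hv =>
      ⟨hv, mem_centralizer_singleton_iff.2 (he v hv)⟩)).trans (hS e u heV hu h)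
    omega
  obtain ⟨t, -, htV, -, htc⟩ := Kf.step hG V ⊤ fun h => ha₀V (h (mem_top _))
  obtain ⟨u, hu, ha⟩ := hJ a₀ ha₀ ha₀V b₀ hb₀ hc₀ t (htc _) (htc _)
  have haV : u⁻¹ * t ∉ V := fun h' => htV (by simpa using mul_mem hu h')
  have hac : ∀ x, u⁻¹ * t * x * (u⁻¹ * t)⁻¹ * x⁻¹ ∈ V := fun x => by
    have := mul_mem (mul_mem (inv_mem hu) (inv_mem (htc x))) (hn.conj_mem _ hu x)
    convert this using 1; group
  generalize u⁻¹ * t = a at ha haV hac
  obtain ⟨b, hb, -, -, hc, hd⟩ := J.gen a ha haV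
  refine final4 hG V2 (free V2 h16 (J.A2 a ha) (J.cent_le V2 ha haV)).1 hC (a := b) ⟨a, fun x hx => ?_⟩
    (fun t t1 t2 => ?_) H M hM
  · obtain ⟨w, hw, h⟩ := hJ a ha haV b hb hc x (hac x) hx
    have k : ∀ g, w⁻¹ * x * g ∈ V → x * g ∈ V := fun g h => by simpa [mul_assoc] using mul_mem hw h
    rcases hd _ h with h | h | h | h
    · exact Or.inl (by simpa using mul_mem hw h)
    · exact Or.inr (Or.inl (k _ h))
    · exact Or.inr (Or.inr (Or.inl (k _ h)))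
    · exact Or.inr (Or.inr (Or.inr (by rw [mul_assoc] at h ⊢; exact k _ h)))
  · obtain ⟨w, hw, h⟩ := hJ a ha haV b hb hc t (hac t) t2
    exact hS t w t1 hw h

end J1

end H2.Hd
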