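import Cfsg.Agent.H2.Hd2

/-! Harada's theorem on self-centralizing `E₈`, part 3: the setting `Sw` (`W` normal abelian of exponent 4,
`Ω₂(C(W)) = W`, `|Ω₁(W)| = 8`), counting squares (`Sw.final3`) and the cases `W = V` and `|A ∩ V| = 2`. -/

set_option autoImplicit false
open Subgroup

namespace H2.Hd

universe u
variable {G : Type u} [Group G] [Finite G]

theorem fib {β : Type*} [Finite β] (s : Set G) (t : Set β) (f : G → β) (hf : ∀ x ∈ s, f x ∈ t) (K : Subgroup G)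
    (h : ∀ x₀ ∈ s, ∀ x ∈ s, f x = f x₀ → x₀⁻¹ * x ∈ K) : s.ncard ≤ Nat.card K * t.ncard := by
  classical
  haveI := Fintype.ofFinite G
  haveI := Fintype.ofFinite β
  rw [Set.ncard_eq_toFinset_card', Set.ncard_eq_toFinset_card']
  refine Finset.card_le_mul_card_image_of_maps_to (f := f) (fun x hx => by simpa using hf x (by simpa using hx)) _
    fun y _ => ?_
  by_cases h0 : (s.toFinset.filter fun d => f d = y).Nonempty
  · obtain ⟨d₀, hd₀⟩ := h0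
    simp only [Finset.mem_filter, Set.mem_toFinset] at hd₀
    rw [Nat.card_eq_fintype_card, Fintype.card_subtype]
    refine Finset.card_le_card_of_injOn (fun d => d₀⁻¹ * d) (fun d hd => ?_) (fun a _ b _ e => by simpa using e)
    simp only [Finset.coe_filter, Set.mem_toFinset, Finset.mem_univ, true_and, Set.mem_ofPred_eq] at hd ⊢
    exact h _ hd₀.1 _ hd.1 (hd.2.trans hd₀.2.symm)
  · rw [Finset.not_nonempty_iff_eq_empty.1 h0]; simp

theorem exists_phi (hG : IsPGroup 2 G) (V C : Subgroup G) [hV : V.Normal] [C.Normal] (hVC : V ≤ C) (h : ¬ C ≤ V) :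
    ∃ F : Subgroup G, F.Normal ∧ V ≤ F ∧ F ≤ C ∧ F.relIndex C = 2 := by
  obtain ⟨N, hVN, hN⟩ := Finite.exists_le_maximal
    (p := fun B : Subgroup G => B.Normal ∧ B ≤ C ∧ ¬ C ≤ B) (a := V) ⟨hV, hVC, h⟩
  obtain ⟨hn, hNC, hCN⟩ := hN.prop
  obtain ⟨e, he, heN, hee, hec⟩ := Kf.step hG N C hCN
  let N' : Subgroup G :=
    { carrier := {x | x ∈ N ∨ x * e⁻¹ ∈ N}
      one_mem' := Or.inl (one_mem _)
      mul_mem' := fun {x y} hx hy => by
        rcases hx with hx | hx <;> rcases hy with hy | hy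
        · exact Or.inl (mul_mem hx hy)
        · exact Or.inr (by rw [mul_assoc]; exact mul_mem hx hy)
        · exact Or.inr (by convert mul_mem hx (hn.conj_mem _ hy e) using 1; group)
        · exact Or.inl (by convert mul_mem (mul_mem hx (hn.conj_mem _ hy e)) hee using 1; group)
      inv_mem' := fun {x} hx => by
        rcases hx with hx | hx
        · exact Or.inl (inv_mem hx)
        · exact Or.inr (by convert mul_mem (hn.conj_mem _ (inv_mem hx) e⁻¹) (inv_mem hee) using 1; group) }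
  have hN' : C ≤ N' := by
    by_contra hne
    have := hN.le_of_ge (y := N') ⟨⟨fun x hx g => hx.imp (fun hx => hn.conj_mem x hx g) fun hx => by
      convert mul_mem (hn.conj_mem _ hx g) (hec g) using 1; group⟩, fun x hx => hx.elim (fun h => hNC h)
        fun h => by simpa using mul_mem (hNC h) he, hne⟩ (fun x hx => Or.inl hx)
    exact heN (this (Or.inr (by simp)))
  exact ⟨N, hn, hVN, hNC, H9.relIndex_eq_two_of he heN fun g hg => hN' hg⟩

/-- The setting: `W` normal abelian of exponent 4 with `Ω₂(C(W)) = W`, `V = Ω₁(W)` of order 8. -/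
structure Sw (W V : Subgroup G) : Prop where
  pg : IsPGroup 2 G
  nW : W.Normal
  comm : ∀ x ∈ W, ∀ y ∈ W, x * y = y * x
  four : ∀ x ∈ W, x ^ 4 = 1
  alp : ∀ c ∈ centralizer (W : Set G), c ^ 4 = 1 → c ∈ W
  memV : ∀ x, x ∈ V ↔ x ∈ W ∧ x * x = 1
  V8 : Nat.card V = 8

namespace Sw
variable {W V : Subgroup G} (S : Sw W V)
include S

omit [Finite G] in
theorem VW : V ≤ W := fun x hx => ((S.memV x).1 hx).1

omit [Finite G] in
theorem V2 : ∀ x ∈ V, x * x = 1 := fun x hx => ((S.memV x).1 hx).2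

omit [Finite G] in
theorem nV : V.Normal := ⟨fun a ha g => (S.memV _).2 ⟨S.nW.conj_mem a (S.VW ha) g, by
  calc g * a * g⁻¹ * (g * a * g⁻¹) = g * (a * a) * g⁻¹ := by group
    _ = 1 := by rw [((S.memV a).1 ha).2]; group⟩⟩

omit [Finite G] in
theorem WC : W ≤ centralizer (W : Set G) := fun x hx y hy => S.comm y hy x hx

omit [Finite G] in
theorem CC0 : centralizer (W : Set G) ≤ centralizer (V : Set G) := centralizer_le S.VW

omit [Finite G] in
theorem sqV {w : G} (hw : w ∈ W) : w * w ∈ V :=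
  (S.memV _).2 ⟨mul_mem hw hw, by rw [← S.four w hw]; simp [pow_succ, mul_assoc]⟩

omit [Finite G] in
theorem memW_of {c : G} (hc : c ∈ centralizer (W : Set G)) (h : c * c ∈ V) : c ∈ W :=
  S.alp c hc (by rw [show c ^ 4 = (c * c) * (c * c) by simp [pow_succ, mul_assoc], S.V2 _ h])

omit [Finite G] in
theorem memV_of {c : G} (hc : c ∈ centralizer (W : Set G)) (h : c * c = 1) : c ∈ V :=
  (S.memV c).2 ⟨S.memW_of hc (h ▸ one_mem _), h⟩

omit [Finite G] in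
theorem ord4 {c : G} (hc : c ∈ centralizer (W : Set G)) (h : c ∉ V) :
    ∃ j : ℕ, c ^ j ∈ W ∧ c ^ j * c ^ j ≠ 1 := by
  obtain ⟨k, hk⟩ := S.pg c
  obtain ⟨j, e1, e2⟩ := Mw.exists_pow_four c k hk fun e => h (S.memV_of hc e)
  exact ⟨j, S.alp _ (pow_mem hc j) e1, e2⟩

omit [Finite G] in
theorem delta {g w : G} (hw : w ∈ W) (hg : g * (w * w) = w * w * g) : g * w * g⁻¹ * w⁻¹ ∈ V := by
  have h1 := S.nW.conj_mem w hw g
  refine (S.memV _).2 ⟨mul_mem h1 (inv_mem hw), ?_⟩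
  calc g * w * g⁻¹ * w⁻¹ * (g * w * g⁻¹ * w⁻¹) = g * w * g⁻¹ * (w⁻¹ * (g * w * g⁻¹)) * w⁻¹ := by group
    _ = g * w * g⁻¹ * ((g * w * g⁻¹) * w⁻¹) * w⁻¹ := by rw [S.comm _ (inv_mem hw) _ h1]
    _ = g * (w * w) * g⁻¹ * (w * w)⁻¹ := by group
    _ = 1 := by rw [hg]; group

theorem sq_count (H : Subgroup G) (t : Set G) (ht : ∀ d ∈ centralizer (W : Set G) ⊓ H, d * d ∈ t) :
    Nat.card (centralizer (W : Set G) ⊓ H : Subgroup G) ≤ Nat.card (V ⊓ H : Subgroup G) * t.ncard := by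
  refine fib ((centralizer (W : Set G) ⊓ H : Subgroup G) : Set G) t (fun d => d * d) ht _
    fun d₀ h₀ d h e => ⟨?_, H.mul_mem (H.inv_mem h₀.2) h.2⟩
  have hc : d₀⁻¹ * d ∈ centralizer (W : Set G) := mul_mem (inv_mem h₀.1) h.1
  by_contra hne
  obtain ⟨j, e1, e2⟩ := S.ord4 hc hne
  have e3 : d₀ * (d₀⁻¹ * d) * d₀⁻¹ = (d₀⁻¹ * d)⁻¹ := by
    have e' : d * d = d₀ * d₀ := e
    calc d₀ * (d₀⁻¹ * d) * d₀⁻¹ = d⁻¹ * (d * d) * d₀⁻¹ := by group
      _ = _ := by rw [e']; group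
  have e4 : d₀ * (d₀⁻¹ * d) ^ j * d₀⁻¹ = ((d₀⁻¹ * d) ^ j)⁻¹ := by rw [← conj_pow, e3, inv_pow]
  rw [← h₀.1 _ e1, mul_inv_cancel_right] at e4
  exact e2 (mul_eq_one_iff_eq_inv.2 e4)

theorem final3 (H M : Subgroup G) (hMH : M ≤ H) (hM : ∀ x ∈ H, x * x ∈ M)
    (h1 : (centralizer (W : Set G)).relIndex H ≤ 4 * (centralizer (W : Set G)).relIndex M)
    (h2 : V ≤ H → (∀ m ∈ M, m ∈ centralizer (W : Set G) → ∃ d ∈ H, d ∈ centralizer (W : Set G) ∧ d * d = m) →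
      (centralizer (W : Set G)).relIndex H ≤ 2) : Nat.card H ≤ 16 * Nat.card M := by
  haveI : Fact (Nat.Prime 2) := Nat.fact_prime_two
  set C := centralizer (W : Set G) with hC
  have e1 := H2.card_inf_mul_relIndex C H
  have e2 := H2.card_inf_mul_relIndex C M
  have e3 : Nat.card (V ⊓ H : Subgroup G) ≤ 8 := S.V8 ▸ card_le_of_le inf_le_left
  have e4 : Nat.card (C ⊓ H : Subgroup G) ≤ Nat.card (V ⊓ H : Subgroup G) * Nat.card (C ⊓ M : Subgroup G) :=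
    S.sq_count H ((C ⊓ M : Subgroup G) : Set G) fun d hd => ⟨C.mul_mem hd.1 hd.1, hM d hd.2⟩
  by_cases h : Nat.card (C ⊓ H : Subgroup G) ≤ 4 * Nat.card (C ⊓ M : Subgroup G)
  · have := Nat.mul_le_mul h h1
    rw [← e1, ← e2]; nlinarith
  have hle : C ⊓ M ≤ C ⊓ H := inf_le_inf_left _ hMH
  have e5 := H2.card_mul_relIndex hle
  obtain ⟨n, hn⟩ := (S.pg.to_subgroup (C ⊓ H)).index ((C ⊓ M).subgroupOf _)
  have hn' : (C ⊓ M).relIndex (C ⊓ H) = 2 ^ n := hn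
  rw [hn'] at e5
  have p := H2.card_pos' (C ⊓ M)
  have h8 : 8 * Nat.card (C ⊓ M : Subgroup G) ≤ Nat.card (C ⊓ H : Subgroup G) := by
    rcases n with _ | _ | _ | n
    · omega
    · omega
    · omega
    · rw [← e5, pow_succ, pow_succ, pow_succ]
      have := Nat.one_le_two_pow (n := n)
      nlinarith
  have h3 := h2 (by
      have : V ⊓ H = V := eq_of_le_of_card_ge inf_le_left (by rw [S.V8]; nlinarith)
      exact this ▸ inf_le_right) fun m hm hmC => by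
    by_contra hne
    push Not at hne
    have k1 := S.sq_count H (((C ⊓ M : Subgroup G) : Set G) \ {m}) fun d hd =>
      ⟨⟨C.mul_mem hd.1 hd.1, hM d hd.2⟩, hne d hd.2 hd.1⟩
    have k2 : (((C ⊓ M : Subgroup G) : Set G) \ {m}).ncard + 1 = Nat.card (C ⊓ M : Subgroup G) :=
      Set.ncard_diff_singleton_add_one (show m ∈ ((C ⊓ M : Subgroup G) : Set G) from ⟨hmC, hm⟩)
    have := Nat.mul_le_mul_right (((C ⊓ M : Subgroup G) : Set G) \ {m}).ncard e3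
    rw [← hC] at k1
    omega
  have p2 := H2.relIndex_pos C M
  have := Nat.mul_le_mul (e4.trans (Nat.mul_le_mul_right _ e3)) h3
  rw [← e1, ← e2]; nlinarith

omit [Finite G] in
theorem sq_of {H M : Subgroup G}
    (hsq : ∀ m ∈ M, m ∈ centralizer (W : Set G) → ∃ d ∈ H, d ∈ centralizer (W : Set G) ∧ d * d = m)
    {m : G} (hm : m ∈ M) (hmV : m ∈ V) : ∃ d ∈ H, d ∈ W ∧ d * d = m := by
  obtain ⟨d, h1, h2, h3⟩ := hsq m hm (S.WC (S.VW hmV))
  exact ⟨d, h1, S.memW_of h2 (h3 ▸ hmV), h3⟩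

theorem caseV (h : ∀ w ∈ W, w * w = 1) (H M : Subgroup G) (hMH : M ≤ H) (hM : ∀ x ∈ H, x * x ∈ M) :
    Nat.card H ≤ 16 * Nat.card M := by
  haveI hn := S.nV
  have hWV : W = V := le_antisymm (fun w hw => (S.memV w).2 ⟨hw, h w hw⟩) S.VW
  obtain ⟨s, hs, hc, ho⟩ := H9.exists_central_involution S.pg V (fun e => by
    have := S.V8; rw [e, card_bot] at this; omega)
  obtain ⟨φ, hφ, -⟩ := flag S.pg S.V2 S.V8 hs (fun e => by rw [e, orderOf_one] at ho; omega) (mem_center_iff.1 hc)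
  refine S.final3 H M hMH hM (flag_bound φ (hWV ▸ hφ) H M hM) fun hVH hsq => ?_
  refine (relIndex_eq_one.2 fun g hg v hv => ?_).le.trans (by omega)
  have hv' : v ∈ V := hWV ▸ hv
  obtain ⟨d, -, h2, h3⟩ := S.sq_of hsq (Mw.comm_mem hM hg (hVH hv')) (mul_mem (hn.conj_mem v hv' g) (inv_mem hv'))
  rw [h d h2] at h3
  exact (mul_inv_eq_iff_eq_mul.1 (mul_inv_eq_one.1 h3.symm)).symm

theorem exists_s (h : ¬ ∀ w ∈ W, w * w = 1) : ∃ w ∈ W, w * w ≠ 1 ∧ ∀ g, g * (w * w) = w * w * g := by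
  let U : Subgroup G :=
    { carrier := {x | ∃ w ∈ W, w * w = x}
      one_mem' := ⟨1, one_mem _, mul_one _⟩
      mul_mem' := by
        rintro _ _ ⟨a, ha, rfl⟩ ⟨b, hb, rfl⟩
        refine ⟨a * b, mul_mem ha hb, ?_⟩
        calc a * b * (a * b) = a * (b * a) * b := by group
          _ = _ := by rw [S.comm _ hb _ ha]; group
      inv_mem' := by
        rintro _ ⟨a, ha, rfl⟩
        exact ⟨a⁻¹, inv_mem ha, by group⟩ }
  haveI : U.Normal := ⟨by
    rintro _ ⟨a, ha, rfl⟩ g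
    exact ⟨_, S.nW.conj_mem a ha g, by group⟩⟩
  obtain ⟨_, ⟨w, hw, rfl⟩, hc, ho⟩ := H9.exists_central_involution S.pg U (fun e => h fun w hw => by
    have : w * w ∈ U := ⟨w, hw, rfl⟩
    rwa [e, mem_bot] at this)
  exact ⟨w, hw, fun e => by rw [e, orderOf_one] at ho; omega, mem_center_iff.1 hc⟩

/-- an involution acting on `V` with at most 4 fixed points is a transvection -/
theorem transv {a : G} (aa : a * a = 1) (h4 : Nat.card (V ⊓ centralizer {a} : Subgroup G) ≤ 4) :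
    Nat.card (V ⊓ centralizer {a} : Subgroup G) = 4 ∧ ∃ v₀ ∈ V, a * v₀ * a⁻¹ * v₀⁻¹ ≠ 1 ∧
      ∀ v ∈ V, a * v * a⁻¹ * v⁻¹ = 1 ∨ a * v * a⁻¹ * v⁻¹ = a * v₀ * a⁻¹ * v₀⁻¹ := by
  obtain ⟨R, r1, r2, r3⟩ := kap2 V S.V2 a (fun x hx => S.nV.conj_mem x hx a) aa
  have c := card_le_of_le r3
  rw [S.V8] at r2
  have e0 : 2 < Nat.card (V ⊓ centralizer {a} : Subgroup G) := by nlinarith
  have e1 : Nat.card (V ⊓ centralizer {a} : Subgroup G) = 4 := by
    by_contra hne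
    rw [show Nat.card (V ⊓ centralizer {a} : Subgroup G) = 3 by omega] at r2
    omega
  have e2 : Nat.card R = 2 := by rw [e1] at r2; omega
  obtain ⟨⟨r, hr⟩, h1, h2⟩ := (Nat.card_eq_two_iff' (1 : R)).1 e2
  obtain ⟨v₀, hv₀, rfl⟩ := (r1 r).1 hr
  refine ⟨e1, v₀, hv₀, fun e => h1 (Subtype.ext e), fun v hv => ?_⟩
  by_cases e : a * v * a⁻¹ * v⁻¹ = 1
  · exact Or.inl e
  · exact Or.inr (congrArg Subtype.val (h2 ⟨_, (r1 _).2 ⟨v, hv, rfl⟩⟩ fun e' => e (congrArg Subtype.val e')))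

omit [Finite G] S in
theorem conj_comm {a x v : G} (h : ∀ u ∈ V, a * x * a⁻¹ * x⁻¹ * u = u * (a * x * a⁻¹ * x⁻¹)) [hn : V.Normal]
    (hv : v ∈ V) : x * (a * v * a⁻¹ * v⁻¹) * x⁻¹ = a * (x * v * x⁻¹) * a⁻¹ * (x * v * x⁻¹)⁻¹ := by
  have := h _ (hn.conj_mem _ (hn.conj_mem v hv x) a)
  calc x * (a * v * a⁻¹ * v⁻¹) * x⁻¹ = (a * x * a⁻¹ * x⁻¹)⁻¹ * ((a * (x * v * x⁻¹) * a⁻¹) * (a * x * a⁻¹ * x⁻¹)) *
      (x * v * x⁻¹)⁻¹ := by group
    _ = _ := by rw [← this]; group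

theorem case1 {A : Subgroup G} {w : G} (hw : w ∈ W) (J : J1 A V (w * w)) (H M : Subgroup G) (hMH : M ≤ H)
    (hM : ∀ x ∈ H, x * x ∈ M) : Nat.card H ≤ 16 * Nat.card M := by
  haveI hn := S.nV
  haveI hnW := S.nW
  set z := w * w with hz
  have zz : z * z = 1 := S.V2 z J.zV
  have hAc := comm_of_sq J.A2
  have tr : ∀ a ∈ A, a ∉ V → Nat.card (V ⊓ centralizer {a} : Subgroup G) = 4 ∧
      (∃ v₀ ∈ V, a * v₀ * a⁻¹ * v₀⁻¹ = z) ∧ ∀ v ∈ V, a * v * a⁻¹ * v⁻¹ = 1 ∨ a * v * a⁻¹ * v⁻¹ = z := by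
    intro a ha haV
    obtain ⟨t1, v₀, hv₀, t2, t3⟩ := S.transv (J.A2 a ha) (J.cent_le S.V2 ha haV)
    obtain ⟨b, hb, -, -, hc, -⟩ := J.gen a ha haV
    have hm := mul_mem (hn.conj_mem v₀ hv₀ a) (inv_mem hv₀)
    have e : a * v₀ * a⁻¹ * v₀⁻¹ = z := by
      refine (J.AV _ (hc _ (comm_fix (J.A2 a ha) (S.V2 _ hm)) ?_) hm).resolve_left t2
      have k := conj_comm (V := V) (a := a) (x := b) (fun u _ => by rw [hAc a ha b hb]; group) hv₀
      rcases t3 _ (hn.conj_mem v₀ hv₀ b) with h | h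
      · rw [h] at k; exact absurd (by simpa using k) t2
      · rw [h] at k; exact (mul_inv_eq_iff_eq_mul.1 k).symm
    exact ⟨t1, ⟨v₀, hv₀, e⟩, e ▸ t3⟩
  have hA0 : ∀ a ∈ A, a ∈ centralizer (V : Set G) → a ∈ V := fun a ha h => by
    by_contra hne
    have h2 := card_le_of_le (show V ≤ V ⊓ centralizer {a} from fun v hv =>
      ⟨hv, mem_centralizer_singleton_iff.2 (h v hv)⟩)
    rw [(tr a ha hne).1, S.V8] at h2; omega
  have VC : V ≤ centralizer (V : Set G) := S.VW.trans (S.WC.trans S.CC0)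
  have j2 : ∀ e ∈ centralizer (V : Set G), (∀ α ∈ A, α * e * α⁻¹ * e⁻¹ ∈ V) → ∀ a ∈ A, a ∉ V →
      (a * e * a⁻¹ * e⁻¹ = 1 ∨ a * e * a⁻¹ * e⁻¹ = z) → e ∈ V := by
    intro e he h1 a ha haV h2
    obtain ⟨t1, ⟨v₀, hv₀, t2⟩, -⟩ := tr a ha haV
    obtain ⟨b, hb, -, -, hc, -⟩ := J.gen a ha haV
    obtain ⟨v, hv, h3⟩ : ∃ v ∈ V, a * e * a⁻¹ * e⁻¹ = a * v * a⁻¹ * v⁻¹ := by
      rcases h2 with h | h
      · exact ⟨1, one_mem _, by rw [h]; group⟩
      · exact ⟨v₀, hv₀, h.trans t2.symm⟩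
    obtain ⟨u, hu, h4⟩ := J.half S.V2 ha hb hc (by omega) (adj h3) (by
      have := mul_mem (mul_mem (hn.conj_mem _ (inv_mem hv) b) (h1 b hb)) hv
      convert this using 1; group)
    have := hA0 _ h4 (mul_mem (inv_mem (VC hu)) (mul_mem (inv_mem (VC hv)) he))
    simpa using mul_mem hv (mul_mem hu this)
  obtain ⟨a, ha, haV⟩ := J.ex
  obtain ⟨b, hb, hbV, habV, hc, -⟩ := J.gen a ha haV
  have j3 : ∀ e ∈ W, (e * e = 1 ∨ e * e = z) → ∀ g, g * e * g⁻¹ * e⁻¹ ∈ V := fun e he h g => S.delta he (by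
    rcases h with h | h <;> rw [h]
    · group
    · exact J.zc g)
  have mho : ∀ e ∈ W, e * e = 1 ∨ e * e = z := by
    intro e he
    by_contra hne
    have hs := S.sqV he
    obtain ⟨β, hβ, hβV, hβs⟩ : ∃ β ∈ A, β ∉ V ∧ e * e * β ≠ β * (e * e) := by
      by_contra h
      push Not at h
      exact hne (J.AV _ (hc _ (h a ha haV) (h b hb hbV)) hs)
    have h1 := ((tr β hβ hβV).2.2 _ hs).resolve_left fun h =>
      hβs (mul_inv_eq_iff_eq_mul.1 (mul_inv_eq_one.1 h)).symm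
    have he' := hnW.conj_mem e he β
    have hu : β * e * β⁻¹ * e ∈ W := mul_mem he' he
    have h2 : β * e * β⁻¹ * e * (β * e * β⁻¹ * e) = z := by
      calc β * e * β⁻¹ * e * (β * e * β⁻¹ * e) = β * e * β⁻¹ * (e * (β * e * β⁻¹)) * e := by group
        _ = β * (e * e) * β⁻¹ * (e * e)⁻¹ * (e * e * (e * e)) := by rw [S.comm _ he _ he']; simp [mul_assoc]
        _ = z := by rw [h1, S.V2 _ hs, mul_one]
    have := j2 _ (S.CC0 (S.WC hu)) (fun α _ => j3 _ hu (Or.inr h2) α) β hβ hβV (Or.inl (by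
      calc β * (β * e * β⁻¹ * e) * β⁻¹ * (β * e * β⁻¹ * e)⁻¹
          = (β * β) * e * (β * β)⁻¹ * (β * e * β⁻¹) * (β * e * β⁻¹ * e)⁻¹ := by group
        _ = 1 := by rw [J.A2 β hβ, ← S.comm _ he _ he']; group))
    exact J.z1 (h2 ▸ S.V2 _ this)
  have hC0 : centralizer (V : Set G) ≤ W := by
    by_contra hne
    obtain ⟨e, he, heW, -, hec⟩ := Kf.step S.pg W _ hne
    by_cases h : ∀ α ∈ A, α * e * α⁻¹ * e⁻¹ ∈ V
    · have hwc := j3 w hw (Or.inr rfl)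
      have hw0 := S.CC0 (S.WC hw)
      have hmul : ∀ α ∈ A, α * (e * w) * α⁻¹ * (e * w)⁻¹ = α * e * α⁻¹ * e⁻¹ * (α * w * α⁻¹ * w⁻¹) := by
        intro α _
        calc α * (e * w) * α⁻¹ * (e * w)⁻¹ = α * e * α⁻¹ * e⁻¹ * (e * (α * w * α⁻¹ * w⁻¹)) * e⁻¹ := by group
          _ = _ := by rw [← he _ (hwc α)]; group
      have hi : (zpowers z).relIndex (V ⊓ centralizer {a}) = 2 := by
        have := H2.card_mul_relIndex (show zpowers z ≤ V ⊓ centralizer {a} from zpowers_le.2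
          ⟨J.zV, mem_centralizer_singleton_iff.2 (J.zc a).symm⟩)
        rw [Nat.card_zpowers, orderOf_eq_prime (p := 2) (by rw [pow_two, zz]) J.z1, (tr a ha haV).1] at this
        omega
      have k := H9.mul_mem_of_relIndex_two hi
        ⟨h a ha, mem_centralizer_singleton_iff.2 (comm_fix (J.A2 a ha) (S.V2 _ (h a ha)))⟩
        ⟨hwc a, mem_centralizer_singleton_iff.2 (comm_fix (J.A2 a ha) (S.V2 _ (hwc a)))⟩
        (fun k => heW (S.VW (j2 e he h a ha haV (Kf.mem_zpowers_invol zz k))))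
        (fun k => J.z1 (S.V2 _ (j2 w hw0 (fun α _ => hwc α) a ha haV (Kf.mem_zpowers_invol zz k))))
      have := j2 _ (mul_mem he hw0) (fun α hα => hmul α hα ▸ mul_mem (h α hα) (hwc α)) a ha haV
        (hmul a ha ▸ Kf.mem_zpowers_invol zz k)
      exact heW (by simpa using mul_mem (S.VW this) (inv_mem hw))
    · push Not at h
      obtain ⟨α, hα, h⟩ := h
      have hαV : α ∉ V := fun k => h (by rw [he α k]; simp)
      refine h (j2 _ (S.CC0 (S.WC (hec α))) (fun β _ => j3 _ (hec α) (mho _ (hec α)) β) α hα hαV ?_)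
      rw [comm_inv (J.A2 α hα)]
      exact mho _ (inv_mem (hec α))
  have hCC : centralizer (V : Set G) = centralizer (W : Set G) := le_antisymm (hC0.trans S.WC) S.CC0
  obtain ⟨φ, hφ, hφb⟩ := flag S.pg S.V2 S.V8 J.zV J.z1 J.zc
  refine S.final3 H M hMH hM (flag_bound φ (hCC ▸ hφ) H M hM) fun hVH hsq => ?_
  rw [← hCC]
  refine (relIndex_eq_one.2 fun g hg => ?_).le.trans (by omega)
  have k1 : ∀ e ∈ H, e ∈ W → ∃ d ∈ H, d ∈ W ∧ d * d = g * e * g⁻¹ * e⁻¹ := fun e he heW =>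
    S.sq_of hsq (Mw.comm_mem hM hg he) (j3 e heW (mho e heW) g)
  by_contra hne
  obtain ⟨d, hd, hdW, hdd⟩ : ∃ d ∈ H, d ∈ W ∧ d * d ≠ 1 := by
    by_contra h
    push Not at h
    refine hne fun v hv => ?_
    obtain ⟨d, h1, h2, h3⟩ := k1 v (hVH hv) (S.VW hv)
    rw [h d h1 h2] at h3
    exact (mul_inv_eq_iff_eq_mul.1 (mul_inv_eq_one.1 h3.symm)).symm
  have hker : ∀ x, φ x = 1 ↔ x ∈ centralizer (V : Set G) := fun x => by rw [← hφ, MonoidHom.mem_ker]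
  have key : ∀ p q r : Wr.D, p.b = false → q.b = false → r.b = false → p ≠ 1 → q ≠ 1 → p * q ≠ 1 → r ≠ 1 →
      r⁻¹ * p = 1 ∨ r⁻¹ * q = 1 ∨ r⁻¹ * (p * q) = 1 := by decide +kernel
  obtain ⟨α, hα, hαV, h⟩ : ∃ α ∈ A, α ∉ V ∧ g⁻¹ * α ∈ centralizer (V : Set G) := by
    rcases key (φ a) (φ b) (φ g) (hφb a (tr a ha haV).2.2) (hφb b (tr b hb hbV).2.2) (hφb g fun v hv => by
        obtain ⟨d, -, h2, h3⟩ := k1 v (hVH hv) (S.VW hv)
        exact h3 ▸ mho d h2)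
      (fun e => haV (hA0 a ha ((hker a).1 e))) (fun e => hbV (hA0 b hb ((hker b).1 e)))
      (fun e => habV (hA0 _ (mul_mem ha hb) ((hker _).1 (by rw [map_mul, e])))) (fun e => hne ((hker g).1 e))
      with h | h | h
    · exact ⟨a, ha, haV, (hker _).1 (by rw [map_mul, map_inv, h])⟩
    · exact ⟨b, hb, hbV, (hker _).1 (by rw [map_mul, map_inv, h])⟩
    · exact ⟨_, mul_mem ha hb, habV, (hker _).1 (by rw [map_mul, map_inv, map_mul, h])⟩
  rw [hCC] at h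
  refine hdd (S.V2 _ (j2 d (S.CC0 (S.WC hdW)) (fun β _ => j3 d hdW (mho d hdW) β) α hα hαV ?_))
  obtain ⟨d', -, h2, h3⟩ := k1 d hd hdW
  have : α * d * α⁻¹ * d⁻¹ = g * d * g⁻¹ * d⁻¹ := by
    calc α * d * α⁻¹ * d⁻¹ = g * (g⁻¹ * α * d) * α⁻¹ * d⁻¹ := by group
      _ = _ := by rw [← h d hdW]; group
  rw [this, ← h3]
  exact mho d' h2

end Sw

end H2.Hd
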