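import Cfsg.Agent.H2.Hd3

/-! Harada's theorem on self-centralizing `E₈`, part 4: the case `|A ∩ V| = 4`, `|V| = 8 < |W|` (`Sw.case2`)
and the bound `Sw.bound`. -/

set_option autoImplicit false
open Subgroup

namespace H2.Hd

universe u
variable {G : Type u} [Group G] [Finite G]

/-- elements whose commutators with `W` lie in `K` -/
def tS (W K : Subgroup G) [hn : K.Normal] : Subgroup G where
  carrier := {g | ∀ w ∈ W, g * w * g⁻¹ * w⁻¹ ∈ K}
  one_mem' := fun w _ => by simp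
  mul_mem' := fun {g h} hg hh w hw => by
    convert mul_mem (hn.conj_mem _ (hh w hw) g) (hg w hw) using 1; group
  inv_mem' := fun {g} hg w hw => by
    convert hn.conj_mem _ (inv_mem (hg w hw)) g⁻¹ using 1; group

omit [Finite G] in
theorem tS_normal (W K : Subgroup G) [hW : W.Normal] [hn : K.Normal] : (tS W K).Normal :=
  ⟨fun g hg x w hw => by
    convert hn.conj_mem _ (hg _ (hW.conj_mem w hw x⁻¹)) x using 1; group⟩

namespace Sw
variable {W V : Subgroup G} (S : Sw W V)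
include S

theorem case2 {w y a : G} (hw : w ∈ W) (J : J2 V (w * w) y a) (H M : Subgroup G) (hMH : M ≤ H)
    (hM : ∀ x ∈ H, x * x ∈ M) : Nat.card H ≤ 16 * Nat.card M := by
  haveI hn := S.nV
  haveI hnW := S.nW
  set s := w * w with hs
  set C := centralizer (W : Set G) with hC
  haveI hnC : C.Normal := inferInstance
  have ss : s * s = 1 := S.V2 s J.sV
  have hwV : w ∉ V := fun e => J.s1 (S.V2 w e)
  have VC : V ≤ C := S.VW.trans S.WC
  have aC : a ∉ C := fun e => J.aV (S.memV_of e J.aa)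
  have cenX : ∀ x, x * y = y * x → x * a = a * x → x ∈ C ∨ x * a ∈ C := fun x h1 h2 =>
    (J.cen' h1 h2).imp (fun h => VC h) (fun h => VC h)
  have cenC : ∀ x ∈ C, x * a = a * x → x ∈ V := fun x hx h =>
    (J.cen' (hx y (S.VW J.yV)).symm h).resolve_right fun e => aC (by simpa using mul_mem (inv_mem hx) (VC e))
  obtain ⟨t1, v₀, hv₀, t2, t3⟩ := S.transv J.aa (J.cent_le S.V2)
  have kW : ∀ e ∈ W, a * e * a⁻¹ * e⁻¹ ∈ V := fun e he => S.delta he (by
    have he' := hnW.conj_mem e he a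
    have h1 := S.V2 _ (cenC _ (S.WC (mul_mem he' he)) (by
      calc a * e * a⁻¹ * e * a = (a * e * a⁻¹ * e) * a := rfl
        _ = (a * a) * e * (a * a)⁻¹ * (a * e * a⁻¹) * a := by rw [J.aa, ← S.comm _ he _ he']; group
        _ = _ := by group))
    have h2 : a * (e * e) * a⁻¹ * (e * e) = 1 := by
      calc a * (e * e) * a⁻¹ * (e * e) = a * e * a⁻¹ * ((a * e * a⁻¹) * e) * e := by simp [mul_assoc]
        _ = a * e * a⁻¹ * (e * (a * e * a⁻¹)) * e := by rw [← S.comm _ he _ he']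
        _ = _ := by rw [← h1]; simp [mul_assoc]
    rw [← S.V2 _ (S.sqV he)] at h2
    exact mul_inv_eq_iff_eq_mul.1 (mul_right_cancel h2))
  obtain ⟨R, r1, r2⟩ := kap W S.comm a fun x hx => hnW.conj_mem x hx a
  have r3 : Nat.card (W ⊓ centralizer {a} : Subgroup G) ≤ 4 := t1 ▸ card_le_of_le fun x hx =>
    ⟨cenC x (S.WC hx.1) (mem_centralizer_singleton_iff.1 hx.2), hx.2⟩
  have r4 : Nat.card R ≤ 4 := t1 ▸ card_le_of_le fun x hx => by
    obtain ⟨e, he, rfl⟩ := (r1 x).1 hx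
    exact ⟨kW e he, mem_centralizer_singleton_iff.2 (comm_fix J.aa (S.V2 _ (kW e he)))⟩
  have i1 := H2.card_mul_relIndex S.VW
  have i2 : V.relIndex W = 2 := by
    have := H2.relIndex_pos V W
    have h1 : V.relIndex W ≠ 1 := fun e => hwV (relIndex_eq_one.1 e hw)
    have := Nat.mul_le_mul r4 r3
    rw [S.V8] at i1
    omega
  have mho : ∀ e ∈ W, e * e = 1 ∨ e * e = s := fun e he => by
    by_cases h : e ∈ V
    · exact Or.inl (S.V2 e h)
    right
    have h1 := S.V2 _ (H9.mul_mem_of_relIndex_two i2 he hw h hwV)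
    have h2 : e * e * s = 1 := by
      calc e * e * (w * w) = e * (e * w) * w := by group
        _ = e * (w * e) * w := by rw [S.comm _ he _ hw]
        _ = _ := by rw [← h1]; simp [mul_assoc]
    rw [← ss] at h2
    exact mul_right_cancel h2
  have aT : ¬ ∀ e ∈ W, a * e * a⁻¹ * e⁻¹ = 1 ∨ a * e * a⁻¹ * e⁻¹ = s := fun h => by
    have : Nat.card R ≤ 2 := card_le_two fun x hx => by
      obtain ⟨e, he, rfl⟩ := (r1 x).1 hx
      exact h e he
    have := Nat.mul_le_mul this r3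
    rw [S.V8, i2] at i1
    omega
  obtain ⟨F, hnF, VF, FC, iF⟩ := exists_phi S.pg V C VC fun h => hwV (h (S.WC hw))
  have conjF : ∀ c g, g * c * g⁻¹ ∈ F ↔ c ∈ F := fun c g =>
    ⟨fun h => by simpa [mul_assoc] using hnF.conj_mem _ h g⁻¹, fun h => hnF.conj_mem _ h g⟩
  have mulF : ∀ c ∈ C, ∀ g, g * c * g⁻¹ * c ∈ F := fun c hc g => by
    by_cases h : c ∈ F
    · exact mul_mem (hnF.conj_mem _ h g) h
    · exact H9.mul_mem_of_relIndex_two iF (hnC.conj_mem _ hc g) hc (fun e => h ((conjF c g).1 e)) h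
  have K1 : ∀ x, x * y = y * x → a * x * a⁻¹ * x⁻¹ ∈ F → x ∈ C ∨ x * a ∈ C := by
    intro x hx hF
    let I : Set G := {c | c ∈ F ∧ a * c * a⁻¹ = c⁻¹}
    have c1 : I.ncard ≤ 4 * V.relIndex F := by
      rw [← t1, ← H2.card_map_mk']
      refine fib I ((F.map (QuotientGroup.mk' V) : Subgroup (G ⧸ V)) : Set (G ⧸ V)) (fun c => (c : G ⧸ V))
        (fun c hc => ⟨c, hc.1, rfl⟩) _ fun c₀ h₀ c h e => ?_
      have hv : c₀⁻¹ * c ∈ V := QuotientGroup.eq.1 e.symm
      refine ⟨hv, mem_centralizer_singleton_iff.2 (mul_inv_eq_iff_eq_mul.1 ?_).symm⟩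
      calc a * (c₀⁻¹ * c) * a⁻¹ = (a * c₀ * a⁻¹)⁻¹ * (a * c * a⁻¹) := by group
        _ = c₀ * (c₀⁻¹ * c)⁻¹ * c₀⁻¹ := by rw [h₀.2, h.2]; group
        _ = _ := by
          rw [inv_eq_of_mul_eq_one_right (S.V2 _ hv), ← FC h₀.1 _ (S.VW hv)]; group
    obtain ⟨c, hc, e⟩ : ∃ c ∈ C, a * x * a⁻¹ * x⁻¹ = a * c * a⁻¹ * c⁻¹ := by
      by_contra hne
      push Not at hne
      have c2 : Nat.card C ≤ 4 * (I \ {a * x * a⁻¹ * x⁻¹}).ncard := by
        rw [← t1]
        refine fib (C : Set G) (I \ {a * x * a⁻¹ * x⁻¹}) (fun c => a * c * a⁻¹ * c⁻¹)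
          (fun c hc => ⟨⟨?_, comm_inv J.aa⟩, fun e => hne _ hc e.symm⟩) _ fun c₀ h₀ c h e => ?_
        · convert mul_mem (mulF c hc a) (inv_mem (mulF c hc 1)) using 1; group
        · exact ⟨cenC _ (C.mul_mem (C.inv_mem h₀) h) (adj e), mem_centralizer_singleton_iff.2 (adj e)⟩
      have c3 : (I \ {a * x * a⁻¹ * x⁻¹}).ncard + 1 = I.ncard :=
        Set.ncard_diff_singleton_add_one (show a * x * a⁻¹ * x⁻¹ ∈ I from ⟨hF, comm_inv J.aa⟩)
      have c4 := H2.card_mul_relIndex FC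
      have c5 := H2.card_mul_relIndex VF
      rw [iF] at c4
      rw [S.V8] at c5
      omega
    refine (cenX (c⁻¹ * x) ?_ (adj e)).imp (fun h => by simpa using mul_mem hc h)
      (fun h => by simpa [mul_assoc] using mul_mem hc h)
    rw [mul_assoc, hx, ← mul_assoc, ← inv_mem hc y (S.VW J.yV), mul_assoc]
  have cy : ∀ x, a * x * a⁻¹ * x⁻¹ ∈ C → ∀ v ∈ V, a * x * a⁻¹ * x⁻¹ * v = v * (a * x * a⁻¹ * x⁻¹) :=
    fun x h v hv => (h v (S.VW hv)).symm
  have hX : X4 C a := by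
    refine x4_of fun x x' h h' x1 x2 x1' x2' => ?_
    have hxx : a * (x * x') * a⁻¹ * (x * x')⁻¹ = a * x * a⁻¹ * x⁻¹ * (x * (a * x' * a⁻¹ * x'⁻¹) * x⁻¹) := by group
    by_cases hz : a * v₀ * a⁻¹ * v₀⁻¹ = s
    · have K2 : ∀ x, x * y = y * x → a * x * a⁻¹ * x⁻¹ ∈ C → x ∈ C ∨ x * a ∈ C := by
        intro x hx h
        refine K1 x hx (by_contra fun hne => ?_)
        obtain ⟨j, e1, e2⟩ := S.ord4 h fun e => hne (VF e)
        have e3 : a * (a * x * a⁻¹ * x⁻¹) ^ j * a⁻¹ = ((a * x * a⁻¹ * x⁻¹) ^ j)⁻¹ := by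
          rw [← conj_pow, comm_inv J.aa, inv_pow]
        generalize (a * x * a⁻¹ * x⁻¹) ^ j = e at e1 e2 e3
        have e4 : a * e * a⁻¹ * e⁻¹ = a * v₀ * a⁻¹ * v₀⁻¹ := by
          rw [e3, hz, ← mul_inv_rev, (mho e e1).resolve_left e2, inv_eq_of_mul_eq_one_right ss]
        have := cenC _ (mul_mem (inv_mem (VC hv₀)) (S.WC e1)) (adj e4)
        exact e2 (S.V2 _ (by simpa using mul_mem hv₀ this))
      have k : ∀ x, a * x * a⁻¹ * x⁻¹ ∈ C → x ∉ C → x * a ∉ C → x * y * x⁻¹ = s * y := fun x h x1 x2 =>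
        (J.conj_y S.V2 (cy x h)).resolve_left fun e => (K2 x (mul_inv_eq_iff_eq_mul.1 e) h).elim x1 x2
      exact K2 _ (J.two (k x h x1 x2) (k x' h' x1' x2') ss) (hxx ▸ mul_mem h (hnC.conj_mem _ h' x))
    · have k : ∀ x, a * x * a⁻¹ * x⁻¹ ∈ C → x * y = y * x := by
        intro x h
        have e1 := conj_comm (cy x h) hv₀
        have e2 : x * (a * v₀ * a⁻¹ * v₀⁻¹) * x⁻¹ = a * v₀ * a⁻¹ * v₀⁻¹ := by
          rcases t3 _ (hn.conj_mem v₀ hv₀ x) with e | e
          · rw [e] at e1; exact absurd (by simpa using e1) t2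
          · rw [e1, e]
        have hm := kW _ (S.VW hv₀)
        rcases J.memA0 S.V2 hm (comm_fix J.aa (S.V2 _ hm)) with e | e | e | e
        · exact absurd e t2
        · exact absurd e hz
        · rw [e] at e2; exact mul_inv_eq_iff_eq_mul.1 e2
        · rw [e, ← mul_assoc, J.sc, mul_assoc, mul_assoc, mul_right_inj, ← mul_assoc] at e2
          exact mul_inv_eq_iff_eq_mul.1 e2
      refine K1 _ (by rw [mul_assoc, k x' h', ← mul_assoc, k x h, mul_assoc]) (hxx ▸ ?_)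
      exact H9.mul_mem_of_relIndex_two iF h (hnC.conj_mem _ h' x) (fun e => (K1 x (k x h) e).elim x1 x2)
        fun e => (K1 x' (k x' h') ((conjF _ x).1 e)).elim x1' x2'
  refine S.final3 H M hMH hM (g7q S.pg hX H M hM).1 fun hVH hsq => ?_
  have fin2 : ∀ (K : Subgroup G) [K.Normal], K ≤ V → H ≤ tS W K ⊓ centralizer (K : Set G) →
      a ∉ tS W K ⊓ centralizer (K : Set G) →
      (∀ x ∈ tS W K ⊓ centralizer (K : Set G), a * (x * y * x⁻¹) = x * y * x⁻¹ * a) → C.relIndex H ≤ 2 := by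
    intro K _ hKV hH haN hy
    haveI := tS_normal W K
    set N := tS W K ⊓ centralizer (K : Set G) with hN
    haveI hnN : N.Normal := inferInstance
    have hCN : C ≤ N := fun c hc => ⟨fun e he => by rw [← hc e he]; simp, fun k hk => hc k (S.VW (hKV hk))⟩
    have hN2 : ∀ x ∈ N, x * x ∈ C := fun x hx e he => by
      have h1 := hx.1 e he
      have h2 := hx.2 _ h1
      have h3 := S.V2 _ (hKV h1)
      symm
      calc x * x * e = (x * (x * e * x⁻¹ * e⁻¹)) * e * x := by group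
        _ = (x * e * x⁻¹ * e⁻¹) * (x * e * x⁻¹ * e⁻¹) * (e * (x * x)) := by rw [← h2]; group
        _ = _ := by rw [h3, one_mul]
    by_contra hne
    obtain ⟨x, hx, g, hg, h1, h2⟩ := finq hX J.aa hCN hN2 (fun x hx => hnN.conj_mem x hx a) haN hH (by omega)
    have ht : a * x * a⁻¹ * x⁻¹ ∈ N := mul_mem (hnN.conj_mem x hx a) (inv_mem hx)
    have hty : a * x * a⁻¹ * x⁻¹ * y = y * (a * x * a⁻¹ * x⁻¹) := by
      have e := hy _ (inv_mem hx)
      calc a * x * a⁻¹ * x⁻¹ * y = a * x * a⁻¹ * (x⁻¹ * y * x⁻¹⁻¹ * a) * a⁻¹ * x⁻¹ := by group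
        _ = (a * y) * x * a⁻¹ * x⁻¹ := by rw [← e]; group
        _ = _ := by rw [J.ay]; group
    have hinv := comm_inv (x := x) J.aa
    generalize a * x * a⁻¹ * x⁻¹ = t at h1 h2 ht hty hinv
    have htt : t * t ∈ F := by
      obtain ⟨d, -, hd, e⟩ := hsq _ (hM g hg) (hN2 g (hH hg))
      have e1 : g * g ∈ F := by simpa [e] using mulF d hd 1
      convert mul_mem e1 (mulF _ h2 g⁻¹) using 1; group
    rcases K1 t hty (by rw [hinv, ← mul_inv_rev]; exact inv_mem htt) with h | h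
    · exact h1 h
    · exact haN (by simpa using mul_mem (inv_mem ht) (hCN h))
  have k1 : ∀ g ∈ H, ∀ e ∈ H, e ∈ W → ∃ d ∈ H, d ∈ W ∧ d * d = g * e * g⁻¹ * e⁻¹ := fun g hg e he heW =>
    S.sq_of hsq (Mw.comm_mem hM hg he) (S.delta heW (by
      rcases mho e heW with h | h <;> rw [h]
      · group
      · exact J.sc g))
  by_cases h : ∃ e ∈ H, e ∈ W ∧ e * e ≠ 1
  · obtain ⟨e, he, heW, hee⟩ := h
    haveI hnS : (zpowers s).Normal := H9.normal_zpowers_of_center (mem_center_iff.2 J.sc)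
    have hz : ∀ x, x = 1 ∨ x = s → x ∈ zpowers s := by
      rintro _ (rfl | rfl)
      exacts [one_mem _, mem_zpowers _]
    have k2 : ∀ g ∈ H, ∀ e ∈ H, e ∈ W → g * e * g⁻¹ * e⁻¹ ∈ zpowers s := fun g hg e he heW => by
      obtain ⟨d, -, h2, h3⟩ := k1 g hg e he heW
      exact hz _ (h3 ▸ mho d h2)
    refine fin2 (zpowers s) (zpowers_le.2 J.sV) (fun g hg => ⟨fun u hu => k2 g hg u ?_ hu, fun k hk => ?_⟩)
      (fun h => aT fun u hu => Kf.mem_zpowers_invol ss (h.1 u hu)) fun x hx => ?_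
    · by_cases huV : u ∈ V
      · exact hVH huV
      · simpa using mul_mem (hVH (H9.mul_mem_of_relIndex_two i2 hu heW huV fun k => hee (S.V2 e k))) (inv_mem he)
    · rcases Kf.mem_zpowers_invol ss hk with rfl | rfl
      · group
      · exact (J.sc g).symm
    · rcases Kf.mem_zpowers_invol ss (hx.1 y (S.VW J.yV)) with k | k
      · rw [mul_inv_eq_one.1 k, J.ay]
      · rw [eq_mul_of_mul_inv_eq k]
        exact (Commute.mul_right (J.sc a) J.ay).eq
  · push Not at h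
    have hH : H ≤ centralizer (V : Set G) := fun g hg v hv => by
      obtain ⟨d, h1, h2, h3⟩ := k1 g hg v (hVH hv) (S.VW hv)
      rw [h d h1 h2] at h3
      exact (mul_inv_eq_iff_eq_mul.1 (mul_inv_eq_one.1 h3.symm)).symm
    refine fin2 V le_rfl (fun g hg => ⟨fun u hu => S.delta hu (hH hg _ (S.sqV hu)).symm, hH hg⟩)
      (fun h => t2 (by rw [← h.2 v₀ hv₀]; group)) fun x hx => ?_
    rw [← hx.2 y J.yV, mul_inv_cancel_right, J.ay]

theorem bound {A : Subgroup G} (A2 : ∀ x ∈ A, x * x = 1) (A8 : Nat.card A = 8)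
    (hC : centralizer (A : Set G) = A) (H M : Subgroup G) (hMH : M ≤ H) (hM : ∀ x ∈ H, x * x ∈ M) :
    Nat.card H ≤ 16 * Nat.card M := by
  by_cases h : ∀ w ∈ W, w * w = 1
  · exact S.caseV h H M hMH hM
  obtain ⟨w, hw, h1, h2⟩ := S.exists_s h
  rcases trich A2 A8 hC S.V2 (S.sqV hw) h1 h2 with e | ⟨y, a, J⟩ | J
  · exact absurd (A2 w (by rw [← hC, ← e]; exact S.CC0 (S.WC hw))) h1
  · exact S.case2 hw J H M hMH hM
  · exact S.case1 hw J H M hMH hM

end Sw

theorem bound16 (hG : IsPGroup 2 G) {A V : Subgroup G} (A2 : ∀ x ∈ A, x * x = 1) (A8 : Nat.card A = 8)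
    (hC : centralizer (A : Set G) = A) [V.Normal] (V2 : ∀ x ∈ V, x * x = 1) (h16 : 16 ≤ Nat.card V)
    (H M : Subgroup G) (hM : ∀ x ∈ H, x * x ∈ M) : Nat.card H ≤ 16 * Nat.card M := by
  obtain ⟨s, hs, hc, ho⟩ := H9.exists_central_involution hG V (fun e => by rw [e, card_bot] at h16; omega)
  rcases trich A2 A8 hC V2 hs (fun e => by rw [e, orderOf_one] at ho; omega) (mem_center_iff.1 hc) with
    e | ⟨y, a, J⟩ | J
  · rw [e] at h16; omega
  · exact J.rank4 hG V2 h16 H M hM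
  · exact J.rank4 hG V2 h16 H M hM

end H2.Hd
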