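import Mathlib
import Cfsg.Agent.H8.Cd1

/-! S4591: the inclusion `K ≤ N P'`, given the coprime step. -/
set_option autoImplicit false
namespace H2.KpY
open Subgroup Cfsg H5 H6 H8
open scoped commutatorElement

theorem y3 {G : Type*} [Group G] [Finite G] (p : ℕ) [hp : Fact p.Prime] (P : Sylow p G) (K : Subgroup G)
    (hK : ∀ χ, IsIrrCharacter G χ → ¬ p ∣ charDegree χ → K ≤ charKer χ) {x : G} (hxK : x ∈ K)
    (hxP : x ∈ (P : Subgroup G)) : x ∈ ⁅(P : Subgroup G), (P : Subgroup G)⁆ := by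
  classical
  haveI := Fintype.ofFinite G
  by_contra hx
  have h1 : Abelianization.of (⟨x, hxP⟩ : (P : Subgroup G)) ≠ 1 := by
    intro h
    have h2 : (⟨x, hxP⟩ : (P : Subgroup G)) ∈ _root_.commutator (P : Subgroup G) := by
      rw [← Abelianization.ker_of]; exact h
    apply hx
    rw [← map_subtype_commutator]
    exact mem_map_of_mem _ h2
  haveI : Finite (Abelianization (P : Subgroup G)) := Finite.of_surjective _ (QuotientGroup.mk_surjective (s := _root_.commutator (P : Subgroup G)))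
  obtain ⟨φ, hφ⟩ := CommGroup.exists_apply_ne_one_of_hasEnoughRootsOfUnity (Abelianization (P : Subgroup G)) ℂ h1
  have h5 := isIrrCharacter_hom (φ.comp Abelianization.of)
  obtain ⟨χ, h7, h8⟩ := exists_constituent_not_dvd (isCharacter_ind _ h5.isCharacter) (n := p) (by
    rw [deg_ind h5.isCharacter, charDegree_of_eq (n := 1) (by simp), mul_one]
    exact P.not_dvd_index)
  rw [inner_ind_left _ _ χ.2.isClassFunction, Ne, classInner_eq_zero_comm] at h7
  have := apply_eq_of_mem_charKer (ker_le_of_constituent χ.2.isCharacter h5 h7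
    (x := ⟨x, hxP⟩) (hK _ χ.2 h8 hxK))
  apply hφ
  apply Units.ext
  simpa using this

theorem y2 {G : Type*} [Group G] [Finite G] (p : ℕ) [hp : Fact p.Prime] (P : Sylow p G) (V : Subgroup G)
    (hV : ¬ p ∣ Nat.card V) (h : V ⊓ centralizer ((P : Subgroup G) : Set G) ≠ ⊥) :
    ∃ χ, IsIrrCharacter G χ ∧ ¬ V ≤ charKer χ ∧ ¬ p ∣ charDegree χ := by
  classical
  haveI := Fintype.ofFinite G
  obtain ⟨⟨d, hdV, hdC⟩, hd1⟩ := (Subgroup.ne_bot_iff_exists_ne_one).1 h
  have hd1' : d ≠ 1 := fun e => hd1 (Subtype.ext e)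
  have hdP : d ∉ (P : Subgroup G) := by
    intro hd
    obtain ⟨k, hk⟩ := P.isPGroup' ⟨d, hd⟩
    have hk' : d ^ p ^ k = 1 := by simpa using congrArg Subtype.val hk
    have c : (p ^ k).Coprime (Nat.card V) := ((Nat.Prime.coprime_iff_not_dvd hp.out).2 hV).pow_left _
    have o := Nat.dvd_gcd (orderOf_dvd_of_pow_eq_one hk') (Subgroup.orderOf_dvd_natCard V hdV)
    rw [c] at o
    exact hd1' (orderOf_eq_one_iff.1 (Nat.dvd_one.1 o))
  set S : Subgroup G := normalizer ((P : Subgroup G) : Set G) with hS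
  have hdS : d ∈ S := centralizer_le_normalizer _ hdC
  have hPS : (P : Subgroup G) ≤ S := le_normalizer
  have hq : (QuotientGroup.mk' ((P : Subgroup G).subgroupOf S) ⟨d, hdS⟩) ≠ 1 := by
    intro e
    have e2 : (⟨d, hdS⟩ : S) ∈ (P : Subgroup G).subgroupOf S := (QuotientGroup.eq_one_iff (⟨d, hdS⟩ : S)).1 e
    exact hdP e2
  obtain ⟨δ, hδ, hδk⟩ := exists_irr_not_mem_charKer hq
  have h5 := hδ.comp_surjective (QuotientGroup.mk' ((P : Subgroup G).subgroupOf S)) (QuotientGroup.mk'_surjective _)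
  have hdeg : ¬ p ∣ charDegree δ := fun e => P.not_dvd_index
    ((e.trans hδ.charDegree_dvd_card).trans (relIndex_dvd_index_of_le hPS))
  obtain ⟨χ, h7, h8⟩ := exists_constituent_not_dvd (isCharacter_ind _ h5.isCharacter) (n := p) (by
    rw [deg_ind h5.isCharacter, charDegree_congr (ψ := δ) (by simp)]
    exact Nat.Prime.not_dvd_mul hp.out (fun e => P.not_dvd_index
      (e.trans (Subgroup.index_dvd_of_le hPS))) hdeg)
  refine ⟨_, χ.2, fun hk => hδk ?_, h8⟩
  rw [inner_ind_left _ _ χ.2.isClassFunction, Ne, classInner_eq_zero_comm] at h7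
  have := apply_eq_of_mem_charKer (ker_le_of_constituent χ.2.isCharacter h5 h7
    (x := ⟨d, hdS⟩) (hk hdV))
  rw [hδ.mem_charKer]
  simpa using this

theorem pY {G : Type*} [Group G] [Finite G] (p : ℕ) [hp : Fact p.Prime] (P : Sylow p G) (N : Subgroup G)
    (hmax : ∀ L : Subgroup G, L.Normal → L ⊓ centralizer ((P : Subgroup G) : Set G) = ⊥ → L ≤ N)
    (K : Subgroup G) [hKn : K.Normal]
    (hK : ∀ χ, IsIrrCharacter G χ → ¬ p ∣ charDegree χ → K ≤ charKer χ) :
    K ≤ N ⊔ ⁅(P : Subgroup G), (P : Subgroup G)⁆ := by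
  classical
  set V : Subgroup G := (pResidual p K).map K.subtype with hVdef
  haveI hVn : V.Normal := ConjAct.normal_of_characteristic_of_normal
  have hVK : V ≤ K := map_subtype_le _
  have hVres : pResidual p V = ⊤ := by
    have e := (pResidual p K).equivMapOfInjective K.subtype K.subtype_injective
    have := H3.map_pResidual_equiv (p := p) e
    rw [← this, H3.pResidual_pResidual, map_top_of_surjective _ e.surjective]
  have hVp : ¬ p ∣ Nat.card V := by
    intro hd
    obtain ⟨χ, h1, h2, h3⟩ := berkovich hVres hd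
    exact h2 (hVK.trans (hK χ h1 h3))
  have hVN : V ≤ N := by
    refine hmax V hVn ?_
    by_contra h
    obtain ⟨χ, h1, h2, h3⟩ := y2 p P V hVp h
    exact h2 (hVK.trans (hK χ h1 h3))
  intro k hk
  have hidx : ¬ p ∣ ((P : Subgroup G).subgroupOf K).index := by
    intro h
    apply P.not_dvd_index
    refine h.trans ⟨(K ⊔ (P : Subgroup G)).index, ?_⟩
    have a1 := relIndex_mul_index (inf_le_left : K ⊓ (P : Subgroup G) ≤ K)
    have a2 := relIndex_mul_index (inf_le_right : K ⊓ (P : Subgroup G) ≤ P)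
    have a3 := relIndex_mul_index (le_sup_left : K ≤ K ⊔ (P : Subgroup G))
    rw [inf_relIndex_left] at a1
    rw [inf_relIndex_right] at a2
    rw [relIndex_sup_left] at a3
    have a4 : K.relIndex (P : Subgroup G) ≠ 0 := (K.subgroupOf (P : Subgroup G)).index_ne_zero_of_finite
    apply mul_left_cancel₀ a4
    change _ = _ * ((P : Subgroup G).relIndex K * _)
    rw [a2, ← a1, ← a3]; ring
  obtain ⟨n, hn, y, hy, e⟩ := H3.exists_pResidual_mul (p := p) hidx ⟨k, hk⟩
  have e' : (n : G) * (y : G) = k := congrArg Subtype.val e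
  rw [← e']
  exact mul_mem (mem_sup_left (hVN (mem_map_of_mem _ hn))) (mem_sup_right (y3 p P K hK y.2 hy))

end H2.KpY
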