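import Mathlib

/-! Linked symmetric designs: an automorphism of odd order of a doubly transitive group whose twisted
point stabiliser has an orbit of length prime to the degree is induced by a permutation (`link_odd`). -/

set_option autoImplicit false

namespace H2

open Matrix Finset

variable {G Ω : Type*} [Group G] [Fintype Ω] [DecidableEq Ω]

/-- `X` is invariant under the pair of actions `φ`, `ψ`. -/
def LInv (φ ψ : G →* Equiv.Perm Ω) {T : Type*} (X : Ω → Ω → T) : Prop :=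
  ∀ g i j, X (φ g i) (ψ g j) = X i j

/-- double transitivity of a permutation representation -/
def LTwo (φ : G →* Equiv.Perm Ω) : Prop :=
  ∀ a b c d, a ≠ b → c ≠ d → ∃ g, φ g a = c ∧ φ g b = d

variable {φ ψ χ : G →* Equiv.Perm Ω}

omit [DecidableEq Ω] in
theorem LInv.mul {X Y : Matrix Ω Ω ℤ} (hX : LInv φ ψ X) (hY : LInv ψ χ Y) : LInv φ χ (X * Y) :=
  fun g i j => by
    simp only [mul_apply]
    rw [← Equiv.sum_comp (ψ g)]
    exact sum_congr rfl fun k _ => by rw [hX, hY]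

omit [Fintype Ω] [DecidableEq Ω] in
theorem LTwo.trans [Nontrivial Ω] (h : LTwo φ) (a c : Ω) : ∃ g, φ g a = c := by
  obtain ⟨b, hb⟩ := exists_ne a
  obtain ⟨d, hd⟩ := exists_ne c
  exact (h a b c d hb.symm hd.symm).imp fun _ h => h.1

theorem LInv.two [Nontrivial Ω] {X : Matrix Ω Ω ℤ} (hX : LInv φ φ X) (h : LTwo φ) :
    ∃ a b : ℤ, (∀ i, X i i = a + b) ∧ ∀ v i, (X *ᵥ v) i = a * v i + b * ∑ j, v j := by
  obtain ⟨p, q, pq⟩ := exists_pair_ne Ω
  have h1 : ∀ i j, X i j = (if i = j then X p p - X p q else 0) + X p q := fun i j => by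
    split_ifs with e
    · obtain ⟨g, rfl⟩ := h.trans p i
      rw [← e, hX, sub_add_cancel]
    · obtain ⟨g, rfl, rfl⟩ := h p q i j pq e
      rw [hX, zero_add]
  refine ⟨X p p - X p q, X p q, fun i => by rw [h1, if_pos rfl], fun v i => ?_⟩
  simp only [mulVec, dotProduct]
  rw [sum_congr rfl fun j _ => by rw [h1 i j]]
  simp [add_mul, sum_add_distrib, mul_sum]

omit [DecidableEq Ω] in
theorem LInv.sums [Nontrivial Ω] {X : Matrix Ω Ω ℤ} (hX : LInv φ ψ X) (h : LTwo φ) (h' : LTwo ψ) :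
    ∃ r, (∀ i, ∑ j, X i j = r) ∧ ∀ j, ∑ i, X i j = r := by
  obtain ⟨p⟩ : Nonempty Ω := inferInstance
  have h1 : ∀ i, ∑ j, X i j = ∑ j, X p j := fun i => by
    obtain ⟨g, rfl⟩ := h.trans p i
    rw [← Equiv.sum_comp (ψ g)]
    exact sum_congr rfl fun k _ => hX _ _ _
  have h2 : ∀ j, ∑ i, X i j = ∑ i, X i p := fun j => by
    obtain ⟨g, rfl⟩ := h'.trans p j
    rw [← Equiv.sum_comp (φ g)]
    exact sum_congr rfl fun k _ => hX _ _ _
  have h3 := sum_comm (s := univ) (t := univ) (f := X)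
  rw [sum_congr rfl fun i _ => h1 i, sum_congr rfl fun i _ => h2 i, sum_const, sum_const,
    nsmul_eq_mul, nsmul_eq_mul] at h3
  exact ⟨_, h1, fun j => (h2 j).trans (mul_left_cancel₀ (by simp) h3).symm⟩

/-- incidence matrix of a relation -/
noncomputable def lind (R : Ω → Ω → Prop) : Matrix Ω Ω ℤ :=
  open Classical in of fun i j => if R i j then 1 else 0

theorem link_design [Nontrivial Ω] {R : Ω → Ω → Prop} (hR : LInv φ ψ R) (h : LTwo φ) (h' : LTwo ψ) :
    LInv φ ψ (lind R) ∧ ∃ r l : ℤ, (∀ i, ∑ j, lind R i j = r) ∧ (∀ j, ∑ i, lind R i j = r) ∧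
      r * r = r - l + l * Fintype.card Ω ∧
      ∀ v, ∑ j, v j = 0 → lind R *ᵥ (lind R)ᵀ *ᵥ v = (r - l) • v := by
  have hX : LInv φ ψ (lind R) := fun g i j => by
    classical exact if_congr (hR g i j).to_iff rfl rfl
  obtain ⟨r, h1, h2⟩ := hX.sums h h'
  obtain ⟨a, b, h3, h4⟩ := (hX.mul (Y := (lind R)ᵀ) fun g i j => hX g j i).two h
  obtain ⟨p⟩ : Nonempty Ω := inferInstance
  obtain rfl : a = r - b := by
    rw [eq_sub_iff_add_eq, ← h3 p, ← h1 p, mul_apply]
    exact sum_congr rfl fun j _ => by simp [lind]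
  refine ⟨hX, r, b, h1, h2, ?_, fun v hv => funext fun i => by simp [h4, hv]⟩
  have := h4 1 p
  rw [← mulVec_mulVec] at this
  simpa [mulVec, dotProduct, h2, ← sum_mul, h1] using this

omit [DecidableEq Ω] in
theorem link_perm [Nontrivial Ω] {R : Ω → Ω → Prop} (hR : LInv φ ψ R) (h' : LTwo ψ)
    (h1 : ∀ i, ∃! j, R i j) : ∃ σ : Equiv.Perm Ω, ∀ g, ψ g = σ * φ g * σ⁻¹ := by
  choose f hf hu using h1
  have e : ∀ g i, ψ g (f i) = f (φ g i) := fun g i => hu _ _ ((hR g i _).mpr (hf i))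
  obtain ⟨p⟩ : Nonempty Ω := inferInstance
  refine ⟨.ofBijective f (Finite.surjective_iff_bijective.1 fun j => ?_), fun g => ?_⟩
  · obtain ⟨g, rfl⟩ := h'.trans (f p) j
    exact ⟨_, (e g p).symm⟩
  · rw [eq_mul_inv_iff_mul_eq]
    exact Equiv.ext (e g)

theorem link_sq [Nontrivial Ω] {R : Ω → Ω → Prop} (hR : LInv φ ψ R) (hR' : LInv ψ χ R) (h : LTwo φ)
    (h' : LTwo ψ) (h'' : LTwo χ) (o : Ω) (hk : (Nat.card {i // R i o}).Coprime (Fintype.card Ω)) :
    ∃ σ : Equiv.Perm Ω, ∀ g, χ g = σ * φ g * σ⁻¹ := by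
  classical
  obtain ⟨hA, k, l, a1, a2, a3, a4⟩ := link_design (R := fun i j => R j i) (fun g i j => hR g j i) h' h
  change ∀ i, ∑ j, lind R j i = k at a1
  change ∀ j, ∑ i, lind R j i = k at a2
  change ∀ v, _ → (lind R)ᵀ *ᵥ lind R *ᵥ v = _ at a4
  set A := lind R
  have hM : LInv φ χ (A * A) := LInv.mul (fun g i j => hA g j i) (link_design hR' h' h'').1
  have hc : IsCoprime (k - l) (Fintype.card Ω) := by
    have : k = Nat.card {i // R i o} := by
      rw [← a1 o, Nat.card_eq_fintype_card, Fintype.card_subtype]; simp [A, lind]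
    have h1 := Nat.isCoprime_iff_coprime.2 hk
    rw [← this] at h1
    have := h1.mul_left h1
    rwa [a3, IsCoprime.add_mul_right_left_iff] at this
  have n2 : (2 : ℤ) ≤ Fintype.card Ω := by exact_mod_cast Fintype.one_lt_card
  have hz : ∀ X : Matrix Ω Ω ℤ, ∀ r, (∀ j, ∑ i, X i j = r) → ∀ v, ∑ j, v j = 0 →
      ∑ j, (X *ᵥ v) j = 0 := fun X r hr v hv => by
    simp only [mulVec, dotProduct]
    rw [sum_comm]
    simp [← sum_mul, hr, ← mul_sum, hv]
  have a5 : ∀ v, ∑ j, v j = 0 → (A * A)ᵀ *ᵥ (A * A) *ᵥ v = ((k - l) * (k - l)) • v := fun v hv => by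
    rw [transpose_mul, ← mulVec_mulVec, ← mulVec_mulVec, a4 _ (hz _ _ a1 v hv), mulVec_smul,
      a4 v hv, smul_smul]
  obtain ⟨p, q, pq⟩ := exists_pair_ne Ω
  let v : Ω → ℤ := Pi.single p 1 - Pi.single q 1
  have hv : ∑ j, v j = 0 := by simp [v, sum_sub_distrib]
  have vp : v p = 1 := by simp [v, pq]
  obtain ⟨i, j, hij⟩ : ∃ i j, (A * A) i j ≠ (A * A) p p := by
    by_contra! e
    have e1 : (A * A) *ᵥ v = 0 := funext fun i => by simp [mulVec, dotProduct, e, ← mul_sum, hv]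
    have := congrFun (a5 v hv) p
    rw [e1, mulVec_zero, Pi.smul_apply, vp, smul_eq_mul, mul_one, Pi.zero_apply, eq_comm,
      mul_self_eq_zero] at this
    rw [this, isCoprime_zero_left, Int.isUnit_iff] at hc
    omega
  have hS : LInv φ χ fun i j => (A * A) i j = (A * A) p p := fun g i j => by simp only [hM g i j]
  obtain ⟨hB, r, m, b1, b2, b3, b4⟩ := link_design hS h h''
  have b0 : ∀ i, r = #{j | (A * A) i j = (A * A) p p} := fun i => by
    rw [← b1 i, ← sum_boole]; exact sum_congr rfl fun j _ => by simp only [lind, of_apply]; congr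
  set B := lind fun i j => (A * A) i j = (A * A) p p
  obtain ⟨a, b, -, h4⟩ := (hB.mul (Y := (A * A)ᵀ) fun g i j => hM g j i).two h
  have h5 : ∀ i j, (B * (A * A)ᵀ) i j = (if i = j then a else 0) + b := fun i j => by
    simpa [Pi.single_apply] using h4 (Pi.single j 1) i
  have h6 : (B * (A * A)ᵀ)ᵀ = B * (A * A)ᵀ := ext fun i j => by
    simp only [transpose_apply, h5, eq_comm]
  have h7 : (B * (A * A)ᵀ) *ᵥ v = a • v := funext fun i => by rw [h4, hv]; simp
  have h8 : a * a = (k - l) * (k - l) * (r - m) := by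
    have : (B * (A * A)ᵀ) *ᵥ (B * (A * A)ᵀ)ᵀ *ᵥ v = ((k - l) * (k - l) * (r - m)) • v := by
      rw [transpose_mul B, transpose_transpose, ← mulVec_mulVec, ← mulVec_mulVec _ (A * A),
        a5 _ (hz Bᵀ _ b1 v hv), mulVec_smul, b4 v hv, smul_smul]
    rw [h6, h7, mulVec_smul, h7, smul_smul] at this
    simpa [vp] using congrFun this p
  have h9 : r * (k * k) = a + b * Fintype.card Ω := by
    have := h4 1 p
    rw [transpose_mul, ← mulVec_mulVec, ← mulVec_mulVec] at this
    simpa [mulVec, dotProduct, a1, ← sum_mul, b1] using this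
  obtain ⟨u, rfl⟩ : k - l ∣ a := (Int.pow_dvd_pow_iff two_ne_zero).1 ⟨r - m, by rw [sq, sq, h8]⟩
  have k0 : k - l ≠ 0 := fun e => by
    rw [e, isCoprime_zero_left, Int.isUnit_iff] at hc
    omega
  have h10 : u * u = r - m := mul_left_cancel₀ (mul_ne_zero k0 k0) (by rw [← h8]; ring)
  obtain ⟨t, ht⟩ : (Fintype.card Ω : ℤ) ∣ r - u :=
    hc.symm.dvd_of_dvd_mul_left ⟨b - r * l, by rw [a3] at h9; linear_combination h9⟩
  have r1 : 1 ≤ r := by
    rw [b0 p]; exact_mod_cast card_pos.2 ⟨p, by simp⟩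
  have r2 : r < Fintype.card Ω := by
    rw [b0 i]; exact_mod_cast card_lt_univ_of_notMem (x := j) (by simpa using hij)
  have m0 : 0 ≤ m := by nlinarith
  have hr : r = 1 ∨ r = Fintype.card Ω - 1 := by
    have u1 := Int.le_self_sq u
    have u2 := Int.le_self_sq (-u)
    rw [neg_sq] at u2
    rw [sq, h10] at u1 u2
    have t0 : -1 < t := lt_of_mul_lt_mul_left (a := (Fintype.card Ω : ℤ)) (by omega) (by omega)
    have t2 : t < 2 := lt_of_mul_lt_mul_left (a := (Fintype.card Ω : ℤ)) (by omega) (by omega)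
    obtain rfl | rfl : t = 0 ∨ t = 1 := by omega
    · obtain rfl : r = u := by omega
      left; nlinarith
    · have : (r + u - m) * Fintype.card Ω = 0 := by linear_combination b3 - h10 - (r + u) * ht
      have : u * (u + 1) = 0 := by
        linear_combination h10 + (mul_eq_zero.1 this).resolve_right (by omega)
      rcases mul_eq_zero.1 this with e | e <;> omega
  rcases hr with rfl | rfl
  · exact link_perm hS h'' fun i => by
      simpa only [mem_filter_univ] using card_eq_one_iff_existsUnique.1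
        (show #{j | (A * A) i j = (A * A) p p} = 1 by exact_mod_cast (b0 i).symm)
  · refine link_perm (R := fun i j => (A * A) i j ≠ (A * A) p p) (fun g i j => by
      simp only [hM g i j]) h'' fun i => ?_
    have := card_filter_add_card_filter_not (s := univ) fun j => (A * A) i j = (A * A) p p
    have := b0 i
    simpa only [mem_filter_univ] using card_eq_one_iff_existsUnique.1
      (show #{j | ¬ (A * A) i j = (A * A) p p} = 1 by rw [card_univ] at *; omega)

theorem link_odd [Nontrivial Ω] (h : LTwo φ) (α : MulAut G) (hα : Odd (orderOf α)) {R : Ω → Ω → Prop}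
    (hR : LInv (φ.comp α.toMonoidHom) φ R) (o : Ω)
    (hk : (Nat.card {i // R i o}).Coprime (Fintype.card Ω)) :
    ∃ σ : Equiv.Perm Ω, ∀ g, φ (α g) = σ * φ g * σ⁻¹ := by
  have h2 : ∀ β : MulAut G, LTwo (φ.comp β.toMonoidHom) := fun β a b c d e e' => by
    obtain ⟨g, hg⟩ := h a b c d e e'
    exact ⟨β.symm g, by simpa using hg⟩
  obtain ⟨σ, hσ⟩ := link_sq (φ := φ.comp (α * α).toMonoidHom) (fun g => hR (α g)) hR (h2 _) (h2 _)
    h o hk
  have h3 : ∀ n g, φ (((α * α) ^ n) g) = σ⁻¹ ^ n * φ g * (σ⁻¹ ^ n)⁻¹ := fun n => by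
    induction n with
    | zero => simp
    | succ n ih =>
      intro g
      rw [pow_succ, MulAut.mul_apply, ih, hσ g]
      simp [pow_succ, mul_assoc]
  obtain ⟨n, hn⟩ := hα
  refine ⟨σ⁻¹ ^ (n + 1), fun g => ?_⟩
  rw [← h3, ← sq, ← pow_mul, show 2 * (n + 1) = orderOf α + 1 by omega, pow_succ,
    pow_orderOf_eq_one, one_mul]

end H2
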