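import Cfsg.Agent.H2.Kf1

/-! MacWilliams' four generator theorem, part 1: the rank bound for 2-groups whose elements of order dividing 4
are central (`rankA`), the setting `St` (a normal abelian subgroup `W` of exponent 4 containing all elements of order
dividing 4 of its centralizer), involutions in cosets of `C(W)` (`St.exists_invol`, `St.no_invol`). -/

set_option autoImplicit false
open Subgroup

namespace H2.Mw

universe u

theorem exists_pow_four {G : Type*} [Group G] (c : G) : ∀ k : ℕ, c ^ 2 ^ k = 1 → c * c ≠ 1 →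
    ∃ j : ℕ, (c ^ j) ^ 4 = 1 ∧ c ^ j * c ^ j ≠ 1 := by
  intro k
  induction k generalizing c with
  | zero => intro h h'; exact absurd (by rw [show c = 1 by simpa using h, mul_one]) h'
  | succ k ih =>
    intro h h'
    by_cases h4 : c * c * (c * c) = 1
    · exact ⟨1, by rw [pow_one, ← h4]; simp [pow_succ, mul_assoc], by rwa [pow_one]⟩
    · obtain ⟨j, h1, h2⟩ := ih (c * c) (by rw [← pow_two, ← pow_mul, ← pow_succ', h]) h4
      exact ⟨2 * j, by rwa [pow_mul, pow_two], by rwa [pow_mul, pow_two]⟩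

theorem rankA (n : ℕ) : ∀ (D : Type u) [Group D] [Finite D], Nat.card D = n → IsPGroup 2 D →
    (∀ x : D, x ^ 4 = 1 → x ∈ center D) → ∀ M : Subgroup D, (∀ x : D, x * x ∈ M) →
    M.index ≤ Nat.card {x : D // x * x = 1} := by
  induction n using Nat.strong_induction_on with
  | _ n ih =>
  intro D _ _ hn hD h4 M hM
  have h2 : ∀ x : D, x * x = 1 → x ∈ center D := fun x hx => h4 x (by
    rw [show x ^ 4 = (x * x) * (x * x) by simp [pow_succ, mul_assoc], hx, mul_one])
  let Ω : Subgroup D :=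
    { carrier := {x | x * x = 1}
      one_mem' := mul_one _
      mul_mem' := fun {a b} ha hb => by
        have := mem_center_iff.1 (h2 a ha) b
        show a * b * (a * b) = 1
        calc a * b * (a * b) = a * (b * a) * b := by group
          _ = (a * a) * (b * b) := by rw [this]; group
          _ = 1 := by rw [show a * a = 1 from ha, show b * b = 1 from hb, mul_one]
      inv_mem' := fun {a} ha => by
        show a⁻¹ * a⁻¹ = 1
        rw [← mul_inv_rev, show a * a = 1 from ha, inv_one] }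
  have hΩ : ∀ x, x ∈ Ω ↔ x * x = 1 := fun _ => Iff.rfl
  show M.index ≤ Nat.card Ω
  by_cases h1 : Ω = ⊥
  · have : M = ⊤ := by
      rw [eq_top_iff]
      intro x _
      by_contra hx
      have hx1 : x ≠ 1 := fun e => hx (e ▸ one_mem _)
      obtain ⟨z, -, -, hz⟩ := H9.exists_central_involution hD ⊤ (fun e => hx1 (by
        have : x ∈ (⊤ : Subgroup D) := mem_top x
        rw [e] at this; exact this))
      have : z ∈ Ω := by rw [hΩ, ← pow_two, ← hz, pow_orderOf_eq_one]
      rw [h1, mem_bot] at this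
      rw [this, orderOf_one] at hz; omega
    rw [this, index_top]; exact Nat.card_pos
  haveI hΩn : Ω.Normal := ⟨fun a ha g => by rwa [mem_center_iff.1 (h2 a ha) g, mul_inv_cancel_right]⟩
  have hq : ∀ q : D ⧸ Ω, q ^ 4 = 1 → q ∈ center (D ⧸ Ω) := by
    intro q hq
    obtain ⟨x, rfl⟩ := QuotientGroup.mk_surjective q
    rw [← QuotientGroup.mk_pow, QuotientGroup.eq_one_iff, hΩ] at hq
    have hx2 : x * x ∈ center D := h4 _ (by
      rw [← hq]; simp [pow_succ, mul_assoc])
    rw [mem_center_iff]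
    intro g
    obtain ⟨g, rfl⟩ := QuotientGroup.mk_surjective g
    rw [← QuotientGroup.mk_mul, ← QuotientGroup.mk_mul, QuotientGroup.eq, hΩ]
    set c := (g * x)⁻¹ * (x * g) with hc
    have hinv : x * c * x⁻¹ = c⁻¹ := by
      calc x * c * x⁻¹ = g⁻¹ * x * g * x⁻¹ := by rw [hc]; group
        _ = g⁻¹ * x⁻¹ * ((x * x) * g) * x⁻¹ := by group
        _ = g⁻¹ * x⁻¹ * (g * (x * x)) * x⁻¹ := by rw [mem_center_iff.1 hx2 g]
        _ = c⁻¹ := by rw [hc]; group
    by_contra hne
    obtain ⟨k, hk⟩ := hD c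
    obtain ⟨j, e1, e2⟩ := exists_pow_four c k hk hne
    have := mem_center_iff.1 (h4 _ e1) x
    apply e2
    have h3 : x * c ^ j * x⁻¹ = (c ^ j)⁻¹ := by rw [← conj_pow, hinv, inv_pow]
    rw [this, mul_inv_cancel_right] at h3
    exact mul_eq_one_iff_eq_inv.2 h3
  have hIH := ih _ (hn ▸ H2.card_quotient_lt h1) (D ⧸ Ω) rfl (hD.to_quotient Ω) hq
    (M.map (QuotientGroup.mk' Ω)) (fun q => by
      obtain ⟨x, rfl⟩ := QuotientGroup.mk_surjective q
      exact ⟨x * x, hM x, rfl⟩)
  have hinj : Nat.card {q : D ⧸ Ω // q * q = 1} ≤ Nat.card (M ⊓ Ω : Subgroup D) := by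
    have hsq : ∀ q : {q : D ⧸ Ω // q * q = 1}, q.1.out * q.1.out ∈ Ω := fun q => by
      rw [← QuotientGroup.eq_one_iff, QuotientGroup.mk_mul, QuotientGroup.out_eq', q.2]
    refine Nat.card_le_card_of_injective (fun q => ⟨q.1.out * q.1.out, hM _, hsq q⟩) fun q q' e => ?_
    have e' : q.1.out * q.1.out = q'.1.out * q'.1.out := congrArg Subtype.val e
    have hc : q.1.out ∈ center D := h4 _ (by
      rw [← (hΩ _).1 (hsq q)]; simp [pow_succ, mul_assoc])
    apply Subtype.ext
    rw [← QuotientGroup.out_eq' q.1, ← QuotientGroup.out_eq' q'.1, QuotientGroup.eq, hΩ]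
    have := mem_center_iff.1 (inv_mem hc) q'.1.out
    calc q.1.out⁻¹ * q'.1.out * (q.1.out⁻¹ * q'.1.out) = q.1.out⁻¹ * (q'.1.out * q.1.out⁻¹) * q'.1.out := by
          group
      _ = (q.1.out * q.1.out)⁻¹ * (q'.1.out * q'.1.out) := by rw [this]; group
      _ = 1 := by rw [e', inv_mul_cancel]
  rw [index_map, QuotientGroup.ker_mk', QuotientGroup.range_mk', index_top, mul_one] at hIH
  have e1 := H2.card_sup_mul_card_inf (N := Ω) (H := M) (by rw [normalizer_eq_top]; exact le_top)
  have e2 := (M ⊔ Ω).card_mul_index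
  have e3 := M.card_mul_index
  rw [sup_comm Ω M, inf_comm Ω M] at e1
  have p1 := H2.card_pos' M
  have p2 := H2.card_pos' (M ⊓ Ω)
  have : M.index * Nat.card (M ⊓ Ω : Subgroup D) * Nat.card M ≤
      Nat.card Ω * Nat.card (M ⊓ Ω : Subgroup D) * Nat.card M := by
    calc M.index * Nat.card (M ⊓ Ω : Subgroup D) * Nat.card M
        = (Nat.card M * M.index) * Nat.card (M ⊓ Ω : Subgroup D) := by ring
      _ = (M ⊔ Ω).index * (Nat.card (M ⊔ Ω : Subgroup D) * Nat.card (M ⊓ Ω : Subgroup D)) := by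
          rw [e3, ← e2]; ring
      _ = (M ⊔ Ω).index * (Nat.card Ω * Nat.card M) := by rw [e1]
      _ ≤ Nat.card (M ⊓ Ω : Subgroup D) * (Nat.card Ω * Nat.card M) :=
          Nat.mul_le_mul_right _ (hIH.trans hinj)
      _ = _ := by ring
  exact Nat.le_of_mul_le_mul_right (Nat.le_of_mul_le_mul_right this p1) p2

variable {G : Type u} [Group G] [Finite G]

/-- The setting: `W` normal abelian of exponent 4 with `Ω₂(C(W)) = W`, `V = Ω₁(W)`. -/
structure St (W V : Subgroup G) : Prop where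
  pg : IsPGroup 2 G
  nW : W.Normal
  comm : ∀ x ∈ W, ∀ y ∈ W, x * y = y * x
  four : ∀ x ∈ W, x ^ 4 = 1
  alp : ∀ c ∈ centralizer (W : Set G), c ^ 4 = 1 → c ∈ W
  memV : ∀ x, x ∈ V ↔ x ∈ W ∧ x * x = 1
  small : ∀ A : Subgroup G, A.Normal → IsMulCommutative A → (∀ a ∈ A, a ^ 2 = 1) → Nat.card A ≤ 4

/-- no element of order four of `W` is inverted by `g` -/
def NI (W : Subgroup G) (g : G) : Prop := ∀ w ∈ W, g * w * g⁻¹ = w⁻¹ → w * w = 1
/-- no element of order four of `W` is centralized by `g` -/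
def NC (W : Subgroup G) (g : G) : Prop := ∀ w ∈ W, g * w * g⁻¹ = w → w * w = 1

namespace St
variable {W V : Subgroup G} (S : St W V)
include S

omit [Finite G] in
theorem VW : V ≤ W := fun x hx => ((S.memV x).1 hx).1

omit [Finite G] in
theorem nV : V.Normal := ⟨fun a ha g => (S.memV _).2 ⟨S.nW.conj_mem a (S.VW ha) g, by
  calc g * a * g⁻¹ * (g * a * g⁻¹) = g * (a * a) * g⁻¹ := by group
    _ = 1 := by rw [((S.memV a).1 ha).2]; group⟩⟩

omit [Finite G] in
theorem WC : W ≤ centralizer (W : Set G) := fun x hx y hy => S.comm y hy x hx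

omit [Finite G] in
theorem sqV {w : G} (hw : w ∈ W) : w * w ∈ V :=
  (S.memV _).2 ⟨mul_mem hw hw, by rw [← S.four w hw]; simp [pow_succ, mul_assoc]⟩

omit [Finite G] in
theorem cardV : Nat.card V ≤ 4 :=
  S.small V S.nV ⟨⟨fun a b => Subtype.ext (S.comm _ (S.VW a.2) _ (S.VW b.2))⟩⟩
    fun a ha => by rw [pow_two, ((S.memV a).1 ha).2]

omit [Finite G] in
theorem memV_of {c : G} (hc : c ∈ centralizer (W : Set G)) (h : c * c = 1) : c ∈ V :=
  (S.memV c).2 ⟨S.alp c hc (by
    rw [show c ^ 4 = (c * c) * (c * c) by simp [pow_succ, mul_assoc], h, mul_one]), h⟩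

omit [Finite G] in
theorem inv_mem_V {g c : G} (hg : NI W g) (hc : c ∈ centralizer (W : Set G)) (h : g * c * g⁻¹ = c⁻¹) :
    c ∈ V := by
  refine S.memV_of hc (by_contra fun hne => ?_)
  obtain ⟨k, hk⟩ := S.pg c
  obtain ⟨j, e1, e2⟩ := exists_pow_four c k hk hne
  exact e2 (hg _ (S.alp _ (pow_mem hc j) e1) (by rw [← conj_pow, h, inv_pow]))

omit [Finite G] in
theorem cent_mem_V {g c : G} (hg : NC W g) (hc : c ∈ centralizer (W : Set G)) (h : g * c * g⁻¹ = c) :
    c ∈ V := by
  refine S.memV_of hc (by_contra fun hne => ?_)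
  obtain ⟨k, hk⟩ := S.pg c
  obtain ⟨j, e1, e2⟩ := exists_pow_four c k hk hne
  exact e2 (hg _ (S.alp _ (pow_mem hc j) e1) (by rw [← conj_pow, h]))

omit [Finite G] S in
theorem NI.mul {g c : G} (hg : NI W g) (hc : c ∈ centralizer (W : Set G)) : NI W (g * c) := fun w hw h =>
  hg w hw (by rw [← h, mul_assoc g c, ← hc w hw]; group)

omit [Finite G] S in
theorem NC.mul {g c : G} (hg : NC W g) (hc : c ∈ centralizer (W : Set G)) : NC W (g * c) := fun w hw h =>
  hg w hw (by
    conv_rhs => rw [← h, mul_assoc g c, ← hc w hw]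
    group)

theorem exists_invol {g : G} (hg : NI W g) {D Y : Subgroup G} (hD : D ≤ centralizer (W : Set G))
    (h4 : 4 * Nat.card Y ≤ Nat.card D) (hsq : ∀ d ∈ D, g * d * (g * d) ∈ Y) :
    ∃ d ∈ D, g * d * (g * d) = 1 := by
  classical
  by_contra hne
  push Not at hne
  haveI := Fintype.ofFinite G
  let s : Finset G := Finset.univ.filter (· ∈ D)
  let t : Finset G := (Finset.univ.filter (· ∈ Y)).erase 1
  have hs : s.card = Nat.card D := by
    rw [Nat.card_eq_fintype_card, Fintype.card_subtype]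
  have hY : (Finset.univ.filter (· ∈ Y)).card = Nat.card Y := by
    rw [Nat.card_eq_fintype_card, Fintype.card_subtype]
  have ht : t.card + 1 = Nat.card Y := by
    rw [← hY]; exact Finset.card_erase_add_one (by simp [Y.one_mem])
  have := Finset.card_le_mul_card_image_of_maps_to (s := s) (t := t) (f := fun d => g * d * (g * d))
    (fun d hd => by
      have hd' : d ∈ D := by simpa [s] using hd
      simp [t, hne d hd', hsq d hd']) 4 (fun y _ => by
      by_cases h0 : (s.filter fun d => g * d * (g * d) = y).Nonempty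
      · obtain ⟨d₀, hd₀⟩ := h0
        simp only [s, Finset.mem_filter, Finset.mem_univ, true_and] at hd₀
        refine le_trans ?_ S.cardV
        rw [Nat.card_eq_fintype_card, Fintype.card_subtype]
        refine Finset.card_le_card_of_injOn (fun d => d₀⁻¹ * d) (fun d hd => ?_) (fun a _ b _ e => by
          simpa using e)
        simp only [s, Finset.coe_filter, Finset.mem_filter, Finset.mem_univ, true_and, Set.mem_ofPred_eq] at hd ⊢
        refine S.inv_mem_V (NI.mul hg (hD hd₀.1)) (hD (mul_mem (inv_mem hd₀.1) hd.1)) ?_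
        have e1 : g * d * (g * d) = g * d₀ * (g * d₀) := hd.2.trans hd₀.2.symm
        calc g * d₀ * (d₀⁻¹ * d) * (g * d₀)⁻¹
            = d⁻¹ * g⁻¹ * (g * d * (g * d)) * (g * d₀)⁻¹ := by group
          _ = d⁻¹ * g⁻¹ * (g * d₀ * (g * d₀)) * (g * d₀)⁻¹ := by rw [e1]
          _ = _ := by group
      · rw [Finset.not_nonempty_iff_eq_empty.1 h0]; simp)
  omega

theorem no_invol (h4 : Nat.card V = 4) {t : G} (ht : NI W t) (htV : t ∈ centralizer (V : Set G))
    (htC : t ∉ centralizer (W : Set G)) (htt : t * t = 1)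
    (hn : ∀ x, x * t * x⁻¹ * t⁻¹ ∈ centralizer (W : Set G)) : False := by
  have hti : t⁻¹ = t := inv_eq_of_mul_eq_one_right htt
  have hV : ∀ x, x * t * x⁻¹ * t⁻¹ ∈ V := fun x => S.inv_mem_V ht (hn x) (by
    calc t * (x * t * x⁻¹ * t⁻¹) * t⁻¹ = t * x * t * x⁻¹ * (t * t)⁻¹ := by group
      _ = t * x * t⁻¹ * x⁻¹ := by rw [htt, hti]; group
      _ = _ := by group)
  have hVc : ∀ x ∈ V, ∀ y ∈ V, x * y = y * x := fun x hx y hy => S.comm x (S.VW hx) y (S.VW hy)
  have e1 : V ⊔ zpowers t ≤ centralizer ((V ⊔ zpowers t : Subgroup G) : Set G) := by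
    refine sup_le ?_ (zpowers_le.2 ?_)
    · rw [le_centralizer_iff]
      exact sup_le (fun b hb b' hb' => hVc _ hb' _ hb) (zpowers_le.2 htV)
    · have : V ⊔ zpowers t ≤ centralizer {t} := sup_le
        (fun b hb => mem_centralizer_singleton_iff.2 (htV b hb))
        (zpowers_le.2 (mem_centralizer_singleton_iff.2 rfl))
      exact fun x hx => mem_centralizer_singleton_iff.1 (this hx)
  have hle := S.small (V ⊔ zpowers t) ⟨fun x hx g => by
      have : V ⊔ zpowers t ≤ (V ⊔ zpowers t).comap (MulAut.conj g).toMonoidHom :=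
        sup_le (fun b hb => mem_sup_left (S.nV.conj_mem b hb g)) (zpowers_le.2 (by
          have := mul_mem (mem_sup_left (T := zpowers t) (hV g)) (mem_sup_right (mem_zpowers t))
          simpa using this))
      exact this hx⟩ ⟨⟨fun a b => Subtype.ext (e1 b.2 a a.2)⟩⟩ (fun a ha => by
      haveI := S.nV
      have : a ∈ ((V ⊔ zpowers t : Subgroup G) : Set G) := ha
      rw [normal_mul] at this
      obtain ⟨v, hv, u, hu, rfl⟩ := this
      have hc : Commute v u := e1 (mem_sup_right hu) v (mem_sup_left hv)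
      rw [hc.mul_pow, pow_two, ((S.memV v).1 hv).2, one_mul, pow_two]
      rcases H2.Kf.mem_zpowers_invol htt hu with rfl | rfl
      · exact mul_one _
      · exact htt)
  have : V = V ⊔ zpowers t := eq_of_le_of_card_ge le_sup_left (h4 ▸ hle)
  exact htC (S.WC (S.VW (this ▸ mem_sup_right (mem_zpowers t))))

omit [Finite G] in
theorem delta {g w : G} (hg : g ∈ centralizer (V : Set G)) (hw : w ∈ W) : g * w * g⁻¹ * w⁻¹ ∈ V := by
  have h1 := S.nW.conj_mem w hw g
  refine (S.memV _).2 ⟨mul_mem h1 (inv_mem hw), ?_⟩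
  calc g * w * g⁻¹ * w⁻¹ * (g * w * g⁻¹ * w⁻¹) = g * w * g⁻¹ * (w⁻¹ * (g * w * g⁻¹)) * w⁻¹ := by group
    _ = g * w * g⁻¹ * ((g * w * g⁻¹) * w⁻¹) * w⁻¹ := by rw [S.comm _ (inv_mem hw) _ h1]
    _ = g * (w * w) * g⁻¹ * (w * w)⁻¹ := by group
    _ = 1 := by rw [← hg _ (S.sqV hw)]; group

theorem card_D (H M : Subgroup G) (hM : ∀ x ∈ H, x * x ∈ M) :
    Nat.card (H ⊓ centralizer (W : Set G) : Subgroup G) ≤
      Nat.card V * Nat.card (M ⊓ (H ⊓ centralizer (W : Set G)) : Subgroup G) := by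
  set D := H ⊓ centralizer (W : Set G)
  have h1 := rankA _ D rfl (S.pg.to_subgroup D) (fun x hx => mem_center_iff.2 fun y => Subtype.ext
    (y.2.2 _ (S.alp _ x.2.2 (congrArg Subtype.val hx))).symm) (M.subgroupOf D) (fun x => hM x x.2.1)
  have h2 : Nat.card {x : D // x * x = 1} ≤ Nat.card V :=
    Nat.card_le_card_of_injective (fun x => ⟨x.1.1, S.memV_of x.1.2.2 (congrArg Subtype.val x.2)⟩)
      fun a b e => Subtype.ext (Subtype.ext (congrArg (fun v : V => (v : G)) e))
  rw [← H2.card_inf_mul_relIndex M D, mul_comm]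
  exact Nat.mul_le_mul_right _ (h1.trans h2)

end St

end H2.Mw
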