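import Cfsg.Agent.H2.Mw1

/-! MacWilliams' four generator theorem, part 2: the four-group `K`, combinatorics in `K × K ≅ End K`,
and the counting lemmas `St.count`, `St.half`, `St.small_case`. -/

set_option autoImplicit false
open Subgroup

namespace H2.Mw

/-- A concrete Klein four-group. -/
structure K where
  i : Bool
  j : Bool

instance instDecEqK : DecidableEq K := fun x y =>
  decidable_of_iff (x.i = y.i ∧ x.j = y.j) (by cases x; cases y; simp)
instance instDecForallK (p : K → Prop) [DecidablePred p] : Decidable (∀ x, p x) :=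
  decidable_of_iff (∀ a b : Bool, p ⟨a, b⟩) ⟨fun h x => h x.1 x.2, fun h a b => h ⟨a, b⟩⟩
/-- coordinates -/
def eK : K ≃ Bool × Bool where
  toFun x := (x.i, x.j)
  invFun x := ⟨x.1, x.2⟩
  left_inv _ := rfl
  right_inv _ := rfl
instance instFintypeK : Fintype K := Fintype.ofEquiv _ eK.symm
instance instMulK : Mul K := ⟨fun x y => ⟨xor x.i y.i, xor x.j y.j⟩⟩
instance instOneK : One K := ⟨⟨false, false⟩⟩
instance instInvK : Inv K := ⟨fun x => x⟩
instance instGroupK : Group K :=
  Group.ofLeftAxioms (by decide +kernel) (by decide +kernel) (by decide +kernel)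
instance instCommGroupK : CommGroup K := { instGroupK with mul_comm := by decide +kernel }

theorem card_K : Nat.card K = 4 := by rw [Nat.card_congr eK]; simp

/-- basis -/
def e1 : K := ⟨true, false⟩
/-- basis -/
def e2 : K := ⟨false, true⟩
/-- the endomorphism with values `x.1`, `x.2` on the basis -/
def app (x : K × K) (k : K) : K := (cond k.i x.1 1) * (cond k.j x.2 1)
/-- the transvection -/
def tau (k : K) : K := ⟨xor k.i k.j, k.j⟩
/-- conjugation by the transvection -/
def th (x : K × K) : K × K := (tau x.1, tau (x.1 * x.2))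
/-- the nilpotent element commuting with the transvection -/
def nn : K × K := (1, e1)
/-- an element of order three -/
def om : K × K := (e2, e1 * e2)
/-- `1 + x` is invertible and `x ≠ 0` -/
def Good (x : K × K) : Prop := x ≠ 1 ∧ ∀ k, app x k = k → k = 1

theorem index_le (L : Subgroup (K × K)) (h : 4 < Nat.card L) : L = ⊤ ∨ L.index = 2 := by
  have h1 := L.card_mul_index
  rw [Nat.card_prod, card_K] at h1
  have h2 : L.index < 4 := by nlinarith
  have h3 : L.index ≠ 0 := by rintro e; rw [e] at h1; omega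
  have h4 : L.index ≠ 3 := by rintro e; rw [e] at h1; omega
  by_cases h5 : L.index = 1
  · exact Or.inl (index_eq_one.1 h5)
  · right; omega

theorem card_le_eight (L : Subgroup (K × K)) (h : L ≠ ⊤) : Nat.card L ≤ 8 := by
  have h1 := L.card_mul_index
  rw [Nat.card_prod, card_K] at h1
  have h3 : L.index ≠ 0 := by rintro e; rw [e] at h1; omega
  have h5 : L.index ≠ 1 := fun e => h (index_eq_one.1 e)
  have : 2 ≤ L.index := by omega
  nlinarith

theorem good_nn : Good nn := by unfold Good; decide +kernel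
theorem good_om : Good om := by unfold Good; decide +kernel

theorem exists_good (L : Subgroup (K × K)) (h : 4 < Nat.card L) : ∃ x ∈ L, Good x := by
  rcases index_le L h with rfl | h2
  · exact ⟨nn, mem_top _, good_nn⟩
  by_contra hne
  push Not at hne
  have a1 : nn ∉ L := fun e => hne _ e good_nn
  have a2 : ((e2, 1) : K × K) ∉ L := fun e => hne _ e (by unfold Good; decide +kernel)
  have a3 : ((e1 * e2, e1 * e2) : K × K) ∉ L := fun e => hne _ e (by unfold Good; decide +kernel)
  have a4 : om ∉ L := fun e => hne _ e good_om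
  have a5 : ((e1 * e2, e1) : K × K) ∉ L := fun e => hne _ e (by unfold Good; decide +kernel)
  have b1 := (mul_mem_iff_of_index_two h2).2 (iff_of_false a1 a2)
  have b2 := (mul_mem_iff_of_index_two h2).2 (iff_of_false a4 a5)
  exact a3 (by convert mul_mem b1 b2 using 1; decide +kernel)

theorem nn_mem (L : Subgroup (K × K)) (h : 4 < Nat.card L) (hi : ∀ x ∈ L, th x ∈ L) : nn ∈ L := by
  rcases index_le L h with rfl | h2
  · exact mem_top _
  have e : th (th (e1, 1)) = (e1, 1) := by decide +kernel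
  have := (mul_mem_iff_of_index_two h2 (a := (e1, 1)) (b := th (e1, 1))).2
    ⟨hi _, fun h => e ▸ hi _ h⟩
  convert this using 1; decide +kernel

theorem card_le_of (L : Subgroup (K × K)) (p : K × K → Prop) [DecidablePred p] (h : ∀ x ∈ L, p x) :
    Nat.card L ≤ (Finset.univ.filter p).card := by
  rw [← Fintype.card_subtype, ← Nat.card_eq_fintype_card]
  exact Nat.card_le_card_of_injective (fun x => ⟨x.1, h x.1 x.2⟩)
    fun a b e => Subtype.ext (congrArg (fun v : {x // p x} => v.1) e)

theorem fixed_four (L : Subgroup (K × K)) (h : ∀ x ∈ L, th x = x) : Nat.card L ≤ 4 :=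
  (card_le_of L _ h).trans (by decide +kernel)

theorem fixed_two (L : Subgroup (K × K)) (h : ∀ x ∈ L, th x = x) (hn : nn ∉ L) : Nat.card L ≤ 2 := by
  by_cases h1 : ((e1, e2) : K × K) ∈ L
  · refine (card_le_of L (fun x => th x = x ∧ x ≠ nn ∧ x ≠ (e1, e1 * e2)) fun x hx =>
      ⟨h x hx, fun e => hn (e ▸ hx), fun e => hn ?_⟩).trans (by decide +kernel)
    rw [e] at hx
    convert mul_mem hx h1 using 1; decide +kernel
  · exact (card_le_of L (fun x => th x = x ∧ x ≠ nn ∧ x ≠ (e1, e2)) fun x hx =>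
      ⟨h x hx, fun e => hn (e ▸ hx), fun e => h1 (e ▸ hx)⟩).trans (by decide +kernel)

universe u
variable {G : Type u} [Group G]

theorem pow_xor {z : G} (hz : z * z = 1) (i j : Bool) :
    z ^ (xor i j).toNat = z ^ i.toNat * z ^ j.toNat := by
  cases i <;> cases j <;> simp [hz]

/-- the embedding of `K` -/
def iota {z₁ z₂ : G} (h1 : z₁ * z₁ = 1) (h2 : z₂ * z₂ = 1) (hc : Commute z₁ z₂) : K →* G where
  toFun k := z₁ ^ k.i.toNat * z₂ ^ k.j.toNat
  map_one' := by show z₁ ^ 0 * z₂ ^ 0 = 1; simp
  map_mul' x y := by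
    show z₁ ^ (xor x.i y.i).toNat * z₂ ^ (xor x.j y.j).toNat = _
    rw [pow_xor h1, pow_xor h2, (hc.pow_pow _ _).mul_mul_mul_comm]

theorem comm_mem {H M : Subgroup G} (hM : ∀ x ∈ H, x * x ∈ M) {a b : G} (ha : a ∈ H) (hb : b ∈ H) :
    a * b * a⁻¹ * b⁻¹ ∈ M := by
  have := mul_mem (mul_mem (hM a ha) (hM _ (mul_mem (inv_mem ha) hb))) (inv_mem (hM b hb))
  convert this using 1; group

variable [Finite G]

namespace St
variable {W V : Subgroup G} (S : St W V)
include S

omit [Finite G] in
theorem CC0 : centralizer (W : Set G) ≤ centralizer (V : Set G) := centralizer_le S.VW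

theorem count {E : Type*} [Group E] (F : centralizer (V : Set G) →* E)
    (hk : F.ker = (centralizer (W : Set G)).subgroupOf (centralizer (V : Set G))) (X : Subgroup G) :
    Nat.card (X ⊓ centralizer (V : Set G) : Subgroup G) =
      Nat.card ((X.subgroupOf (centralizer (V : Set G))).map F) *
        Nat.card (X ⊓ centralizer (W : Set G) : Subgroup G) := by
  rw [← H2.card_subgroupOf', ← H2.card_map_mul_card_inf_ker F, hk, ← H2.card_subgroupOf
    (inf_le_right.trans S.CC0 : X ⊓ centralizer (W : Set G) ≤ _), inf_comm]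
  rfl

/-- a basis of `V` adapted to the action of `G` -/
theorem basis (h : 2 < Nat.card V) : ∃ ι : K →* G, Function.Injective ι ∧ ι.range = V ∧
    ∀ g, g ∉ centralizer (V : Set G) → ∀ k, g * ι k * g⁻¹ = ι (tau k) := by
  haveI := S.nV
  obtain ⟨z₁, h1, hc, ho⟩ := H9.exists_central_involution S.pg V (fun e => by
    rw [e, card_bot] at h; omega)
  have h11 : z₁ * z₁ = 1 := ((S.memV _).1 h1).2
  have hz1 : z₁ ≠ 1 := fun e => by rw [e, orderOf_one] at ho; omega
  obtain ⟨z₂, h2, h21⟩ : ∃ z₂ ∈ V, z₂ ∉ zpowers z₁ := by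
    by_contra hne
    push Not at hne
    have := card_le_of_le (show V ≤ zpowers z₁ from hne)
    rw [Nat.card_zpowers, ho] at this; omega
  have h22 : z₂ * z₂ = 1 := ((S.memV _).1 h2).2
  have hcc : ∀ g, g * z₁ = z₁ * g := mem_center_iff.1 hc
  let ι := iota h11 h22 (hcc z₂).symm
  have i1 : ι e1 = z₁ := by show z₁ ^ 1 * z₂ ^ 0 = z₁; simp
  have i2 : ι e2 = z₂ := by show z₁ ^ 0 * z₂ ^ 1 = z₂; simp
  have hK : ∀ k : K, k = 1 ∨ k = e1 ∨ k = e2 ∨ k = e1 * e2 := by decide +kernel
  have hinj : Function.Injective ι := by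
    rw [injective_iff_map_eq_one]
    intro k hk
    rcases hK k with rfl | rfl | rfl | rfl
    · rfl
    · exact absurd (i1.symm.trans hk) hz1
    · rw [i2] at hk; exact absurd (hk ▸ one_mem _) h21
    · rw [map_mul, i1, i2] at hk
      exact absurd (eq_inv_of_mul_eq_one_right hk ▸ inv_mem (mem_zpowers _)) h21
  have hr : ι.range = V := eq_of_le_of_card_ge (by
      rintro _ ⟨k, rfl⟩
      exact mul_mem (pow_mem h1 _) (pow_mem h2 _)) (by
      rw [← Nat.card_congr (MonoidHom.ofInjective hinj).toEquiv, card_K]; exact S.cardV)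
  refine ⟨ι, hinj, hr, fun g hg => ?_⟩
  have c1 : g * z₁ * g⁻¹ = z₁ := by rw [hcc]; group
  have c2 : g * z₂ * g⁻¹ = z₁ * z₂ := by
    obtain ⟨k, hk⟩ : g * z₂ * g⁻¹ ∈ ι.range := hr ▸ S.nV.conj_mem _ h2 g
    rcases hK k with rfl | rfl | rfl | rfl
    · rw [map_one] at hk
      exact absurd ((show z₂ = 1 by simpa using hk.symm) ▸ one_mem _) h21
    · rw [i1, ← c1] at hk
      exact absurd ((show z₁ = z₂ by simpa using hk) ▸ mem_zpowers _) h21
    · rw [i2] at hk
      refine absurd (fun v hv => ?_) hg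
      have hv' : v ∈ ι.range := hr ▸ hv
      obtain ⟨k, rfl⟩ := hv'
      exact (Commute.mul_right (Commute.pow_right (hcc g) _)
        (Commute.pow_right (mul_inv_eq_iff_eq_mul.1 hk.symm) _)).symm.eq
    · rw [← hk, map_mul, i1, i2]
  intro k
  rcases hK k with rfl | rfl | rfl | rfl
  · rw [show tau 1 = 1 by decide +kernel]; simp
  · rw [show tau e1 = e1 by decide +kernel, i1, c1]
  · rw [show tau e2 = e1 * e2 by decide +kernel, map_mul, i1, i2, c2]
  · rw [show tau (e1 * e2) = e2 by decide +kernel, map_mul, i1, i2]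
    calc g * (z₁ * z₂) * g⁻¹ = (g * z₁ * g⁻¹) * (g * z₂ * g⁻¹) := by group
      _ = _ := by rw [c1, c2, ← mul_assoc, h11, one_mul]

theorem central_of_le (h : Nat.card V ≤ 2) (g : G) : g ∈ centralizer (V : Set G) := by
  intro v hv
  by_cases h1 : v = 1
  · rw [h1, mul_one, one_mul]
  by_contra hne
  have h2 := S.nV.conj_mem v hv g
  haveI := Fintype.ofFinite V
  have h3 : 2 < Fintype.card V := Fintype.two_lt_card_iff.2 ⟨1, ⟨v, hv⟩, ⟨_, h2⟩,
    fun e => h1 (congrArg Subtype.val e).symm,
    fun e => h1 (by simpa using (congrArg Subtype.val e).symm),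
    fun e => hne (mul_inv_eq_iff_eq_mul.1 (congrArg Subtype.val e).symm).symm⟩
  rw [← Nat.card_eq_fintype_card] at h3; omega

theorem half (H : Subgroup G) : Nat.card H ≤ 2 * Nat.card (H ⊓ centralizer (V : Set G) : Subgroup G) := by
  by_cases hH : H ≤ centralizer (V : Set G)
  · rw [inf_eq_left.2 hH]; omega
  obtain ⟨h, hh, hhC⟩ := SetLike.not_le_iff_exists.1 hH
  obtain ⟨ι, hi, hr, hτ⟩ := S.basis (by_contra fun e => hhC (S.central_of_le (by omega) h))
  have hm : ∀ a b, a ∉ centralizer (V : Set G) → b ∉ centralizer (V : Set G) →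
      a * b ∈ centralizer (V : Set G) := fun a b ha hb v hv => by
    have hv' : v ∈ ι.range := hr ▸ hv
    obtain ⟨k, rfl⟩ := hv'
    have : ∀ k, tau (tau k) = k := by decide +kernel
    calc ι k * (a * b) = ι (tau (tau k)) * (a * b) := by rw [this]
      _ = _ := by rw [← hτ a ha, ← hτ b hb]; group
  have : (centralizer (V : Set G)).relIndex H = 2 := by
    rw [relIndex, index_eq_two_iff]
    refine ⟨⟨h, hh⟩, fun b => ?_⟩
    by_cases hb : (b : G) ∈ centralizer (V : Set G)
    · refine Or.inr ⟨hb, fun e => hhC ?_⟩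
      have e' : (b : G) * h ∈ centralizer (V : Set G) := e
      simpa using mul_mem (inv_mem hb) e'
    · exact Or.inl ⟨hm _ _ hb hhC, hb⟩
  rw [← H2.card_inf_mul_relIndex (centralizer (V : Set G)) H, this, inf_comm, mul_comm]

theorem small_case {a : G} (ha : a ∈ W) (hW : ∀ w ∈ W, w ∈ V ∨ w * a⁻¹ ∈ V) (H M : Subgroup G)
    (hMH : M ≤ H) (hM : ∀ x ∈ H, x * x ∈ M) : Nat.card H ≤ 16 * Nat.card M := by
  let F : centralizer (V : Set G) →* V :=
    { toFun := fun g => ⟨g * a * (g : G)⁻¹ * a⁻¹, S.delta g.2 ha⟩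
      map_one' := Subtype.ext (by simp)
      map_mul' := fun g h => Subtype.ext (by
        have := g.2 _ (S.delta h.2 ha)
        show (g : G) * h * a * ((g : G) * h)⁻¹ * a⁻¹ = (g * a * (g : G)⁻¹ * a⁻¹) * (h * a * (h : G)⁻¹ * a⁻¹)
        rw [S.comm _ (S.VW (S.delta g.2 ha)) _ (S.VW (S.delta h.2 ha))]
        calc (g : G) * h * a * ((g : G) * h)⁻¹ * a⁻¹
            = (g * (h * a * (h : G)⁻¹ * a⁻¹)) * a * (g : G)⁻¹ * a⁻¹ := by group
          _ = _ := by rw [← this]; group) }
  have hF : ∀ g, (F g : G) = g * a * (g : G)⁻¹ * a⁻¹ := fun _ => rfl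
  have hact : ∀ (g : centralizer (V : Set G)), ∀ w ∈ W, w ∉ V → g * w * (g : G)⁻¹ * w⁻¹ = F g := by
    intro g w hw hwV
    have h1 := (hW w hw).resolve_left hwV
    have h2 := g.2 _ h1
    have h3 := S.comm _ (S.VW h1) _ (S.VW (S.delta g.2 ha))
    calc (g : G) * w * (g : G)⁻¹ * w⁻¹ = (g * (w * a⁻¹)) * a * (g : G)⁻¹ * a⁻¹ * (w * a⁻¹)⁻¹ := by group
      _ = ((w * a⁻¹) * (g * a * (g : G)⁻¹ * a⁻¹)) * (w * a⁻¹)⁻¹ := by rw [← h2]; group
      _ = _ := by rw [h3, hF]; group
  have hk : F.ker = (centralizer (W : Set G)).subgroupOf (centralizer (V : Set G)) := by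
    ext g
    rw [MonoidHom.mem_ker, mem_subgroupOf]
    constructor
    · intro h w hw
      by_cases hwV : w ∈ V
      · exact g.2 w hwV
      · have := hact g w hw hwV
        rw [h] at this
        exact (mul_inv_eq_iff_eq_mul.1 (mul_inv_eq_one.1 this)).symm
    · intro h
      apply Subtype.ext
      rw [hF, ← h a ha]; simp
  have c1 := S.count F hk H
  have c2 := S.count F hk M
  have c3 := S.card_D H M hM
  have c4 := S.cardV
  have c5 : Nat.card (M ⊓ centralizer (V : Set G) : Subgroup G) ≤ Nat.card M := card_le_of_le inf_le_left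
  rw [← inf_assoc, inf_eq_left.2 hMH] at c3
  have c6 : Nat.card ((H.subgroupOf (centralizer (V : Set G))).map F) ≤ Nat.card V := card_le_card_group _
  have c7 := H2.card_pos' ((M.subgroupOf (centralizer (V : Set G))).map F)
  have c8 := S.half H
  by_cases hH : H ≤ centralizer (V : Set G)
  · rw [inf_eq_left.2 hH] at c1
    generalize Nat.card ((H.subgroupOf (centralizer (V : Set G))).map F) = l at *
    generalize Nat.card ((M.subgroupOf (centralizer (V : Set G))).map F) = m at *
    generalize Nat.card (H ⊓ centralizer (W : Set G) : Subgroup G) = d at *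
    generalize Nat.card (M ⊓ centralizer (W : Set G) : Subgroup G) = y at *
    have : d ≤ 4 * y := c3.trans (Nat.mul_le_mul_right _ c4)
    have : y ≤ m * y := Nat.le_mul_of_pos_left _ c7
    have : l * d ≤ 4 * (4 * y) := Nat.mul_le_mul (c6.trans c4) ‹_›
    omega
  obtain ⟨h, hh, hhC⟩ := SetLike.not_le_iff_exists.1 hH
  by_cases hl : Nat.card ((H.subgroupOf (centralizer (V : Set G))).map F) ≤ 2
  · generalize Nat.card ((H.subgroupOf (centralizer (V : Set G))).map F) = l at *
    generalize Nat.card ((M.subgroupOf (centralizer (V : Set G))).map F) = m at *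
    generalize Nat.card (H ⊓ centralizer (W : Set G) : Subgroup G) = d at *
    generalize Nat.card (M ⊓ centralizer (W : Set G) : Subgroup G) = y at *
    have : d ≤ 4 * y := c3.trans (Nat.mul_le_mul_right _ c4)
    have : y ≤ m * y := Nat.le_mul_of_pos_left _ c7
    have : l * d ≤ 2 * (4 * y) := Nat.mul_le_mul hl ‹_›
    omega
  have htop : (H.subgroupOf (centralizer (V : Set G))).map F = ⊤ := by
    have e1 := ((H.subgroupOf (centralizer (V : Set G))).map F).card_mul_index
    have e2 := H2.index_pos ((H.subgroupOf (centralizer (V : Set G))).map F)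
    rw [← index_eq_one]
    by_contra hne
    have : 2 ≤ ((H.subgroupOf (centralizer (V : Set G))).map F).index := by omega
    nlinarith
  obtain ⟨v, hv, hvh⟩ : ∃ v ∈ V, v * h ≠ h * v := by
    by_contra hne
    push Not at hne
    exact hhC hne
  obtain ⟨g, hg, hgv⟩ : (⟨v, hv⟩ : V) ∈ (H.subgroupOf (centralizer (V : Set G))).map F := htop ▸ mem_top _
  have hgv' : (F g : G) = v := congrArg Subtype.val hgv
  have haV : h⁻¹ * a * h⁻¹⁻¹ ∉ V := fun e => hvh (by
    have : a ∈ V := by simpa [mul_assoc] using S.nV.conj_mem _ e h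
    rw [← hgv', hF, ← g.2 a this]; simp)
  haveI := S.nV
  have hc : h * g * h⁻¹ ∈ centralizer (V : Set G) := Subgroup.Normal.conj_mem inferInstance _ g.2 h
  have hFc : (F ⟨_, hc⟩ : G) = h * v * h⁻¹ := by
    rw [← hgv', ← hact g _ (S.nW.conj_mem a ha h⁻¹) haV, hF]; group
  have hm : 2 ≤ Nat.card ((M.subgroupOf (centralizer (V : Set G))).map F) := by
    refine (one_lt_card_iff_ne_bot _).2 fun e => hvh ?_
    have : F (⟨_, hc⟩ * g⁻¹) ∈ (M.subgroupOf (centralizer (V : Set G))).map F :=
      ⟨_, comm_mem hM hh hg, rfl⟩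
    rw [e, mem_bot, map_mul, map_inv, mul_inv_eq_one] at this
    rw [this, hgv'] at hFc
    exact (mul_inv_eq_iff_eq_mul.1 hFc.symm).symm
  generalize Nat.card ((H.subgroupOf (centralizer (V : Set G))).map F) = l at *
  generalize Nat.card ((M.subgroupOf (centralizer (V : Set G))).map F) = m at *
  generalize Nat.card (H ⊓ centralizer (W : Set G) : Subgroup G) = d at *
  generalize Nat.card (M ⊓ centralizer (W : Set G) : Subgroup G) = y at *
  have : d ≤ 4 * y := c3.trans (Nat.mul_le_mul_right _ c4)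
  have : 2 * y ≤ m * y := Nat.mul_le_mul_right _ hm
  have : l * d ≤ 4 * (4 * y) := Nat.mul_le_mul (c6.trans c4) ‹_›
  omega

end St

end H2.Mw
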