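import Cfsg.Agent.H2.Mw2

/-! MacWilliams' four generator theorem, part 3: the case `W ≅ Z₄ × Z₄` (`St.big_case`) and the bound
`St.bound`: a subgroup containing all squares of `H` has index at most 16. -/

set_option autoImplicit false
open Subgroup

namespace H2.Mw

universe u
variable {G : Type u} [Group G] [Finite G]

namespace St
variable {W V : Subgroup G} (S : St W V)
include S

theorem exists_F {ι : K →* G} (hi : Function.Injective ι) (hr : ι.range = V)
    (hsq : ∀ v ∈ V, ∃ w ∈ W, w * w = v) :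
    ∃ F : centralizer (V : Set G) →* K × K,
      (∀ (g : centralizer (V : Set G)), ∀ w ∈ W, ∀ k, w * w = ι k → g * w * (g : G)⁻¹ = ι (app (F g) k) * w) ∧
      F.ker = (centralizer (W : Set G)).subgroupOf (centralizer (V : Set G)) := by
  have hιV : ∀ k, ι k ∈ V := fun k => hr ▸ ⟨k, rfl⟩
  obtain ⟨a, ha, haa⟩ := hsq _ (hιV e1)
  obtain ⟨b, hb, hbb⟩ := hsq _ (hιV e2)
  have hex : ∀ (g : centralizer (V : Set G)), ∀ w ∈ W, ∃ k, (g : G) * w * (g : G)⁻¹ = ι k * w :=
    fun g w hw => by
      obtain ⟨k, hk⟩ : (g : G) * w * (g : G)⁻¹ * w⁻¹ ∈ ι.range := hr ▸ S.delta g.2 hw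
      exact ⟨k, by rw [hk]; group⟩
  choose! f hf using hex
  have hmul : ∀ (g h : centralizer (V : Set G)), ∀ w ∈ W, f (g * h) w = f g w * f h w := by
    intro g h w hw
    apply hi
    apply mul_right_cancel (b := w)
    rw [← hf _ w hw, mul_comm (f g w), map_mul, mul_assoc (ι _), ← hf g w hw]
    calc ((g * h : centralizer (V : Set G)) : G) * w * ((g * h : centralizer (V : Set G)) : G)⁻¹
        = g * (h * w * (h : G)⁻¹) * (g : G)⁻¹ := by simp only [coe_mul]; group
      _ = (g * ι (f h w)) * w * (g : G)⁻¹ := by rw [hf h w hw]; group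
      _ = _ := by rw [← g.2 _ (hιV _)]; group
  let F : centralizer (V : Set G) →* K × K := MonoidHom.mk' (fun g => (f g a, f g b))
    fun g h => Prod.ext (hmul g h a ha) (hmul g h b hb)
  have hK : ∀ k : K, k = 1 ∨ k = e1 ∨ k = e2 ∨ k = e1 * e2 := by decide +kernel
  have hred : ∀ (g : centralizer (V : Set G)), ∀ w ∈ W, ∀ w' ∈ W, w * w = w' * w' → ∀ k,
      g * w' * (g : G)⁻¹ = ι k * w' → g * w * (g : G)⁻¹ = ι k * w := by
    intro g w hw w' hw' e k hk
    have hv : w * w'⁻¹ ∈ V := (S.memV _).2 ⟨mul_mem hw (inv_mem hw'), by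
      calc w * w'⁻¹ * (w * w'⁻¹) = w * (w'⁻¹ * w) * w'⁻¹ := by group
        _ = (w * w) * (w' * w')⁻¹ := by rw [S.comm _ (inv_mem hw') _ hw]; group
        _ = 1 := by rw [e, mul_inv_cancel]⟩
    calc (g : G) * w * (g : G)⁻¹ = (g * (w * w'⁻¹)) * w' * (g : G)⁻¹ := by group
      _ = (w * w'⁻¹) * (g * w' * (g : G)⁻¹) := by rw [← g.2 _ hv]; group
      _ = ((w * w'⁻¹) * ι k) * w' := by rw [hk]; group
      _ = _ := by rw [S.comm _ (S.VW hv) _ (S.VW (hιV k))]; group
  have hact : ∀ (g : centralizer (V : Set G)), ∀ w ∈ W, ∀ k, w * w = ι k →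
      g * w * (g : G)⁻¹ = ι (app (F g) k) * w := by
    intro g w hw k hk
    have e0 : ∀ x : K × K, app x 1 = 1 ∧ app x e1 = x.1 ∧ app x e2 = x.2 ∧ app x (e1 * e2) = x.1 * x.2 := by
      decide +kernel
    rcases hK k with rfl | rfl | rfl | rfl
    · rw [(e0 _).1]
      exact hred g w hw 1 (one_mem _) (by rw [hk]; simp) 1 (by simp)
    · rw [(e0 _).2.1]
      exact hred g w hw a ha (hk.trans haa.symm) _ (hf g a ha)
    · rw [(e0 _).2.2.1]
      exact hred g w hw b hb (hk.trans hbb.symm) _ (hf g b hb)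
    · rw [(e0 _).2.2.2]
      refine hred g w hw (a * b) (mul_mem ha hb) ?_ _ ?_
      · rw [hk, map_mul, ← haa, ← hbb]
        calc a * a * (b * b) = a * (a * b) * b := by group
          _ = a * (b * a) * b := by rw [S.comm a ha b hb]
          _ = _ := by group
      · calc (g : G) * (a * b) * (g : G)⁻¹ = (g * a * (g : G)⁻¹) * (g * b * (g : G)⁻¹) := by group
          _ = ι (f g a) * (a * ι (f g b)) * b := by rw [hf g a ha, hf g b hb]; group
          _ = _ := by
            rw [S.comm a ha _ (S.VW (hιV _)), map_mul]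
            show _ = ι (f g a) * ι (f g b) * (a * b)
            group
  refine ⟨F, hact, ?_⟩
  ext g
  rw [MonoidHom.mem_ker, mem_subgroupOf]
  constructor
  · intro h w hw
    obtain ⟨k, hk⟩ : w * w ∈ ι.range := hr ▸ S.sqV hw
    have := hact g w hw k hk.symm
    have e0 : ∀ k, app 1 k = 1 := by decide +kernel
    rw [h, e0, map_one, one_mul] at this
    exact (mul_inv_eq_iff_eq_mul.1 this).symm
  · intro h
    have e0 : ∀ w ∈ W, f g w = 1 := fun w hw => hi (mul_right_cancel (b := w) (by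
      rw [← hf g w hw, ← h w hw]; simp))
    exact Prod.ext (e0 a ha) (e0 b hb)

omit [Finite G] in
theorem sq_mul_mem {g d : G} (hg : g ∈ centralizer (V : Set G)) (hgg : g * g ∈ V) (hd : d ∈ W) :
    g * d * (g * d) ∈ V := by
  have := mul_mem (mul_mem (S.delta hg hd) (S.sqV hd)) hgg
  convert this using 1
  calc g * d * (g * d) = g * d * g⁻¹ * ((g * g) * d) := by group
    _ = _ := by rw [S.comm _ (S.VW hgg) _ hd]; group

theorem big_case (h2 : 2 < Nat.card V) (hsq : ∀ v ∈ V, ∃ w ∈ W, w * w = v)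
    (hW : 4 * Nat.card V ≤ Nat.card W) (H M : Subgroup G)
    (hMH : M ≤ H) (hM : ∀ x ∈ H, x * x ∈ M) : Nat.card H ≤ 16 * Nat.card M := by
  haveI : Fact (Nat.Prime 2) := Nat.fact_prime_two
  obtain ⟨ι, hi, hr, hτ⟩ := S.basis h2
  have h4 : Nat.card V = 4 := by
    rw [← hr, ← Nat.card_congr (MonoidHom.ofInjective hi).toEquiv, card_K]
  obtain ⟨F, hact, hk⟩ := S.exists_F hi hr hsq
  have hιV : ∀ k, ι k ∈ V := fun k => hr ▸ ⟨k, rfl⟩
  have hker : ∀ g : centralizer (V : Set G), F g = 1 ↔ (g : G) ∈ centralizer (W : Set G) := fun g => by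
    rw [← MonoidHom.mem_ker, hk, mem_subgroupOf]
  have hEE : ∀ x : K × K, x * x = 1 := by decide +kernel
  haveI := S.nV
  have hC0 : ∀ (h : G) (g : centralizer (V : Set G)), h * g * h⁻¹ ∈ centralizer (V : Set G) :=
    fun h g => Subgroup.Normal.conj_mem inferInstance _ g.2 h
  have hNI : ∀ g : centralizer (V : Set G), Good (F g) → NI W g := by
    intro g hg w hw h
    obtain ⟨k, hk⟩ : w * w ∈ ι.range := hr ▸ S.sqV hw
    rw [hact g w hw k hk.symm] at h
    have e : app (F g) k = k := hi (by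
      rw [hk]
      calc ι (app (F g) k) = (w * w)⁻¹ := by rw [eq_mul_inv_of_mul_eq h]; group
        _ = w * w := inv_eq_of_mul_eq_one_right ((S.memV _).1 (S.sqV hw)).2)
    rw [← hk, hg.2 k e, map_one]
  have hconj0 : ∀ (h : G) (g : centralizer (V : Set G)), h ∈ centralizer (V : Set G) →
      F ⟨_, hC0 h g⟩ = F g := fun h g hh => by
    rw [show (⟨_, hC0 h g⟩ : centralizer (V : Set G)) = ⟨h, hh⟩ * g * ⟨h, hh⟩⁻¹ from rfl, map_mul, map_mul,
      map_inv, mul_inv_cancel_comm]
  have hconj1 : ∀ (h : G) (g : centralizer (V : Set G)), h ∉ centralizer (V : Set G) →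
      F ⟨_, hC0 h g⟩ = th (F g) := by
    intro h g hh
    have key : ∀ k, app (F ⟨_, hC0 h g⟩) k = tau (app (F g) (tau k)) := by
      intro k
      obtain ⟨w, hw, hww⟩ := hsq _ (hιV k)
      have tt : ∀ k, tau (tau k) = k := by decide +kernel
      have e1 := hact ⟨_, hC0 h g⟩ w hw k hww
      have e2 := hact g _ (S.nW.conj_mem w hw h⁻¹) (tau k) (by
        calc h⁻¹ * w * h⁻¹⁻¹ * (h⁻¹ * w * h⁻¹⁻¹) = h⁻¹ * (w * w) * h := by group
          _ = h⁻¹ * (h * ι (tau k) * h⁻¹) * h := by rw [hww, hτ h hh, tt]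
          _ = _ := by group)
      apply hi
      apply mul_right_cancel (b := w)
      rw [← e1, ← hτ h hh]
      calc h * g * h⁻¹ * w * (h * g * h⁻¹)⁻¹ = h * (g * (h⁻¹ * w * h⁻¹⁻¹) * (g : G)⁻¹) * h⁻¹ := by group
        _ = _ := by rw [e2]; group
    have e0 : ∀ x y : K × K, (∀ k, app x k = tau (app y (tau k))) → x = th y := by decide +kernel
    exact e0 _ _ key
  -- good elements with invariant coset
  have hbad : ∀ g : centralizer (V : Set G), Good (F g) → (∀ h, F ⟨_, hC0 h g⟩ = F g) →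
      ∀ d ∈ centralizer (W : Set G), g * d * (g * d) ≠ 1 := by
    intro g hg hinv d hd e
    have hd0 := S.CC0 hd
    have hF1 : F ⟨d, hd0⟩ = 1 := (hker _).2 hd
    refine S.no_invol h4 (NI.mul (hNI g hg) hd) (mul_mem g.2 hd0) (fun h => hg.1 ?_) e fun x => ?_
    · rw [hker]; simpa using mul_mem h (inv_mem hd)
    · have e1 : F ⟨_, hC0 x ⟨d, hd0⟩⟩ = 1 :=
        (hker _).2 (haveI := S.nW; Subgroup.Normal.conj_mem inferInstance _ hd x)
      have := (hker (⟨_, hC0 x g⟩ * ⟨_, hC0 x ⟨d, hd0⟩⟩ * (g * ⟨d, hd0⟩)⁻¹)).1 (by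
        rw [map_mul, map_mul, map_inv, map_mul, hinv, e1, hF1]; simp)
      convert this using 1
      simp only [coe_mul, coe_inv]; group
  have hnn : ∀ g : centralizer (V : Set G), F g = nn → ∀ h, F ⟨_, hC0 h g⟩ = F g := fun g hg h => by
    by_cases hh : h ∈ centralizer (V : Set G)
    · exact hconj0 h g hh
    · rw [hconj1 h g hh, hg]; decide +kernel
  have hX : F.range ≠ ⊤ := by
    intro e
    obtain ⟨g, hg⟩ : nn ∈ F.range := e ▸ mem_top _
    obtain ⟨t₀, ht₀⟩ : om ∈ F.range := e ▸ mem_top _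
    have hNC : NC W t₀ := by
      intro w hw h
      obtain ⟨k, hk⟩ : w * w ∈ ι.range := hr ▸ S.sqV hw
      rw [hact t₀ w hw k hk.symm, mul_eq_right, map_eq_one_iff _ hi, ht₀] at h
      have e0 : ∀ k, app om k = 1 → k = 1 := by decide +kernel
      rw [← hk, e0 k h, map_one]
    have s0 : (t₀ : G) * t₀ ∈ V := S.cent_mem_V hNC ((hker (t₀ * t₀)).1 (by rw [map_mul, hEE])) (by group)
    obtain ⟨d, hd, hdd⟩ := S.exists_invol (hNI t₀ (ht₀ ▸ good_om)) S.WC hW
      fun d hd => S.sq_mul_mem t₀.2 s0 hd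
    have hd0 := S.CC0 (S.WC hd)
    set t : centralizer (V : Set G) := t₀ * ⟨d, hd0⟩ with ht
    have htt : (t : G) * t = 1 := hdd
    have tNI : NI W t := NI.mul (hNI t₀ (ht₀ ▸ good_om)) (S.WC hd)
    have tNC : NC W t := NC.mul hNC (S.WC hd)
    have hc : (t : G) * g * (t : G)⁻¹ * (g : G)⁻¹ ∈ V := S.inv_mem_V tNI
      ((hker (t * g * t⁻¹ * g⁻¹)).1 (by
        rw [map_mul, map_mul, map_mul, map_inv, map_inv, mul_inv_cancel_comm, mul_inv_cancel])) (by
      calc (t : G) * (t * g * (t : G)⁻¹ * (g : G)⁻¹) * (t : G)⁻¹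
          = (t * t) * g * (t * t : G)⁻¹ * t * (g : G)⁻¹ * (t : G)⁻¹ := by group
        _ = _ := by rw [htt]; group)
    have hx : (g : G) * g ∈ V := S.cent_mem_V tNC ((hker (g * g)).1 (by rw [map_mul, hEE])) (by
      have e1 := g.2 _ hc
      have e2 := ((S.memV _).1 hc).2
      generalize hcc : (t : G) * g * (t : G)⁻¹ * (g : G)⁻¹ = c at e1 e2
      have e3 : (t : G) * g * (t : G)⁻¹ = c * g := by rw [← hcc]; group
      calc (t : G) * (g * g) * (t : G)⁻¹ = (t * g * (t : G)⁻¹) * (t * g * (t : G)⁻¹) := by group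
        _ = c * (g * c) * g := by rw [e3]; group
        _ = (c * c) * (g * g) := by rw [← e1]; group
        _ = _ := by rw [e2, one_mul])
    obtain ⟨d', hd', hdd'⟩ := S.exists_invol (hNI g (hg ▸ good_nn)) S.WC hW
      fun d hd => S.sq_mul_mem g.2 hx hd
    exact hbad g (hg ▸ good_nn) (hnn g hg) d' (S.WC hd') hdd'
  have hY : ∀ g : centralizer (V : Set G), (g : G) ∈ H → Good (F g) → (∀ h, F ⟨_, hC0 h g⟩ = F g) →
      Nat.card (H ⊓ centralizer (W : Set G) : Subgroup G) ≤
        2 * Nat.card (M ⊓ centralizer (W : Set G) : Subgroup G) := by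
    intro g hgH hg hinv
    by_contra hlt
    have hle : M ⊓ centralizer (W : Set G) ≤ H ⊓ centralizer (W : Set G) := inf_le_inf_right _ hMH
    have e1 := H2.card_mul_relIndex hle
    obtain ⟨n, hn⟩ := (S.pg.to_subgroup (H ⊓ centralizer (W : Set G))).index
      ((M ⊓ centralizer (W : Set G)).subgroupOf _)
    have hn' : (M ⊓ centralizer (W : Set G)).relIndex (H ⊓ centralizer (W : Set G)) = 2 ^ n := hn
    rw [hn'] at e1
    have h4' : 4 * Nat.card (M ⊓ centralizer (W : Set G) : Subgroup G) ≤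
        Nat.card (H ⊓ centralizer (W : Set G) : Subgroup G) := by
      rcases n with _ | _ | n
      · omega
      · omega
      · rw [← e1, pow_succ, pow_succ]
        have := Nat.one_le_two_pow (n := n)
        nlinarith
    obtain ⟨d, hd, hdd⟩ := S.exists_invol (hNI g hg) inf_le_right h4' fun d hd =>
      ⟨hM _ (mul_mem hgH hd.1), (hker (g * ⟨d, S.CC0 hd.2⟩ * (g * ⟨d, S.CC0 hd.2⟩))).1 (by
        rw [map_mul, hEE])⟩
    exact hbad g hg hinv d hd.2 hdd
  have c1 := S.count F hk H
  have c2 := S.count F hk M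
  have c3 := S.card_D H M hM
  have c5 : Nat.card (M ⊓ centralizer (V : Set G) : Subgroup G) ≤ Nat.card M := card_le_of_le inf_le_left
  rw [← inf_assoc, inf_eq_left.2 hMH, h4] at c3
  have c7 := H2.card_pos' ((M.subgroupOf (centralizer (V : Set G))).map F)
  have c8 := S.half H
  have c9 := card_le_eight _ hX
  have hLR : (H.subgroupOf (centralizer (V : Set G))).map F ≤ F.range := map_le_range _ _
  have c10 := (card_le_of_le hLR).trans c9
  have hYn : nn ∈ (H.subgroupOf (centralizer (V : Set G))).map F →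
      Nat.card (H ⊓ centralizer (W : Set G) : Subgroup G) ≤
        2 * Nat.card (M ⊓ centralizer (W : Set G) : Subgroup G) := by
    rintro ⟨g, hgH, hg⟩
    exact hY g hgH (hg ▸ good_nn) (hnn g hg)
  by_cases hH : H ≤ centralizer (V : Set G)
  · rw [inf_eq_left.2 hH] at c1
    have c11 : 4 < Nat.card ((H.subgroupOf (centralizer (V : Set G))).map F) →
        Nat.card (H ⊓ centralizer (W : Set G) : Subgroup G) ≤
          2 * Nat.card (M ⊓ centralizer (W : Set G) : Subgroup G) := by
      intro hl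
      by_cases hall : ∀ h, h ∈ centralizer (V : Set G)
      · obtain ⟨_, ⟨g, hgH, rfl⟩, hg⟩ := exists_good _ hl
        exact hY g hgH hg fun h => hconj0 h g (hall h)
      · push Not at hall
        obtain ⟨h, hh⟩ := hall
        have e : (H.subgroupOf (centralizer (V : Set G))).map F = F.range := by
          refine eq_of_le_of_card_ge hLR ?_
          rcases index_le _ hl with e | e
          · rw [e]; exact card_le_of_le le_top
          · have := ((H.subgroupOf (centralizer (V : Set G))).map F).card_mul_index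
            rw [e, Nat.card_prod, card_K] at this; omega
        refine hYn (nn_mem _ hl ?_)
        rw [e]
        rintro _ ⟨g, rfl⟩
        exact ⟨_, hconj1 h g hh⟩
    generalize Nat.card ((H.subgroupOf (centralizer (V : Set G))).map F) = l at *
    generalize Nat.card ((M.subgroupOf (centralizer (V : Set G))).map F) = m at *
    generalize Nat.card (H ⊓ centralizer (W : Set G) : Subgroup G) = d at *
    generalize Nat.card (M ⊓ centralizer (W : Set G) : Subgroup G) = y at *
    have : y ≤ m * y := Nat.le_mul_of_pos_left _ c7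
    by_cases hl : 4 < l
    · have : l * d ≤ 8 * (2 * y) := Nat.mul_le_mul c10 (c11 hl)
      omega
    · have : l * d ≤ 4 * (4 * y) := Nat.mul_le_mul (by omega) c3
      omega
  obtain ⟨h, hh, hhC⟩ := SetLike.not_le_iff_exists.1 hH
  have hinvL : ∀ x ∈ (H.subgroupOf (centralizer (V : Set G))).map F,
      th x ∈ (H.subgroupOf (centralizer (V : Set G))).map F := by
    rintro _ ⟨g, hg, rfl⟩
    exact ⟨⟨_, hC0 h g⟩, H.mul_mem (H.mul_mem hh hg) (H.inv_mem hh), hconj1 h g hhC⟩
  have c11 := fun hl => hYn (nn_mem _ hl hinvL)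
  by_cases hfix : ∀ x ∈ (H.subgroupOf (centralizer (V : Set G))).map F, th x = x
  · have d1 := fixed_four _ hfix
    have d2 := fixed_two _ hfix
    by_cases hn : nn ∈ (H.subgroupOf (centralizer (V : Set G))).map F
    · have d3 := hYn hn
      clear hYn d2 c11
      generalize Nat.card ((H.subgroupOf (centralizer (V : Set G))).map F) = l at *
      generalize Nat.card ((M.subgroupOf (centralizer (V : Set G))).map F) = m at *
      generalize Nat.card (H ⊓ centralizer (W : Set G) : Subgroup G) = d at *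
      generalize Nat.card (M ⊓ centralizer (W : Set G) : Subgroup G) = y at *
      have : y ≤ m * y := Nat.le_mul_of_pos_left _ c7
      have : l * d ≤ 4 * (2 * y) := Nat.mul_le_mul d1 d3
      omega
    · have d3 := d2 hn
      clear hYn d2 c11
      generalize Nat.card ((H.subgroupOf (centralizer (V : Set G))).map F) = l at *
      generalize Nat.card ((M.subgroupOf (centralizer (V : Set G))).map F) = m at *
      generalize Nat.card (H ⊓ centralizer (W : Set G) : Subgroup G) = d at *
      generalize Nat.card (M ⊓ centralizer (W : Set G) : Subgroup G) = y at *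
      have : y ≤ m * y := Nat.le_mul_of_pos_left _ c7
      have : l * d ≤ 2 * (4 * y) := Nat.mul_le_mul d3 c3
      omega
  have hm : 2 ≤ Nat.card ((M.subgroupOf (centralizer (V : Set G))).map F) := by
    refine (one_lt_card_iff_ne_bot _).2 fun e => hfix ?_
    rintro _ ⟨g, hg, rfl⟩
    have : F (⟨_, hC0 h g⟩ * g⁻¹) ∈ (M.subgroupOf (centralizer (V : Set G))).map F :=
      ⟨_, comm_mem hM hh hg, rfl⟩
    rw [e, mem_bot, map_mul, map_inv, mul_inv_eq_one] at this
    rw [← hconj1 h g hhC, this]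
  clear hYn
  generalize Nat.card ((H.subgroupOf (centralizer (V : Set G))).map F) = l at *
  generalize Nat.card ((M.subgroupOf (centralizer (V : Set G))).map F) = m at *
  generalize Nat.card (H ⊓ centralizer (W : Set G) : Subgroup G) = d at *
  generalize Nat.card (M ⊓ centralizer (W : Set G) : Subgroup G) = y at *
  have : 2 * y ≤ m * y := Nat.mul_le_mul_right _ hm
  by_cases hl : 4 < l
  · have : l * d ≤ 8 * (2 * y) := Nat.mul_le_mul c10 (c11 hl)
    omega
  · have : l * d ≤ 4 * (4 * y) := Nat.mul_le_mul (by omega) c3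
    omega

theorem bound (H M : Subgroup G) (hMH : M ≤ H) (hM : ∀ x ∈ H, x * x ∈ M) :
    Nat.card H ≤ 16 * Nat.card M := by
  let σ : W →* V := MonoidHom.mk' (fun w => ⟨w * w, S.sqV w.2⟩) fun a b => Subtype.ext (by
    show (a : G) * b * (a * b) = a * a * (b * b)
    calc (a : G) * b * (a * b) = a * (b * a) * b := by group
      _ = _ := by rw [S.comm _ b.2 _ a.2]; group)
  have hσ : σ.ker = V.subgroupOf W := by
    ext w
    rw [MonoidHom.mem_ker, mem_subgroupOf, S.memV, Subtype.ext_iff]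
    exact ⟨fun h => ⟨w.2, h⟩, fun h => h.2⟩
  have e1 : Nat.card σ.range = V.relIndex W := by rw [relIndex, ← hσ, index_ker]
  have e2 := H2.card_mul_relIndex S.VW
  have e3 := σ.range.card_mul_index
  have e4 := S.cardV
  have e5 := H2.index_pos σ.range
  have e6 := H2.relIndex_pos V W
  by_cases h : V.relIndex W ≤ 2
  · by_cases h1 : V.relIndex W = 1
    · exact S.small_case (one_mem _) (fun w hw => Or.inl (relIndex_eq_one.1 h1 hw)) H M hMH hM
    · have h2 : (V.subgroupOf W).index = 2 := by change V.relIndex W = 2; omega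
      obtain ⟨a, ha⟩ := index_eq_two_iff.1 h2
      refine S.small_case (a := (a : G)⁻¹) (inv_mem a.2) (fun w hw => ?_) H M hMH hM
      rw [inv_inv]
      exact (ha ⟨w, hw⟩).or.symm
  · have h1 : σ.range.index = 1 := by
      by_contra hne
      have : 2 ≤ σ.range.index := by omega
      nlinarith
    rw [h1, mul_one, e1] at e3
    have h3 : Nat.card V ≠ 3 := by
      obtain ⟨n, hn⟩ := haveI : Fact (Nat.Prime 2) := Nat.fact_prime_two
        IsPGroup.iff_card.1 (S.pg.to_subgroup V)
      rw [hn]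
      rcases n with _ | n
      · omega
      · rw [pow_succ]; omega
    refine S.big_case (by omega) (fun v hv => ?_) (by rw [← e2, e3, show Nat.card V = 4 by omega]) H M hMH hM
    obtain ⟨w, hw⟩ : (⟨v, hv⟩ : V) ∈ σ.range := index_eq_one.1 h1 ▸ mem_top _
    exact ⟨w, w.2, congrArg Subtype.val hw⟩

end St

end H2.Mw
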