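import Cfsg.Agent.H20.El1

/-! Counting classes of elements of prime order `r` in a projective group `G / Z(G)`, `G` a group of
matrices containing the monomial matrices over a cyclic group `M` of scalars (`PS.card_cls`). -/

set_option autoImplicit false
namespace H2.Pg
open H11 Module Polynomial Matrix

section Comb

theorem card_ex {α ι : Type*} [Fintype ι] (p : ι → α → Prop) [∀ i, Finite {a // p i a}]
    (h : ∀ i j a, p i a → p j a → i = j) :
    Nat.card {a // ∃ i, p i a} = ∑ i, Nat.card {a // p i a} := by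
  rw [← Nat.card_sigma]
  refine (Nat.card_congr (Equiv.ofBijective
    (fun x : (Σ i, {a // p i a}) => (⟨x.2.1, x.1, x.2.2⟩ : {a // ∃ i, p i a})) ⟨?_, ?_⟩)).symm
  · rintro ⟨i, a, ha⟩ ⟨j, b, hb⟩ hab
    obtain rfl : a = b := congrArg Subtype.val hab
    obtain rfl := h i j a ha hb
    rfl
  · rintro ⟨a, i, ha⟩
    exact ⟨⟨i, a, ha⟩, rfl⟩

variable (U : Type*) [CommGroup U] (n : ℕ)

/-- non-constant multisets of size `n` -/
def NC : Type _ := {s : Multiset U // s.card = n ∧ ∀ a, s ≠ Multiset.replicate n a}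

instance instActNC : MulAction U (NC U n) where
  smul c s := ⟨s.1.map (c * ·), by rw [Multiset.card_map]; exact s.2.1, fun a h => s.2.2 (c⁻¹ * a) (by
    have := congrArg (Multiset.map (c⁻¹ * ·)) h
    simpa [Multiset.map_map] using this)⟩
  one_smul s := Subtype.ext (by change s.1.map _ = _; simp)
  mul_smul a b s := Subtype.ext (by
    change s.1.map _ = (s.1.map _).map _
    simp [Multiset.map_map, mul_assoc])

variable {U n}
theorem smul_val (c : U) (s : NC U n) : (c • s).1 = s.1.map (c * ·) := rfl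

omit [CommGroup U] in
theorem finite_ms [Finite U] : Finite {s : Multiset U // s.card = n} := by
  have := Fintype.ofFinite U
  have := finite_ms_le (Finset.univ : Finset U) n
  exact finite_of_imp (q := fun s : Multiset U => (∀ a ∈ s, a ∈ (Finset.univ : Finset U)) ∧ s.card ≤ n)
    fun s hs => ⟨fun _ _ => Finset.mem_univ _, hs.le⟩

instance instFinNC [Finite U] : Finite (NC U n) := by
  have := finite_ms (U := U) (n := n)
  exact finite_of_imp (q := fun s : Multiset U => s.card = n) fun s hs => hs.1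

omit [CommGroup U] in
theorem card_NC [Finite U] (hn : 0 < n) :
    Nat.card (NC U n) + Nat.card U = (n + Nat.card U - 1).choose n := by
  have := Fintype.ofFinite U
  have := finite_ms (U := U) (n := n)
  have h1 := card_ms_eq (Finset.univ : Finset U) n
  simp only [Finset.mem_univ, implies_true, true_and, Finset.card_univ] at h1
  rw [← Nat.card_eq_fintype_card, add_comm (Nat.card U)] at h1
  rw [← h1]
  have h2 : Nat.card U = Nat.card {s : Multiset U // ∃ a, s = Multiset.replicate n a} := by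
    refine Nat.card_congr (Equiv.ofBijective (fun a => ⟨Multiset.replicate n a, a, rfl⟩) ⟨?_, ?_⟩)
    · intro a b hab
      exact Multiset.replicate_right_injective hn.ne' (congrArg Subtype.val hab)
    · rintro ⟨s, a, rfl⟩
      exact ⟨a, rfl⟩
  have : Finite {s : Multiset U // s.card = n ∧ ∀ a, s ≠ Multiset.replicate n a} :=
    finite_of_imp (q := fun s : Multiset U => s.card = n) fun s hs => hs.1
  have : Finite {s : Multiset U // ∃ a, s = Multiset.replicate n a} :=
    finite_of_imp (q := fun s : Multiset U => s.card = n) fun s ⟨a, hs⟩ => by simp [hs]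
  rw [h2]
  change Nat.card {s : Multiset U // s.card = n ∧ ∀ a, s ≠ Multiset.replicate n a} + _ = _
  rw [← card_or fun s hs ⟨a, ha⟩ => hs.2 a ha]
  refine Nat.card_congr (Equiv.subtypeEquivRight fun s => ⟨?_, fun hs => ?_⟩)
  · rintro (h | ⟨a, rfl⟩)
    · exact h.1
    · simp
  · by_cases h : ∃ a, s = Multiset.replicate n a
    · exact Or.inr h
    · exact Or.inl ⟨hs, fun a ha => h ⟨a, ha⟩⟩

theorem fix_iff [Fintype U] {r : ℕ} (hr : r.Prime) (hU : Nat.card U = r) {c : U} (hc : c ≠ 1)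
    {s : Multiset U} : s.map (c * ·) = s ↔ ∃ k : ℕ, s = k • (Finset.univ : Finset U).val := by
  classical
  constructor
  · intro h
    have h1 : ∀ a, s.count (c * a) = s.count a := fun a => by
      conv_lhs => rw [← h]
      exact Multiset.count_map_eq_count' _ _ (mul_right_injective c) a
    have h2 : ∀ m : ℕ, s.count (c ^ m) = s.count 1 := fun m => by
      induction m with
      | zero => simp
      | succ m ih => rw [pow_succ', h1, ih]
    have := Fact.mk hr
    refine ⟨s.count 1, Multiset.ext.2 fun a => ?_⟩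
    have ha : a ∈ Submonoid.powers c := mem_powers_of_prime_card hU hc
    obtain ⟨m, rfl⟩ := ha
    simp [h2]
  · rintro ⟨k, rfl⟩
    rw [Multiset.map_nsmul]
    congr 1
    exact congrArg Finset.val (Finset.map_univ_equiv (Equiv.mulLeft c))

theorem card_fix [Finite U] {r : ℕ} (hr : r.Prime) (hU : Nat.card U = r) (hn : 0 < n) {c : U}
    (hc : c ≠ 1) : Nat.card (MulAction.fixedBy (NC U n) c) = if r ∣ n then 1 else 0 := by
  classical
  have := Fintype.ofFinite U
  have hu : (Finset.univ : Finset U).val.card = r := by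
    rw [← hU, Nat.card_eq_fintype_card]; rfl
  have key : ∀ s : MulAction.fixedBy (NC U n) c,
      r ∣ n ∧ s.1.1 = (n / r) • (Finset.univ : Finset U).val := by
    rintro ⟨s, hs⟩
    obtain ⟨k, hk⟩ := (fix_iff hr hU hc).1 (congrArg Subtype.val hs)
    have h1 := s.2.1
    rw [hk, Multiset.card_nsmul, hu] at h1
    refine ⟨⟨k, by rw [← h1, mul_comm]⟩, ?_⟩
    rw [show n / r = k by rw [← h1, Nat.mul_div_cancel _ hr.pos]]
    exact hk
  split_ifs with h
  · rw [Nat.card_eq_one_iff_unique]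
    refine ⟨⟨fun s t => Subtype.ext (Subtype.ext ((key s).2.trans (key t).2.symm))⟩, ⟨⟨⟨(n / r) •
      (Finset.univ : Finset U).val, ?_, fun a ha => ?_⟩, Subtype.ext ((fix_iff hr hU hc).2 ⟨_, rfl⟩)⟩⟩⟩
    · rw [Multiset.card_nsmul, hu, Nat.div_mul_cancel h]
    · have h1 : ∀ b, b = a := fun b => Multiset.eq_of_mem_replicate (ha ▸ Multiset.mem_nsmul.2
        ⟨(Nat.div_pos (Nat.le_of_dvd hn h) hr.pos).ne', Finset.mem_univ_val b⟩)
      exact hc ((h1 c).trans (h1 1).symm)
  · have : IsEmpty (MulAction.fixedBy (NC U n) c) := ⟨fun s => h (key s).1⟩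
    simp

theorem card_orb [Finite U] {r : ℕ} (hr : r.Prime) (hU : Nat.card U = r) (hn : 0 < n) :
    Nat.card (Quotient (MulAction.orbitRel U (NC U n))) =
      ((n + r - 1).choose (r - 1) - r - (if r ∣ n then 1 else 0)) / r + (if r ∣ n then 1 else 0) := by
  classical
  have := Fintype.ofFinite U
  have := Fintype.ofFinite (NC U n)
  have := Fintype.ofFinite (Quotient (MulAction.orbitRel U (NC U n)))
  have h1 := MulAction.sum_card_fixedBy_eq_card_orbits_mul_card_group U (NC U n)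
  simp only [← Nat.card_eq_fintype_card] at h1
  rw [← Finset.add_sum_erase _ _ (Finset.mem_univ 1), Finset.sum_congr rfl
    (fun c hc => card_fix hr hU hn (Finset.ne_of_mem_erase hc)), Finset.sum_const,
    Finset.card_erase_of_mem (Finset.mem_univ _), Finset.card_univ, ← Nat.card_eq_fintype_card, hU,
    MulAction.fixedBy_one_eq_univ, Nat.card_univ, smul_eq_mul] at h1
  have h2 := card_NC (U := U) hn
  rw [hU, show n + r - 1 = n + (r - 1) by have := hr.pos; omega, Nat.choose_symm_add] at h2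
  rw [show n + r - 1 = n + (r - 1) by have := hr.pos; omega, ← h2]
  set N := Nat.card (Quotient (MulAction.orbitRel U (NC U n)))
  set A := Nat.card (NC U n)
  have h3 := hr.two_le
  split_ifs at h1 ⊢ with h
  · obtain ⟨N, hN⟩ : ∃ N', N = N' + 1 := Nat.exists_eq_succ_of_ne_zero (by
      rintro h0; rw [h0] at h1; omega)
    rw [hN] at h1 ⊢
    rw [show A + r - r - 1 = N * r by rw [add_mul] at h1; omega, Nat.mul_div_cancel _ hr.pos]
  · rw [show A + r - r - 0 = N * r by omega, Nat.mul_div_cancel _ hr.pos, add_zero]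

end Comb

section Mon
variable {K : Type*} [Field K] {ι : Type*} [Fintype ι] [DecidableEq ι]

/-- monomial matrix `e_j ↦ d j • e_(σ j)` -/
def mon (σ : Equiv.Perm ι) (d : ι → K) : Matrix ι ι K := Matrix.of fun i j => if i = σ j then d j else 0

omit [Fintype ι] in
theorem mon_apply (σ : Equiv.Perm ι) (d : ι → K) (i j : ι) :
    mon σ d i j = if i = σ j then d j else 0 := rfl

theorem mon_mul (σ τ : Equiv.Perm ι) (d e : ι → K) :
    mon σ d * mon τ e = mon (σ * τ) fun j => d (τ j) * e j := by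
  ext i j
  simp only [Matrix.mul_apply, mon_apply, mul_ite, mul_zero, Finset.sum_ite_eq', Finset.mem_univ,
    if_true, Equiv.Perm.mul_apply, ite_mul, zero_mul]
  rfl

omit [Fintype ι] in
theorem mon_one (d : ι → K) : mon 1 d = diagonal d := by
  ext i j
  by_cases h : i = j <;> simp [mon_apply, h]

theorem mon_pow (σ : Equiv.Perm ι) (d : ι → K) (k : ℕ) :
    mon σ d ^ k = mon (σ ^ k) fun j => ∏ i ∈ Finset.range k, d ((σ ^ i) j) := by
  induction k with
  | zero => simp [mon_one]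
  | succ k ih =>
    rw [pow_succ', ih, mon_mul, ← pow_succ']
    congr 1
    ext j
    rw [Finset.prod_range_succ, mul_comm]

theorem mul_mon_apply (A : Matrix ι ι K) (σ : Equiv.Perm ι) (d : ι → K) (i j : ι) :
    (A * mon σ d) i j = A i (σ j) * d j := by
  simp [Matrix.mul_apply, mon_apply]

theorem mon_mul_apply (A : Matrix ι ι K) (σ : Equiv.Perm ι) (d : ι → K) (i j : ι) :
    (mon σ d * A) (σ i) j = d i * A i j := by
  simp [Matrix.mul_apply, mon_apply]

/-- monomial matrix as an element of `GL` -/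
def monU (σ : Equiv.Perm ι) (d : ι → Kˣ) : GL ι K where
  val := mon σ fun i => (d i : K)
  inv := mon σ⁻¹ fun i => ((d (σ⁻¹ i))⁻¹ : Kˣ)
  val_inv := by rw [mon_mul, mul_inv_cancel, mon_one]; simp
  inv_val := by rw [mon_mul, inv_mul_cancel, mon_one]; simp

theorem mon_mulVec (σ : Equiv.Perm ι) (d v : ι → K) (i : ι) : (mon σ d *ᵥ v) (σ i) = d i * v i := by
  simp [mulVec, dotProduct, mon_apply]

theorem exists_cyc {n r : ℕ} (hr : r ≠ 0) (h : r ∣ n) {M : Type*} [CommMonoid M] (z : M) :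
    ∃ (σ : Equiv.Perm (Fin n)) (d : Fin n → M), σ ^ r = 1 ∧ (∀ i, d i = z ∨ d i = 1) ∧
      ∀ j, ∏ i ∈ Finset.range r, d ((σ ^ i) j) = z := by
  have := NeZero.mk hr
  obtain ⟨s, rfl⟩ := h
  obtain ⟨e⟩ : Nonempty (ZMod r × Fin s ≃ Fin (r * s)) :=
    ⟨Fintype.equivOfCardEq (by simp)⟩
  let τ : Equiv.Perm (ZMod r × Fin s) := (Equiv.addRight 1).prodCongr (Equiv.refl _)
  have hτ : ∀ (k : ℕ) x, (τ ^ k) x = (x.1 + k, x.2) := fun k => by
    induction k with
    | zero => simp
    | succ k ih => intro x; rw [pow_succ', Equiv.Perm.mul_apply, ih]; simp [τ, add_assoc]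
  have hσ : ∀ (k : ℕ) x, (e.permCongr τ ^ k) (e x) = e (x.1 + k, x.2) := fun k x => by
    rw [← hτ, show e.permCongr τ ^ k = e.permCongr (τ ^ k) from (map_pow e.permCongrHom τ k).symm]
    simp
  refine ⟨e.permCongr τ, fun i => if (e.symm i).1 = 0 then z else 1, ?_, fun i => ?_, fun j => ?_⟩
  · ext j
    obtain ⟨x, rfl⟩ := e.surjective j
    rw [hσ]; simp
  · dsimp only
    split_ifs <;> simp
  · obtain ⟨x, rfl⟩ := e.surjective j
    simp only [hσ, Equiv.symm_apply_apply]
    rw [Finset.prod_eq_single (-x.1).val]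
    · simp
    · intro k hk hk'
      rw [if_neg]
      intro h0
      apply hk'
      rw [neg_eq_of_add_eq_zero_right h0, ZMod.val_natCast, Nat.mod_eq_of_lt (Finset.mem_range.1 hk)]
    · intro h
      exact absurd (Finset.mem_range.2 (ZMod.val_lt _)) h

theorem exists_fun_ms {α : Type*} {n : ℕ} {s : Multiset α} (h : s.card = n) :
    ∃ d : Fin n → α, Finset.univ.val.map d = s := by
  subst h
  induction s using Quotient.inductionOn with
  | h l => exact ⟨l.get, (Fin.univ_val_map l.get).trans (by rw [List.ofFn_get]; rfl)⟩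

theorem charpoly_diag (d : ι → K) :
    (diagonal d).charpoly = ((Finset.univ.val.map d).map fun a => X - C a).prod := by
  rw [charpoly_diagonal, Multiset.map_map]; rfl

theorem ms_eq_of_sim {d e : ι → K} (h : Sim (mE (diagonal d)) (mE (diagonal e))) :
    Finset.univ.val.map d = Finset.univ.val.map e := by
  have h1 := h.charpoly
  rw [charpoly_mE, charpoly_mE, charpoly_diag, charpoly_diag] at h1
  simpa only [roots_multiset_prod_X_sub_C] using congrArg roots h1

theorem ss_diag {r : ℕ} (h0 : (r : K) ≠ 0) {d : ι → K} (hd : ∀ i, d i ^ r = 1) :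
    SS (mE (diagonal d)) := ss_of_pow_eq_one h0 (by
  rw [← mE_pow, diagonal_pow, ← mE_one, ← diagonal_one]
  congr 2
  exact funext hd)

theorem sim_of_ms_eq {r : ℕ} (h0 : (r : K) ≠ 0) {d e : ι → K} (hd : ∀ i, d i ^ r = 1)
    (he : ∀ i, e i ^ r = 1) (h : Finset.univ.val.map d = Finset.univ.val.map e) :
    Sim (mE (diagonal d)) (mE (diagonal e)) :=
  (ss_diag h0 hd).sim_of_charpoly (ss_diag h0 he) (by
    rw [charpoly_mE, charpoly_mE, charpoly_diag, charpoly_diag, h])

theorem exists_diag {n r : ℕ} (hr : r ≠ 0) {ζ : K} (hζ : IsPrimitiveRoot ζ r)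
    {A : Matrix (Fin n) (Fin n) K} (hA : A ^ r = 1) :
    ∃ d : Fin n → K, (∀ i, d i ^ r = 1) ∧ Sim (mE A) (mE (diagonal d)) := by
  classical
  have h0 : (r : K) ≠ 0 := by have := NeZero.mk hr; exact (hζ.neZero').out
  have h1 : mE A ^ r = 1 := by rw [← mE_pow, hA, mE_one]
  have h2 := ss_of_pow_eq_one h0 h1
  have h3 : ∀ P ∈ ED (mE A), ∃ a : K, a ^ r = 1 ∧ P = X - C a := fun P hP => by
    have h4 := pow_eq_one_iff_ED.1 h1 P hP
    have h5 : Irreducible P := h2 P hP
    rw [X_pow_sub_one_eq_prod (Nat.pos_of_ne_zero hr) hζ, h5.prime.dvd_finsetProd_iff] at h4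
    obtain ⟨a, ha, h6⟩ := h4
    refine ⟨a, (mem_nthRootsFinset (Nat.pos_of_ne_zero hr) _).1 ha, ?_⟩
    exact eq_of_monic_of_associated (pp_ED _ P hP).monic (monic_X_sub_C a)
      (h5.associated_of_dvd (irreducible_X_sub_C a) h6)
  obtain ⟨s, hs, hs'⟩ : ∃ s : Multiset K, (∀ a ∈ s, a ^ r = 1) ∧ ED (mE A) = s.map fun a => X - C a := by
    choose f hf using h3
    refine ⟨(ED (mE A)).attach.map fun P => f P.1 P.2, ?_, ?_⟩
    · simp only [Multiset.mem_map]
      rintro a ⟨P, -, rfl⟩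
      exact (hf _ _).1
    · rw [Multiset.map_map]
      conv_lhs => rw [← Multiset.attach_map_val (ED (mE A))]
      exact Multiset.map_congr rfl fun P _ => (hf _ _).2
  have h4 : s.card = n := by
    have := finrank_eq_ED (mE A)
    rw [hs', Multiset.map_map] at this
    simpa using this.symm
  obtain ⟨d, rfl⟩ := exists_fun_ms h4
  have hd : ∀ i, d i ^ r = 1 := fun i => hs _ (Multiset.mem_map_of_mem _ (Finset.mem_univ_val i))
  refine ⟨d, hd, h2.sim_of_charpoly (ss_diag h0 hd) ?_⟩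
  rw [charpoly_eq_prod_ED, hs', charpoly_mE, charpoly_diag]

end Mon

section Main
universe u
variable {K : Type u} [Field K] {n : ℕ} {G : Type*} [Group G]

theorem eq_of_sim_smul (hn : 0 < n) {a b : K}
    (h : Sim (a • 1 : End K (Fin n → K)) (b • 1 : End K (Fin n → K))) : a = b := by
  obtain ⟨e, he⟩ := h
  have : Nonempty (Fin n) := ⟨⟨0, hn⟩⟩
  obtain ⟨x, hx⟩ := exists_ne (0 : Fin n → K)
  have h1 := he (e.symm x)
  simp only [LinearMap.smul_apply, End.one_apply, map_smul, LinearEquiv.apply_symm_apply] at h1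
  exact smul_left_injective K hx h1

theorem eq_of_sim_smul' {a : K} {f : End K (Fin n → K)}
    (h : Sim f (a • 1 : End K (Fin n → K))) : f = a • 1 := by
  obtain ⟨e, he⟩ := h
  refine LinearMap.ext fun x => e.injective ?_
  rw [he]
  simp

/-- A matrix group containing the monomial matrices over `M`, with `GL`-fusion. -/
structure PS (ρ : G →* GL (Fin n) K) (M : Subgroup Kˣ) : Prop where
  inj : Function.Injective ρ
  cnj : ∀ g g', IsConj (ρ g) (ρ g') → IsConj g g'
  scal : ∀ g (c : Kˣ), (ρ g).1 = (c : K) • 1 → c ∈ M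
  mono : ∀ σ (d : Fin n → Kˣ), (∀ i, d i ∈ M) → ∃ g, (ρ g).1 = mon σ fun i => (d i : K)

/-- classes with a non-scalar representative whose `r`-th power is `z` -/
def Rp (ρ : G →* GL (Fin n) K) (r : ℕ) (z : K) (C : ConjClasses (G ⧸ Subgroup.center G)) : Prop :=
  ∃ g : G, ConjClasses.mk (g : G ⧸ Subgroup.center G) = C ∧ (ρ g).1 ^ r = z • 1 ∧
    ∀ c : K, (ρ g).1 ≠ c • 1

namespace PS
variable {ρ : G →* GL (Fin n) K} {M : Subgroup Kˣ} (h : PS ρ M)
include h

theorem exists_diag' {d : Fin n → Kˣ} (hd : ∀ i, d i ∈ M) :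
    ∃ g, (ρ g).1 = diagonal fun i => (d i : K) := by
  simpa only [mon_one] using h.mono 1 d hd

theorem exists_scal {c : Kˣ} (hc : c ∈ M) : ∃ g, (ρ g).1 = (c : K) • 1 := by
  simpa only [smul_one_eq_diagonal] using h.exists_diag' (d := fun _ => c) fun _ => hc

theorem unit_of (hn : 0 < n) {g : G} {c : K} (hg : (ρ g).1 = c • 1) : ∃ u ∈ M, (u : K) = c := by
  have h0 : c ≠ 0 := by
    rintro rfl
    have : Nonempty (Fin n) := ⟨⟨0, hn⟩⟩
    exact (ρ g).ne_zero (by rw [hg, zero_smul])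
  exact ⟨Units.mk0 c h0, h.scal g _ hg, rfl⟩

theorem mem_center (hn : 0 < n) {ζ : Kˣ} (hζ : ζ ∈ M) (hζ' : ζ ≠ 1) {g : G} :
    g ∈ Subgroup.center G ↔ ∃ c : K, (ρ g).1 = c • 1 := by
  constructor
  · intro hg
    have key : ∀ (σ : Equiv.Perm (Fin n)) (d : Fin n → Kˣ), (∀ i, d i ∈ M) → ∀ i j,
        (ρ g).1 (σ i) (σ j) * d j = d i * (ρ g).1 i j := fun σ d hd i j => by
      obtain ⟨k, hk⟩ := h.mono σ d hd
      have h1 : (ρ g).1 * (ρ k).1 = (ρ k).1 * (ρ g).1 := by
        rw [← Units.val_mul, ← Units.val_mul, ← map_mul, ← map_mul,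
          Subgroup.mem_center_iff.1 hg k]
      rw [hk] at h1
      exact (mul_mon_apply (ρ g).1 σ (fun i => (d i : K)) (σ i) j).symm.trans
        ((congrFun (congrFun h1 _) _).trans (mon_mul_apply _ _ _ _ _))
    refine ⟨(ρ g).1 ⟨0, hn⟩ ⟨0, hn⟩, Matrix.ext fun i j => ?_⟩
    by_cases hij : i = j
    · subst hij
      simpa using key (Equiv.swap i ⟨0, hn⟩) 1 (fun _ => M.one_mem) ⟨0, hn⟩ ⟨0, hn⟩
    · have h1 := key 1 (fun k => if k = i then ζ else 1)
        (fun k => by split_ifs; exacts [hζ, M.one_mem]) i j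
      simp only [Equiv.Perm.one_apply, if_neg (Ne.symm hij), if_true, Units.val_one, mul_one] at h1
      have h2 : (1 - ζ : K) * (ρ g).1 i j = 0 := by linear_combination h1
      rw [(mul_eq_zero.1 h2).resolve_left fun h3 => hζ' (Units.ext (sub_eq_zero.1 h3).symm)]
      simp [hij]
  · rintro ⟨c, hc⟩
    refine Subgroup.mem_center_iff.2 fun k => h.inj (Units.ext ?_)
    simp [hc]

variable (hn : 0 < n) {ζ : Kˣ} (hζ : ζ ∈ M) (hζ' : ζ ≠ 1)
include hn hζ hζ'

theorem mk_eq_iff {g g' : G} :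
    ConjClasses.mk (g : G ⧸ Subgroup.center G) = ConjClasses.mk (g' : G ⧸ Subgroup.center G) ↔
      ∃ c ∈ M, Sim (mE (ρ g').1) ((c : K) • mE (ρ g).1) := by
  rw [ConjClasses.mk_eq_mk_iff_isConj]
  constructor
  · intro h1
    obtain ⟨k, hk⟩ := isConj_iff.1 h1
    obtain ⟨k, rfl⟩ := QuotientGroup.mk_surjective k
    rw [← QuotientGroup.mk_inv, ← QuotientGroup.mk_mul, ← QuotientGroup.mk_mul,
      QuotientGroup.eq] at hk
    obtain ⟨c, hc⟩ := (h.mem_center hn hζ hζ').1 hk
    obtain ⟨u, hu, rfl⟩ := h.unit_of hn hc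
    refine ⟨u, hu, ?_⟩
    have h2 : (ρ g').1 = (u : K) • (ρ (k * g * k⁻¹)).1 := by
      rw [← mul_inv_cancel_left (k * g * k⁻¹) g', map_mul, Units.val_mul, hc]
      simp
    rw [h2, mE_smul]
    refine Sim.smul (gl_isConj_iff.1 ?_).symm _
    exact ρ.map_isConj (isConj_iff.2 ⟨k, rfl⟩)
  · rintro ⟨c, hc, h1⟩
    obtain ⟨z, hz⟩ := h.exists_scal hc
    have h2 : (ρ (z * g)).1 = (c : K) • (ρ g).1 := by rw [map_mul, Units.val_mul, hz]; simp
    rw [← mE_smul, ← h2, ← gl_isConj_iff] at h1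
    have h3 := (QuotientGroup.mk' (Subgroup.center G)).map_isConj (h.cnj _ _ h1)
    rw [map_mul, QuotientGroup.mk'_apply, QuotientGroup.mk'_apply,
      (QuotientGroup.eq_one_iff z).2 ((h.mem_center hn hζ hζ').2 ⟨_, hz⟩), one_mul] at h3
    exact h3.symm

theorem order_iff {r : ℕ} (hr : r.Prime) {g : G} : orderOf (g : G ⧸ Subgroup.center G) = r ↔
    (∃ z : K, (ρ g).1 ^ r = z • 1) ∧ ∀ c : K, (ρ g).1 ≠ c • 1 := by
  have := Fact.mk hr
  rw [orderOf_eq_prime_iff, ← QuotientGroup.mk_pow, QuotientGroup.eq_one_iff, Ne,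
    QuotientGroup.eq_one_iff, h.mem_center hn hζ hζ', h.mem_center hn hζ hζ']
  simp

theorem rp_unique {r : ℕ} {a b : K} {C : ConjClasses (G ⧸ Subgroup.center G)} (ha : Rp ρ r a C)
    (hb : Rp ρ r b C) : ∃ c ∈ M, b = (c : K) ^ r * a := by
  obtain ⟨g, rfl, h1, -⟩ := ha
  obtain ⟨g', h2, h3, -⟩ := hb
  obtain ⟨c, hc, h4⟩ := (h.mk_eq_iff hn hζ hζ').1 h2.symm
  have h5 := h4.pow r
  rw [_root_.smul_pow, ← mE_pow, ← mE_pow, h1, h3, mE_smul, mE_smul, mE_one, smul_smul] at h5
  exact ⟨c, hc, eq_of_sim_smul hn h5⟩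

theorem card_rp {r : ℕ} (hr : r.Prime) {z : Kˣ} (hz : z ∈ M) (hz' : ∀ c : K, c ^ r ≠ z) :
    Nat.card {C // Rp ρ r z C} = if r ∣ n then 1 else 0 := by
  have hi := X_pow_sub_C_irreducible_of_prime hr hz'
  have key : ∀ g : G, (ρ g).1 ^ r = (z : K) • 1 →
      r ∣ n ∧ ED (mE (ρ g).1) = Multiset.replicate (n / r) (X ^ r - C (z : K)) := fun g hg => by
    obtain ⟨-, s, h1, h2, -⟩ := H20.El.irr_spec hr.ne_zero hi (g := mE (ρ g).1)
      (by rw [← mE_pow, hg, mE_smul, mE_one])
    rw [finrank_fin_fun] at h2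
    exact ⟨⟨s, by rw [← h2, mul_comm]⟩, by
      rw [h1, show n / r = s by rw [← h2, Nat.mul_div_cancel _ hr.pos]]⟩
  split_ifs with hd
  · rw [Nat.card_eq_one_iff_unique]
    constructor
    · constructor
      rintro ⟨_, g, rfl, h1, -⟩ ⟨_, g', rfl, h2, -⟩
      refine Subtype.ext ((h.mk_eq_iff hn hζ hζ').2 ⟨1, M.one_mem, ?_⟩)
      rw [Units.val_one, one_smul, sim_iff_ED, (key _ h1).2, (key _ h2).2]
    · obtain ⟨σ, d, h1, h2, h3⟩ := exists_cyc hr.ne_zero hd z
      obtain ⟨g, hg⟩ := h.mono σ d fun i => by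
        rcases h2 i with h4 | h4 <;> rw [h4]
        exacts [hz, M.one_mem]
      have h4 : (ρ g).1 ^ r = (z : K) • 1 := by
        rw [hg, mon_pow, h1, mon_one, smul_one_eq_diagonal]
        congr 1
        ext j
        rw [← h3 j, Units.coe_prod]
      refine ⟨⟨_, g, rfl, h4, fun c hc => hz' c ?_⟩⟩
      rw [hc, _root_.smul_pow, one_pow] at h4
      simpa using congrFun (congrFun h4 ⟨0, hn⟩) ⟨0, hn⟩
  · have : IsEmpty {C // Rp ρ r z C} := ⟨fun ⟨_, g, _, h1, _⟩ => hd (key g h1).1⟩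
    simp

theorem card_rp_one {r : ℕ} (hr : r.Prime) (hp : IsPrimitiveRoot (ζ : K) r) :
    Nat.card {C // Rp ρ r 1 C} =
      Nat.card (Quotient (MulAction.orbitRel (rootsOfUnity r K) (NC (rootsOfUnity r K) n))) := by
  have := NeZero.mk hr.ne_zero
  have h0 : (r : K) ≠ 0 := (hp.neZero').out
  let ι : rootsOfUnity r K → K := fun a => (a.1 : K)
  have hι : Function.Injective ι := fun a b hab => Subtype.ext (Units.ext hab)
  have hι' : ∀ a, ι a ^ r = 1 := fun a => (mem_rootsOfUnity' _ _).1 a.2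
  have hM : ∀ a : rootsOfUnity r K, a.1 ∈ M := fun a => by
    exact ((IsPrimitiveRoot.coe_units_iff.1 hp).zpowers_eq.ge.trans (Subgroup.zpowers_le.2 hζ)) a.2
  have hex : ∀ s : NC (rootsOfUnity r K) n, ∃ (d : Fin n → rootsOfUnity r K) (g : G),
      Finset.univ.val.map d = s.1 ∧ (ρ g).1 = diagonal fun i => ι (d i) := fun s => by
    obtain ⟨d, hd⟩ := exists_fun_ms s.2.1
    obtain ⟨g, hg⟩ := h.exists_diag' (d := fun i => (d i).1) fun i => hM _
    exact ⟨d, g, hd, hg⟩
  choose d g hd hg using hex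
  have hd' : ∀ s, Finset.univ.val.map (fun i => ι (d s i)) = s.1.map ι := fun s => by
    rw [← hd, Multiset.map_map]; rfl
  have hrp : ∀ s, Rp ρ r 1 (ConjClasses.mk (g s : G ⧸ Subgroup.center G)) := fun s => by
    refine ⟨g s, rfl, ?_, fun c hc => s.2.2 (d s ⟨0, hn⟩) ?_⟩
    · rw [hg, diagonal_pow, one_smul, ← diagonal_one]
      congr 1
      exact funext fun i => hι' _
    · rw [hg, smul_one_eq_diagonal, diagonal_eq_diagonal_iff] at hc
      rw [← hd, show d s = fun _ => d s ⟨0, hn⟩ from funext fun i => hι ((hc _).trans (hc _).symm)]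
      simp
  have hsm : ∀ (c : K) s, c • mE (ρ (g s)).1 = mE (diagonal fun i => c * ι (d s i)) := fun c s => by
    rw [hg, ← mE_smul, ← diagonal_smul]; rfl
  have key : ∀ s t, ConjClasses.mk (g s : G ⧸ Subgroup.center G) =
      ConjClasses.mk (g t : G ⧸ Subgroup.center G) ↔ ∃ c : rootsOfUnity r K, c • s = t := by
    intro s t
    rw [h.mk_eq_iff hn hζ hζ']
    constructor
    · rintro ⟨c, hc, h1⟩
      have h2 : (c : K) ^ r = 1 := by
        have h5 := h1.pow r
        have e : ∀ s, (ρ (g s)).1 ^ r = (1 : K) • 1 := fun s => by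
          rw [hg, diagonal_pow, one_smul, ← diagonal_one]
          congr 1
          exact funext fun i => hι' _
        rw [_root_.smul_pow, ← mE_pow, ← mE_pow, e, e, mE_smul, mE_one, smul_smul, mul_one] at h5
        exact (eq_of_sim_smul hn h5).symm
      refine ⟨⟨c, (mem_rootsOfUnity' _ _).2 h2⟩, Subtype.ext (Multiset.map_injective hι ?_)⟩
      rw [hsm, hg] at h1
      rw [← hd' t, ms_eq_of_sim h1, smul_val, ← hd, Multiset.map_map, Multiset.map_map]
      rfl
    · rintro ⟨c, rfl⟩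
      refine ⟨c.1, hM c, ?_⟩
      rw [hsm, hg]
      refine sim_of_ms_eq h0 (fun i => hι' _) (fun i => hι' (c * d s i)) ?_
      rw [hd', smul_val, ← hd, Multiset.map_map, Multiset.map_map]
      rfl
  refine (Nat.card_congr (Equiv.ofBijective (Quotient.lift
    (fun s => (⟨_, hrp s⟩ : {C // Rp ρ r 1 C})) fun s t hst => Subtype.ext ((key t s).2 hst).symm)
    ⟨?_, ?_⟩)).symm
  · intro a b
    induction a using Quotient.inductionOn
    induction b using Quotient.inductionOn
    intro hab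
    exact Quotient.sound ((key _ _).1 (congrArg Subtype.val hab).symm)
  · rintro ⟨_, k, rfl, h1, h2⟩
    obtain ⟨e, he, h3⟩ := exists_diag hr.ne_zero hp (h1.trans (one_smul _ _))
    let e' : Fin n → rootsOfUnity r K := fun i => rootsOfUnity.mkOfPowEq (e i) (he i)
    have he' : ∀ i, ι (e' i) = e i := fun i => rfl
    let s : NC (rootsOfUnity r K) n := ⟨Finset.univ.val.map e', by simp, fun a ha => h2 (ι a) (by
      have h4 : e = fun _ => ι a := funext fun i => by
        have h5 : e' i = a := Multiset.eq_of_mem_replicate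
          (ha ▸ Multiset.mem_map_of_mem e' (Finset.mem_univ_val i))
        rw [← he', h5]
      rw [h4, ← smul_one_eq_diagonal, mE_smul, mE_one] at h3
      rw [← mE_inj, eq_of_sim_smul' h3, mE_smul, mE_one])⟩
    refine ⟨Quotient.mk _ s, Subtype.ext ((h.mk_eq_iff hn hζ hζ').2 ⟨1, M.one_mem, ?_⟩)⟩
    rw [Units.val_one, one_smul, hg]
    refine h3.trans (sim_of_ms_eq h0 he (fun i => hι' _) ?_)
    rw [hd', Multiset.map_map]
    rfl

end PS

theorem PS.card_cls [Finite G] {ρ : G →* GL (Fin n) K} {M : Subgroup Kˣ} (h : PS ρ M) [Finite M]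
    (hn : 0 < n) {r : ℕ} (hr : r.Prime) (hM : r ∣ Nat.card M) (hroot : ∀ c : Kˣ, c ^ r ∈ M → c ∈ M) :
    Nat.card {C : ConjClasses (G ⧸ Subgroup.center G) // ∃ g, ConjClasses.mk g = C ∧ orderOf g = r} =
      ((n + r - 1).choose (r - 1) - r - (if r ∣ n then 1 else 0)) / r +
        r * (if r ∣ n then 1 else 0) := by
  have := NeZero.mk hr.ne_zero
  have := Fact.mk hr
  obtain ⟨⟨ω, hω⟩, hg⟩ := IsCyclic.exists_monoid_generator (α := M)
  have hg' : ∀ c ∈ M, ∃ m : ℕ, ω ^ m = c := fun c hc => by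
    obtain ⟨m, hm⟩ := hg ⟨c, hc⟩
    exact ⟨m, congrArg Subtype.val hm⟩
  have ho : r ∣ orderOf ω := by
    rw [← Subgroup.orderOf_mk ω hω, orderOf_eq_card_of_forall_mem_powers hg]; exact hM
  obtain ⟨⟨ζ, hζ⟩, hζ2⟩ := exists_prime_orderOf_dvd_card' r hM
  rw [Subgroup.orderOf_mk] at hζ2
  have hζ' : ζ ≠ 1 := by rintro rfl; exact hr.one_lt.ne (by simpa using hζ2)
  have hp : IsPrimitiveRoot (ζ : K) r :=
    IsPrimitiveRoot.coe_units_iff.2 (hζ2 ▸ IsPrimitiveRoot.orderOf ζ)
  have hmod : ∀ (i j : ℕ) (c : Kˣ), c ∈ M → ω ^ j = c ^ r * ω ^ i → j ≡ i [MOD r] := by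
    intro i j c hc e
    obtain ⟨m, rfl⟩ := hg' c hc
    rw [← pow_mul, ← pow_add, pow_eq_pow_iff_modEq] at e
    simpa [Nat.ModEq] using e.of_dvd ho
  have e1 : ∀ C : ConjClasses (G ⧸ Subgroup.center G), (∃ g, ConjClasses.mk g = C ∧ orderOf g = r) ↔
      ∃ j : Fin r, Rp ρ r ((ω ^ j.1 : Kˣ) : K) C := fun C => by
    constructor
    · rintro ⟨g, rfl, h1⟩
      obtain ⟨g, rfl⟩ := QuotientGroup.mk_surjective g
      obtain ⟨⟨z, h2⟩, h3⟩ := (h.order_iff hn hζ hζ' hr).1 h1
      obtain ⟨u, hu, rfl⟩ := h.unit_of hn (g := g ^ r) (c := z) (by simpa using h2)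
      obtain ⟨m, rfl⟩ := hg' u hu
      obtain ⟨y, hy⟩ := h.exists_scal (M.inv_mem (M.pow_mem hω (m / r)))
      have h4 : (ρ (y * g)).1 = ((ω ^ (m / r))⁻¹ : Kˣ).1 • (ρ g).1 := by
        rw [map_mul, Units.val_mul, hy, smul_mul_assoc, one_mul]
      refine ⟨⟨m % r, Nat.mod_lt _ hr.pos⟩, y * g, ?_, ?_, fun c hc => ?_⟩
      · rw [QuotientGroup.mk_mul,
          (QuotientGroup.eq_one_iff y).2 ((h.mem_center hn hζ hζ').2 ⟨_, hy⟩), one_mul]
      · rw [h4, _root_.smul_pow, h2, smul_smul, ← Units.val_pow_eq_pow_val, ← Units.val_mul]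
        congr 2
        rw [inv_pow, ← pow_mul, inv_mul_eq_iff_eq_mul, ← pow_add, Nat.div_add_mod']
      · refine h3 ((ω ^ (m / r) : Kˣ).1 * c) ?_
        rw [← smul_smul, ← hc, h4, smul_smul, Units.mul_inv, one_smul]
    · rintro ⟨j, g, rfl, h1, h2⟩
      exact ⟨g, rfl, (h.order_iff hn hζ hζ' hr).2 ⟨⟨_, h1⟩, h2⟩⟩
  rw [Nat.card_congr (Equiv.subtypeEquivRight e1), card_ex _ fun i j C hi hj => by
    obtain ⟨c, hc, e⟩ := h.rp_unique hn hζ hζ' hi hj
    exact Fin.ext (Nat.ModEq.eq_of_lt_of_lt (hmod i j c hc (Units.ext (by simpa using e))).symm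
      i.2 j.2), ← Finset.add_sum_erase _ _ (Finset.mem_univ 0), Finset.sum_congr rfl
    (fun j hj => h.card_rp hn hζ hζ' hr (M.pow_mem hω j.1) fun c hc => by
      have h0 : c ≠ 0 := by
        rintro rfl
        exact (ω ^ j.1).ne_zero (by rw [← hc, zero_pow hr.ne_zero])
      have e : ω ^ j.1 = Units.mk0 c h0 ^ r := Units.ext (by simpa using hc.symm)
      have h1 := hmod 0 j _ (hroot _ (e ▸ M.pow_mem hω j.1)) (by rw [e, pow_zero, mul_one])
      exact Finset.ne_of_mem_erase hj (Fin.ext (h1.eq_of_lt_of_lt j.2 hr.pos))),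
    Finset.sum_const, Finset.card_erase_of_mem (Finset.mem_univ _), Finset.card_univ,
    Fintype.card_fin, Fin.val_zero, pow_zero, Units.val_one, h.card_rp_one hn hζ hζ' hr hp,
    card_orb hr hp.card_rootsOfUnity hn, smul_eq_mul, add_assoc]
  congr 1
  have := hr.pos
  split_ifs <;> omega

end Main

end H2.Pg
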