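import Cfsg.Agent.H1.Cores
import Cfsg.Agent.H3.PGrpBasic
import Cfsg.Prelude.Def_MonsterType

/-! The abstract centraliser `H2.Tv.D n = 2^(1+2n):GL_n(2)` of a transvection of `L_{n+2}(2)` and the
transfer lemma `H2.Tv.transfer` (large extraspecial subgroup). -/

set_option autoImplicit false

namespace H2
namespace Tv

open Matrix Cfsg
open scoped commutatorElement

/-- the field with two elements -/
abbrev F := ZMod 2

/-- the general linear group -/
abbrev L (n : ℕ) := Matrix.GeneralLinearGroup (Fin n) F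

theorem F_cases (c : F) : c = 0 ∨ c = 1 := by revert c; decide

theorem F_add_self (c : F) : c + c = 0 := by revert c; decide

theorem pCore_L (n : ℕ) : pCore 2 (L n) = ⊥ := by
  haveI : Fact (Nat.Prime 2) := ⟨Nat.prime_two⟩
  rw [eq_bot_iff]
  intro r hr
  rcases Nat.eq_zero_or_pos n with rfl | hn
  · exact Subsingleton.elim (α := L 0) _ _
  set R := pCore 2 (L n)
  have hR : IsPGroup 2 R := H1.pCore_isPGroup 2 _
  obtain ⟨v, hv, hv0⟩ := hR.exists_fixed_point_of_prime_dvd_card_of_fixed_point (Fin n → F)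
    (by simp; exact hn.ne') (a := 0) (fun g => smul_zero g)
  let Fx : (Fin n → F) → Prop := fun w => ∀ x ∈ R, (x : Matrix (Fin n) (Fin n) F) *ᵥ w = w
  have hFv : Fx v := fun x hx => hv ⟨x, hx⟩
  have hFg : ∀ (g : L n) w, Fx w → Fx ((g : Matrix (Fin n) (Fin n) F) *ᵥ w) := by
    intro g w hw x hx
    have := hw _ ((H1.instPCoreNormal 2 (L n)).conj_mem' x hx g)
    conv_rhs => rw [← this]
    rw [mulVec_mulVec, mulVec_mulVec, ← Units.val_mul, ← Units.val_mul]
    congr 2; group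
  obtain ⟨j, hj⟩ : ∃ j, v j ≠ 0 := by
    by_contra h; push Not at h; exact hv0 (funext h).symm
  have hj1 : v j = 1 := (F_cases _).resolve_left hj
  have hsub : ∀ u w, Fx u → Fx w → Fx (u - w) := fun u w hu hw x hx => by
    rw [mulVec_sub, hu x hx, hw x hx]
  have he : ∀ i, i ≠ j → Fx (Pi.single i 1) := by
    intro i hi
    have := hsub _ _ (hFg (Matrix.GeneralLinearGroup.mkOfDetNeZero (transvection i j 1)
      (by rw [det_transvection_of_ne i j hi]; exact one_ne_zero)) v hFv) hFv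
    convert this using 1
    ext l
    simp [transvection, add_mulVec, single_mulVec, hj1, Pi.single_apply, Function.update_apply]
  have hall : ∀ i, Fx (Pi.single i 1) := by
    intro i
    by_cases hi : i = j
    · subst hi
      have e : (Pi.single i 1 : Fin n → F) = v - ∑ l ∈ Finset.univ.erase i, v l • Pi.single l 1 := by
        ext l
        by_cases hl : l = i
        · subst hl; simp [Finset.sum_apply, Pi.single_apply, hj1]
        · simp [Finset.sum_apply, Pi.single_apply, hl]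
      rw [e]
      refine hsub _ _ hFv fun x hx => ?_
      rw [mulVec_sum]
      refine Finset.sum_congr rfl fun l hl => ?_
      rw [mulVec_smul, he l (Finset.mem_erase.1 hl).1 x hx]
    · exact he i hi
  rw [Subgroup.mem_bot]
  ext i l
  have := congrFun (hall l r hr) i
  simpa [Pi.single_apply, one_apply] using this

/-- The group `2^(1+2n):GL_n(2)`. -/
@[ext] structure D (n : ℕ) where
  c : F
  a : Fin n → F
  b : Fin n → F
  k : L n

variable {n : ℕ}

instance instMulD : Mul (D n) := ⟨fun x y =>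
  ⟨x.c + y.c + x.a ⬝ᵥ y.b, y.a + x.a ᵥ* y.k.1, x.b + x.k.1 *ᵥ y.b, x.k * y.k⟩⟩
instance instOneD : One (D n) := ⟨⟨0, 0, 0, 1⟩⟩
instance instInvD : Inv (D n) := ⟨fun x =>
  ⟨-x.c + (x.a ᵥ* x.k⁻¹.1) ⬝ᵥ x.b, -(x.a ᵥ* x.k⁻¹.1), -(x.k⁻¹.1 *ᵥ x.b), x.k⁻¹⟩⟩

@[simp] theorem mul_c (x y : D n) : (x * y).c = x.c + y.c + x.a ⬝ᵥ y.b := rfl
@[simp] theorem mul_a (x y : D n) : (x * y).a = y.a + x.a ᵥ* y.k.1 := rfl
@[simp] theorem mul_b (x y : D n) : (x * y).b = x.b + x.k.1 *ᵥ y.b := rfl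
@[simp] theorem mul_k (x y : D n) : (x * y).k = x.k * y.k := rfl
@[simp] theorem one_c : (1 : D n).c = 0 := rfl
@[simp] theorem one_a : (1 : D n).a = 0 := rfl
@[simp] theorem one_b : (1 : D n).b = 0 := rfl
@[simp] theorem one_k : (1 : D n).k = 1 := rfl

instance instGroupD : Group (D n) := Group.ofLeftAxioms
  (fun x y z => D.ext
    (by simp only [mul_c, mul_a, mul_b, add_dotProduct, dotProduct_add, dotProduct_mulVec]; ring)
    (by simp only [mul_a, mul_k, add_vecMul, vecMul_vecMul, Units.val_mul, add_assoc])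
    (by simp only [mul_b, mul_k, mulVec_add, mulVec_mulVec, Units.val_mul, add_assoc])
    (mul_assoc _ _ _))
  (fun x => D.ext (by simp) (by simp) (by simp) (one_mul _))
  (fun x => D.ext
    (by show -x.c + (x.a ᵥ* x.k⁻¹.1) ⬝ᵥ x.b + x.c + -(x.a ᵥ* x.k⁻¹.1) ⬝ᵥ x.b = 0
        rw [neg_dotProduct]; ring)
    (by show x.a + -(x.a ᵥ* x.k⁻¹.1) ᵥ* x.k.1 = 0
        rw [neg_vecMul, vecMul_vecMul, ← Units.val_mul, inv_mul_cancel, Units.val_one, vecMul_one,
          add_neg_cancel])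
    (by show -(x.k⁻¹.1 *ᵥ x.b) + x.k⁻¹.1 *ᵥ x.b = 0
        rw [neg_add_cancel])
    (inv_mul_cancel _))

theorem inv_a (x : D n) : x⁻¹.a = -(x.a ᵥ* x.k⁻¹.1) := rfl
theorem inv_b (x : D n) : x⁻¹.b = -(x.k⁻¹.1 *ᵥ x.b) := rfl
theorem inv_k (x : D n) : x⁻¹.k = x.k⁻¹ := rfl

instance instFiniteD : Finite (D n) :=
  Finite.of_injective (fun x : D n => (x.c, x.a, x.b, x.k)) fun x y h => by
    simp only [Prod.mk.injEq] at h
    exact D.ext h.1 h.2.1 h.2.2.1 h.2.2.2

/-- projection to the Levi factor -/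
def pr : D n →* L n where
  toFun x := x.k
  map_one' := rfl
  map_mul' _ _ := rfl

/-- the Levi factor -/
def sec : L n →* D n where
  toFun k := ⟨0, 0, 0, k⟩
  map_one' := rfl
  map_mul' _ _ := D.ext (by simp) (by simp) (by simp) rfl

/-- the central involution -/
def z0 : D n := ⟨1, 0, 0, 1⟩

theorem z0_ne : (z0 : D n) ≠ 1 := fun h => one_ne_zero (congrArg D.c h)

theorem z0_comm (x : D n) : x * z0 = z0 * x :=
  D.ext (by simp [z0, add_comm]) (by simp [z0]) (by simp [z0]) (by simp [z0])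

theorem z0_sq : (z0 : D n) * z0 = 1 :=
  D.ext (by simp [z0, F_add_self]) (by simp [z0]) (by simp [z0]) (by simp [z0])

theorem one_or (x : D n) (ha : x.a = 0) (hb : x.b = 0) (hk : x.k = 1) : x = 1 ∨ x = z0 :=
  (F_cases x.c).imp (fun h => D.ext h ha hb hk) (fun h => D.ext h ha hb hk)

theorem cent (d : D n) (h : ∀ q : D n, q.k = 1 → d * q = q * d) : d = 1 ∨ d = z0 := by
  refine one_or d ?_ ?_ ?_
  · ext i
    have := congrArg D.c (h ⟨0, 0, Pi.single i 1, 1⟩ rfl)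
    simpa using this
  · ext i
    have := congrArg D.c (h ⟨0, Pi.single i 1, 0, 1⟩ rfl)
    simpa using this.symm
  · ext i j
    have := congrFun (congrArg D.b (h ⟨0, 0, Pi.single j 1, 1⟩ rfl)) i
    simp only [mul_b, Units.val_one, one_mulVec, Pi.add_apply, add_comm (d.b i), add_left_inj] at this
    simpa [Pi.single_apply, one_apply] using this

theorem comm_or (x y : D n) (hx : x.k = 1) (hy : y.k = 1) : ⁅x, y⁆ = 1 ∨ ⁅x, y⁆ = z0 := by
  refine one_or _ ?_ ?_ ?_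
  · simp [commutatorElement_def, inv_a, inv_k, hx, hy]
  · simp [commutatorElement_def, inv_b, inv_k, hx, hy]
  · simp [commutatorElement_def, inv_k, hx, hy]

theorem sq_or (x : D n) (hx : x.k = 1) : x ^ 2 = 1 ∨ x ^ 2 = z0 := by
  rw [pow_two]
  refine one_or _ ?_ ?_ ?_
  · ext i; simp [hx, F_add_self]
  · ext i; simp [hx, F_add_self]
  · simp [hx]

theorem card_ker : Nat.card (pr : D n →* L n).ker = 2 ^ (2 * n + 1) := by
  have : Nat.card (pr : D n →* L n).ker = Nat.card (F × (Fin n → F) × (Fin n → F)) :=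
    Nat.card_congr ⟨fun x => (x.1.c, x.1.a, x.1.b), fun t => ⟨⟨t.1, t.2.1, t.2.2, 1⟩, rfl⟩,
      fun x => Subtype.ext (D.ext rfl rfl rfl (show x.1.k = 1 from x.2).symm), fun _ => rfl⟩
  rw [this]; simp; ring

theorem ker_pgroup : IsPGroup 2 (pr : D n →* L n).ker := IsPGroup.of_card card_ker

theorem pCore_D : pCore 2 (D n) = (pr : D n →* L n).ker := by
  refine le_antisymm (fun x hx => ?_) (H1.le_pCore ker_pgroup)
  have := H1.map_pCore_le (p := 2) (f := (pr : D n →* L n)) (fun k => ⟨sec k, rfl⟩) ⟨x, hx, rfl⟩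
  rw [pCore_L] at this
  exact this

/-- the elementary abelian subgroup -/
def E (n : ℕ) : Subgroup (D n) where
  carrier := {x | x.a = 0 ∧ x.k = 1}
  mul_mem' hx hy := ⟨by simp [hx.1, hy.1], by simp [hx.2, hy.2]⟩
  one_mem' := ⟨rfl, rfl⟩
  inv_mem' hx := ⟨by simp [inv_a, hx.1], by simp [inv_k, hx.2]⟩

theorem card_E : Nat.card (E n) = 2 ^ (n + 1) := by
  have : Nat.card (E n) = Nat.card (F × (Fin n → F)) :=
    Nat.card_congr ⟨fun x => (x.1.c, x.1.b), fun t => ⟨⟨t.1, 0, t.2, 1⟩, rfl, rfl⟩,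
      fun x => Subtype.ext (D.ext rfl x.2.1.symm rfl x.2.2.symm), fun _ => rfl⟩
  rw [this]; simp; ring

theorem E_comm {x y : D n} (hx : x ∈ E n) (hy : y ∈ E n) : x * y = y * x :=
  D.ext (by simp [hx.1, hy.1, add_comm]) (by simp [hx.1, hy.1]) (by simp [hx.2, hy.2, add_comm])
    (by simp [hx.2, hy.2])

theorem E_sq {x : D n} (hx : x ∈ E n) : x ^ 2 = 1 := by
  rw [pow_two]
  exact D.ext (by simp [hx.1, F_add_self]) (by simp [hx.1]) (by ext i; simp [hx.2, F_add_self])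
    (by simp [hx.2])

variable {G : Type*} [Group G]

theorem map_pCore (ι : D n →* G) (hι : Function.Injective ι) (C : Subgroup G) (hC : ι.range = C) :
    (pCore 2 C).map C.subtype = (pr : D n →* L n).ker.map ι := by
  subst hC
  rw [← pCore_D, ← H1.map_pCore_equiv (MonoidHom.ofInjective hι), Subgroup.map_map]
  rfl

theorem transfer [Finite G] (hn : 1 ≤ n) (ι : D n →* G) (hι : Function.Injective ι) (C : Subgroup G)
    (hC : ι.range = C) (hz : ∀ g, g * ι z0 = ι z0 * g → g ∈ C) (Q : Subgroup G)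
    (hQ : Q = (pCore 2 C).map C.subtype)
    (hodd : ∀ K : Subgroup G, Odd (Nat.card K) →
      (∀ q : D n, q.k = 1 → ι q ∈ Subgroup.normalizer (K : Set G)) → K ≤ C) :
    IsExtraspecial 2 Q ∧ Nat.card Q = 2 ^ (2 * n + 1) ∧
      (∃ E : Subgroup G, E ≤ Q ∧ IsElementaryAbelian 2 E ∧ Nat.card E = 2 ^ (n + 1)) ∧
      IsLargeExtraspecial Q ∧
      ∃ K : Subgroup G, K ≤ C ∧ Q ⊓ K = ⊥ ∧ Q ⊔ K = C ∧ Nonempty (K ≃* L n) := by
  haveI : Fact (Nat.Prime 2) := ⟨Nat.prime_two⟩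
  rw [map_pCore ι hι C hC] at hQ
  have hmem : ∀ g, g ∈ Q ↔ ∃ q : D n, q.k = 1 ∧ ι q = g := fun g => by rw [hQ]; rfl
  have hcard : Nat.card Q = 2 ^ (2 * n + 1) := by
    rw [hQ, Subgroup.card_map_of_injective hι, card_ker]
  have hP : IsPGroup 2 Q := IsPGroup.of_card hcard
  let z : Q := ⟨ι z0, (hmem _).2 ⟨z0, rfl, rfl⟩⟩
  have hz1 : z ≠ 1 := fun h => z0_ne (hι ((congrArg Subtype.val h).trans (map_one ι).symm))
  have hcent : ∀ g : G, (∀ q ∈ Q, q * g = g * q) → g = 1 ∨ g = ι z0 := by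
    intro g hg
    obtain ⟨d, rfl⟩ : g ∈ ι.range := hC ▸ hz g (hg _ z.2).symm
    refine (cent d fun q hq => hι ?_).imp (fun h => by rw [h, map_one]) (fun h => by rw [h])
    rw [map_mul, map_mul]; exact (hg _ ((hmem _).2 ⟨q, hq, rfl⟩)).symm
  have hzc : ∀ g ∈ C, g * ι z0 = ι z0 * g := by
    rw [← hC]; rintro _ ⟨d, rfl⟩; rw [← map_mul, ← map_mul, z0_comm]
  have hQC : Q ≤ C := by
    rw [← hC]; intro g hg; obtain ⟨q, -, rfl⟩ := (hmem g).1 hg; exact ⟨q, rfl⟩
  have hcen : ∀ x : Q, x ∈ Subgroup.center Q ↔ x = 1 ∨ x = z := by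
    intro x
    constructor
    · intro hx
      exact (hcent x fun q hq => congrArg Subtype.val (Subgroup.mem_center_iff.1 hx ⟨q, hq⟩)).imp
        Subtype.ext Subtype.ext
    · rintro (rfl | rfl)
      · exact Subgroup.one_mem _
      · exact Subgroup.mem_center_iff.2 fun q => Subtype.ext (hzc _ (hQC q.2))
  have hcZ : Nat.card (Subgroup.center Q) = 2 := by
    rw [Nat.card_eq_two_iff' (1 : Subgroup.center Q)]
    refine ⟨⟨z, (hcen z).2 (Or.inr rfl)⟩, fun h => hz1 (congrArg Subtype.val h), fun y hy => ?_⟩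
    exact Subtype.ext (((hcen y).1 y.2).resolve_left fun h => hy (Subtype.ext h))
  have hcomm : commutator Q ≤ Subgroup.center Q := by
    rw [commutator_def, Subgroup.commutator_le]
    rintro ⟨x, hx⟩ - ⟨y, hy⟩ -
    obtain ⟨x, hx', rfl⟩ := (hmem x).1 hx
    obtain ⟨y, hy', rfl⟩ := (hmem y).1 hy
    refine (hcen _).2 ((comm_or x y hx' hy').imp (fun h => Subtype.ext ?_) (fun h => Subtype.ext ?_))
    · show ⁅ι x, ι y⁆ = 1
      rw [← map_commutatorElement, h, map_one]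
    · show ⁅ι x, ι y⁆ = ι z0
      rw [← map_commutatorElement, h]
  have hcomm' : Subgroup.center Q ≤ commutator Q := by
    intro x hx
    rcases (hcen x).1 hx with rfl | rfl
    · exact Subgroup.one_mem _
    · let i : Fin n := ⟨0, hn⟩
      let x : D n := ⟨0, Pi.single i 1, 0, 1⟩
      let y : D n := ⟨0, 0, Pi.single i 1, 1⟩
      have h : ⁅x, y⁆ = z0 := (comm_or x y rfl rfl).resolve_left fun h => by
        have := congrArg D.c (commutatorElement_eq_one_iff_mul_comm.1 h)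
        simp [x, y] at this
      have : z = ⁅(⟨ι x, (hmem _).2 ⟨x, rfl, rfl⟩⟩ : Q), (⟨ι y, (hmem _).2 ⟨y, rfl, rfl⟩⟩ : Q)⁆ :=
        Subtype.ext (by show ι z0 = ⁅ι x, ι y⁆; rw [← map_commutatorElement, h])
      rw [this]
      exact Subgroup.commutator_mem_commutator (Subgroup.mem_top _) (Subgroup.mem_top _)
  have hXS : IsExtraspecial 2 Q := by
    refine ⟨⟨hP, le_antisymm ((H3.frattini_le_iff hP).2 ⟨hcomm, ?_⟩)
      (hcomm'.trans (H3.commutator_le_frattini hP)), le_antisymm hcomm hcomm'⟩, hcZ⟩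
    rintro ⟨x, hx⟩
    obtain ⟨x, hx', rfl⟩ := (hmem x).1 hx
    refine (hcen _).2 ((sq_or x hx').imp (fun h => Subtype.ext ?_) (fun h => Subtype.ext ?_))
    · show ι x ^ 2 = 1
      rw [← map_pow, h, map_one]
    · show ι x ^ 2 = ι z0
      rw [← map_pow, h]
  have hCN : C ≤ Subgroup.normalizer (Q : Set G) := by
    have key : ∀ g ∈ C, ∀ q ∈ Q, g * q * g⁻¹ ∈ Q := by
      rw [← hC]
      rintro _ ⟨d, rfl⟩ q hq
      obtain ⟨q, hq', rfl⟩ := (hmem q).1 hq
      exact (hmem _).2 ⟨d * q * d⁻¹, by simp [hq', inv_k], by simp⟩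
    intro g hg
    refine Subgroup.mem_normalizer_iff.2 fun q => ⟨key g hg q, fun h => ?_⟩
    simpa [mul_assoc] using key g⁻¹ (C.inv_mem hg) _ h
  have hcoprime : ∀ K : Subgroup G, Odd (Nat.card K) → ∀ g ∈ K, g ∈ Q → g = 1 := by
    intro K hK g h1 h2
    have a1 : orderOf g ∣ Nat.card K := K.orderOf_dvd_natCard h1
    have a2 : orderOf g ∣ 2 ^ (2 * n + 1) := hcard ▸ Q.orderOf_dvd_natCard h2
    exact orderOf_eq_one_iff.1 (Nat.eq_one_of_dvd_coprimes
      ((Nat.Coprime.pow_right _ (Nat.coprime_two_right.2 hK))) a1 a2)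
  refine ⟨hXS, hcard, ⟨(E n).map ι, ?_, ⟨⟨⟨?_⟩⟩, ?_⟩, ?_⟩, ⟨hXS, le_antisymm ?_ ?_, ?_, ?_⟩,
    (ι.comp sec).range, ?_, ?_, le_antisymm (sup_le hQC ?_) ?_, ?_⟩
  · rintro _ ⟨x, hx, rfl⟩; exact (hmem _).2 ⟨x, hx.2, rfl⟩
  · rintro ⟨_, x, hx, rfl⟩ ⟨_, y, hy, rfl⟩
    exact Subtype.ext (by show ι x * ι y = ι y * ι x; rw [← map_mul, ← map_mul, E_comm hx hy])
  · rintro _ ⟨x, hx, rfl⟩; rw [← map_pow, E_sq hx, map_one]
  · rw [Subgroup.card_map_of_injective hι, card_E]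
  · intro g hg
    rcases hcent g (fun q hq => Subgroup.mem_centralizer_iff.1 hg q hq) with rfl | rfl
    · exact Subgroup.one_mem _
    · exact ⟨z, (hcen z).2 (Or.inr rfl), rfl⟩
  · rintro _ ⟨x, hx, rfl⟩
    exact Subgroup.mem_centralizer_iff.2 fun q hq =>
      congrArg Subtype.val (Subgroup.mem_center_iff.1 hx ⟨q, hq⟩)
  · intro g hg
    exact hCN (hz g (Subgroup.mem_centralizer_iff.1 hg _ ⟨z, (hcen z).2 (Or.inr rfl), rfl⟩).symm)
  · intro K hK hQK
    have hKC := hodd K hK fun q hq => hQK ((hmem _).2 ⟨q, hq, rfl⟩)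
    rw [eq_bot_iff]
    intro g hg
    have : ∀ q ∈ Q, q * g = g * q := by
      intro q hq
      have h1 : q * g * q⁻¹ * g⁻¹ ∈ K :=
        K.mul_mem ((Subgroup.mem_normalizer_iff.1 (hQK hq) g).1 hg) (K.inv_mem hg)
      have h2 : q * g * q⁻¹ * g⁻¹ ∈ Q := by
        have := (Subgroup.mem_normalizer_iff.1 (hCN (hKC hg)) q⁻¹).1 (Q.inv_mem hq)
        simpa [mul_assoc] using Q.mul_mem hq this
      have := hcoprime K hK _ h1 h2
      exact commutatorElement_eq_one_iff_mul_comm.1 this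
    rcases hcent g this with rfl | rfl
    · exact Subgroup.one_mem _
    · exact hcoprime K hK _ hg z.2
  · rw [← hC]; rintro _ ⟨k, rfl⟩; exact ⟨sec k, rfl⟩
  · rw [eq_bot_iff]
    rintro _ ⟨hq, k, rfl⟩
    obtain ⟨q, hq', e⟩ := (hmem _).1 hq
    have : q = sec k := hι e
    have hk : k = 1 := by rw [this] at hq'; exact hq'
    rw [hk, map_one]; exact Subgroup.one_mem _
  · rw [← hC]; rintro _ ⟨k, rfl⟩; exact ⟨sec k, rfl⟩
  · rw [← hC]
    rintro _ ⟨d, rfl⟩
    have : ι d = ι (d * (sec d.k)⁻¹) * ι (sec d.k) := by rw [← map_mul, inv_mul_cancel_right]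
    rw [this]
    exact Subgroup.mul_mem_sup ((hmem _).2 ⟨_, by simp [inv_k, sec], rfl⟩) ⟨d.k, rfl⟩
  · exact ⟨(MonoidHom.ofInjective (f := ι.comp sec) (hι.comp fun a b h => congrArg D.k h)).symm⟩

end Tv
end H2
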