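import Cfsg.Agent.H2.Tv

/-! The embedding `H2.Tv.io : D n →* SL_{n+2}(2)` onto the centraliser of a transvection. -/

set_option autoImplicit false
set_option linter.unusedSimpArgs false

namespace H2
namespace Tv

open Matrix Cfsg

variable {n : ℕ}

/-- block matrix of an element -/
def mt (c : F) (a b : Fin n → F) (k : Matrix (Fin n) (Fin n) F) :
    Matrix (Fin (n + 2)) (Fin (n + 2)) F :=
  Matrix.of (vecCons (vecCons 1 (vecCons c a)) (vecCons (vecCons 0 (vecCons 1 0))
    fun i => vecCons 0 (vecCons (b i) (k i))))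

theorem fin_cases2 {p : Fin (n + 2) → Prop} (h0 : p 0) (h1 : p (Fin.succ 0))
    (h2 : ∀ i : Fin n, p i.succ.succ) : ∀ i, p i :=
  Fin.cases h0 (Fin.cases h1 h2)

theorem mt_mul (c c' : F) (a a' b b' : Fin n → F) (k k' : Matrix (Fin n) (Fin n) F) :
    mt c a b k * mt c' a' b' k' =
      mt (c + c' + a ⬝ᵥ b') (a' + a ᵥ* k') (b + k *ᵥ b') (k * k') := by
  ext i j
  induction i using fin_cases2 <;> induction j using fin_cases2 <;>
    simp only [mt, mul_apply, Fin.sum_univ_succ, of_apply, cons_val_zero, cons_val_succ,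
      dotProduct, vecMul, mulVec, Pi.add_apply, Pi.zero_apply] <;> simp [add_comm, add_assoc, add_left_comm]

theorem mt_one : mt 0 0 0 (1 : Matrix (Fin n) (Fin n) F) = 1 := by
  ext i j
  induction i using fin_cases2 <;> induction j using fin_cases2 <;>
    simp only [mt, of_apply, cons_val_zero, cons_val_succ, one_apply, Fin.succ_inj,
      Fin.succ_ne_zero, (Fin.succ_ne_zero _).symm, Pi.zero_apply, if_true, if_false]

theorem mt_inj {c c' : F} {a a' b b' : Fin n → F} {k k' : Matrix (Fin n) (Fin n) F}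
    (h : mt c a b k = mt c' a' b' k') : c = c' ∧ a = a' ∧ b = b' ∧ k = k' :=
  ⟨congrFun (congrFun h 0) (Fin.succ 0), funext fun j => congrFun (congrFun h 0) j.succ.succ,
    funext fun i => congrFun (congrFun h i.succ.succ) (Fin.succ 0),
    Matrix.ext fun i j => congrFun (congrFun h i.succ.succ) j.succ.succ⟩

theorem mt_z : mt 1 0 0 (1 : Matrix (Fin n) (Fin n) F) = transvection 0 1 1 := by
  ext i j
  rw [← Fin.succ_zero_eq_one]
  induction i using fin_cases2 <;> induction j using fin_cases2 <;>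
    simp only [mt, of_apply, cons_val_zero, cons_val_succ, one_apply, Fin.succ_inj, transvection,
      Matrix.add_apply, single_apply, Fin.succ_ne_zero, (Fin.succ_ne_zero _).symm, Pi.zero_apply, if_true,
      if_false, and_true, and_false, true_and, false_and, add_zero, zero_add]

/-- the matrix of an element -/
def mat : D n →* Matrix (Fin (n + 2)) (Fin (n + 2)) F where
  toFun d := mt d.c d.a d.b d.k.1
  map_one' := mt_one
  map_mul' _ _ := (mt_mul _ _ _ _ _ _ _ _).symm

theorem det_eq_one {m : ℕ} {A B : Matrix (Fin m) (Fin m) F} (h : A * B = 1) : A.det = 1 := by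
  refine (F_cases _).resolve_left fun h0 => ?_
  have := congrArg det h
  rw [det_mul, h0, zero_mul, det_one] at this
  exact zero_ne_one this

/-- the embedding -/
def io : D n →* SpecialLinearGroup (Fin (n + 2)) F where
  toFun d := ⟨mat d, det_eq_one (B := mat d⁻¹) (by rw [← map_mul, mul_inv_cancel, map_one])⟩
  map_one' := Subtype.ext (map_one mat)
  map_mul' x y := Subtype.ext (map_mul mat x y)

theorem io_inj : Function.Injective (io : D n →* _) := fun _ _ h => by
  obtain ⟨h1, h2, h3, h4⟩ := mt_inj (congrArg Subtype.val h)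
  exact D.ext h1 h2 h3 (Units.ext h4)

theorem io_z0 : (io (z0 : D n)).1 = transvection 0 1 1 := mt_z

theorem eq_mt (g : Matrix (Fin (n + 2)) (Fin (n + 2)) F) (h0 : ∀ i, g i 0 = if i = 0 then 1 else 0)
    (h1 : ∀ j, g (Fin.succ 0) j = if j = Fin.succ 0 then 1 else 0) :
    g = mt (g 0 (Fin.succ 0)) (fun j => g 0 j.succ.succ) (fun i => g i.succ.succ (Fin.succ 0))
      (Matrix.of fun i j => g i.succ.succ j.succ.succ) := by
  ext i j
  induction i using fin_cases2 <;> induction j using fin_cases2 <;>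
    simp only [mt, of_apply, cons_val_zero, cons_val_succ, h0, h1, Fin.succ_inj,
      Fin.succ_ne_zero, (Fin.succ_ne_zero _).symm, Pi.zero_apply, if_true, if_false]

theorem col_of_inv {m : ℕ} {g g' : Matrix (Fin m) (Fin m) F} (h : g' * g = 1) (i : Fin m)
    (h0 : ∀ j, g j i = if j = i then 1 else 0) (j : Fin m) : g' j i = if j = i then 1 else 0 := by
  have := congrFun (congrFun h j) i
  simpa [mul_apply, h0, one_apply] using this

theorem row_of_inv {m : ℕ} {g g' : Matrix (Fin m) (Fin m) F} (h : g * g' = 1) (i : Fin m)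
    (h0 : ∀ j, g i j = if j = i then 1 else 0) (j : Fin m) : g' i j = if j = i then 1 else 0 := by
  have := congrFun (congrFun h i) j
  simpa [mul_apply, h0, one_apply, eq_comm] using this

theorem mem_range_io (g : SpecialLinearGroup (Fin (n + 2)) F)
    (h0 : ∀ i, g.1 i 0 = if i = 0 then 1 else 0)
    (h1 : ∀ j, g.1 (Fin.succ 0) j = if j = Fin.succ 0 then 1 else 0) : g ∈ (io : D n →* _).range := by
  have e1 : g⁻¹.1 * g.1 = 1 := congrArg Subtype.val (inv_mul_cancel g)
  have e2 : g.1 * g⁻¹.1 = 1 := congrArg Subtype.val (mul_inv_cancel g)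
  have a1 := eq_mt g.1 h0 h1
  have a2 := eq_mt g⁻¹.1 (col_of_inv e1 0 h0) (row_of_inv e2 _ h1)
  have b1 := e1
  have b2 := e2
  rw [a1, a2, mt_mul, ← mt_one] at b1 b2
  exact ⟨⟨_, _, _, ⟨_, _, (mt_inj b2).2.2.2, (mt_inj b1).2.2.2⟩⟩, Subtype.ext a1.symm⟩

theorem mem_of_comm (g : SpecialLinearGroup (Fin (n + 2)) F) (h : g * io z0 = io z0 * g) :
    g ∈ (io : D n →* _).range := by
  have e : g.1 * transvection 0 1 1 = transvection 0 1 1 * g.1 := by
    rw [← io_z0]; exact congrArg Subtype.val h
  rw [transvection, mul_add, add_mul, mul_one, one_mul, add_right_inj] at e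
  have e' : ∀ i j, (if j = 1 then g.1 i 0 else 0) = if i = 0 then g.1 1 j else 0 := by
    intro i j
    have := congrFun (congrFun e i) j
    simpa [mul_apply, single_apply, ite_and, eq_comm] using this
  have c0 : ∀ i, i ≠ 0 → g.1 i 0 = 0 := fun i hi => by simpa [hi] using e' i 1
  have r1 : ∀ j, j ≠ 1 → g.1 1 j = 0 := fun j hj => by simpa [hj] using (e' 0 j).symm
  have d0 : g.1 0 0 = 1 := by
    refine (F_cases _).resolve_left fun h0 => ?_
    have := det_eq_zero_of_column_eq_zero (A := g.1) 0 (fun i => by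
      by_cases hi : i = 0
      · rw [hi, h0]
      · exact c0 i hi)
    rw [g.2] at this; exact one_ne_zero this
  have d1 : g.1 1 1 = 1 := by simpa [d0] using (e' 0 1).symm
  refine mem_range_io g (fun i => ?_) (fun j => ?_)
  · split_ifs with hi
    · rw [hi, d0]
    · exact c0 i hi
  · rw [Fin.succ_zero_eq_one]
    split_ifs with hj
    · rw [hj, d1]
    · exact r1 j hj

theorem range_io (z : SpecialLinearGroup (Fin (n + 2)) F) (hz : z.1 = transvection 0 1 1) :
    io z0 = z ∧ (io : D n →* _).range = Subgroup.centralizer {z} := by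
  have e : io z0 = z := Subtype.ext (io_z0.trans hz.symm)
  refine ⟨e, le_antisymm ?_ fun g hg => mem_of_comm g ?_⟩
  · rintro _ ⟨d, rfl⟩
    rw [Subgroup.mem_centralizer_singleton_iff, ← e, ← map_mul, ← map_mul, z0_comm]
  · rw [e]; exact Subgroup.mem_centralizer_singleton_iff.1 hg

theorem nil4 {R : Type*} [Ring R] (N M : R) (h2 : ∀ x : R, x + x = 0) (h1 : N * N = 0)
    (h3 : M * M = 0) (h4 : N * M = 0) : ((1 + N) * (1 + M)) ^ 4 = 1 := by
  have e1 : (1 + N) * (1 + M) = 1 + N + M := by rw [add_mul, mul_add, mul_add, h4]; simp; abel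
  have e2 : (1 + N + M) * (1 + N + M) = 1 + M * N := by
    simp only [add_mul, mul_add, h1, h3, h4, one_mul, mul_one]
    calc _ = 1 + M * N + (N + N) + (M + M) := by abel
      _ = _ := by rw [h2, h2]; simp
  have e3 : (1 + M * N) * (1 + M * N) = 1 := by
    simp only [add_mul, mul_add, one_mul, mul_one]
    rw [mul_assoc, ← mul_assoc N, h4, zero_mul, mul_zero, add_zero, add_assoc, h2, add_zero]
  rw [e1, show (4 : ℕ) = 2 * 2 from rfl, pow_mul, pow_two, pow_two, e2, e3]

theorem exists_perp (hn : 1 ≤ n) (i0 : Fin (n + 2)) (w : Fin (n + 2) → F) :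
    ∃ φ : Fin (n + 2) → F, φ ≠ 0 ∧ φ i0 = 0 ∧ φ ⬝ᵥ w = 0 := by
  obtain ⟨j, hj, l, hl, hjl⟩ : ∃ j ∈ Finset.univ.erase i0, ∃ l ∈ Finset.univ.erase i0, j ≠ l :=
    Finset.one_lt_card.1 (by simp; omega)
  have hj' := (Finset.mem_erase.1 hj).1
  have hl' := (Finset.mem_erase.1 hl).1
  rcases F_cases (w j) with h | h
  · exact ⟨Pi.single j 1, fun e => by simpa using congrFun e j, by simp [hj'.symm], by simp [h]⟩
  rcases F_cases (w l) with h' | h'
  · exact ⟨Pi.single l 1, fun e => by simpa using congrFun e l, by simp [hl'.symm], by simp [h']⟩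
  exact ⟨Pi.single j 1 + Pi.single l 1, fun e => by simpa [hjl] using congrFun e j,
    by simp [hj'.symm, hl'.symm], by simp [h, h', F_add_self]⟩

theorem eq_of_odd {G : Type*} [Group G] {K : Subgroup G} [Finite K] (hK : Odd (Nat.card K)) {g : G}
    (hg : g ∈ K) (h : g ^ 4 = 1) : g = 1 :=
  orderOf_eq_one_iff.1 (Nat.eq_one_of_dvd_coprimes
    ((Nat.Coprime.pow_right 2 (Nat.coprime_two_right.2 hK))) (K.orderOf_dvd_natCard hg)
    (orderOf_dvd_of_pow_eq_one h))

theorem mat_add_self {m : ℕ} (x : Matrix (Fin m) (Fin m) F) : x + x = 0 := by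
  ext i j; exact F_add_self _

/-- a rank one perturbation normalising an odd order subgroup commutes with `k` when the nilpotency
condition holds -/
theorem comm_of_odd {m : ℕ} {K : Subgroup (SpecialLinearGroup (Fin m) F)} (hK : Odd (Nat.card K))
    {t k : SpecialLinearGroup (Fin m) F} (ht : t ∈ Subgroup.normalizer (K : Set _)) (hk : k ∈ K)
    (N : Matrix (Fin m) (Fin m) F) (htN : t.1 = 1 + N) (h1 : N * N = 0) (h2 : N * k.1 * N = 0) :
    k.1 * N = N * k.1 := by
  have e1 : k⁻¹.1 * k.1 = 1 := congrArg Subtype.val (inv_mul_cancel k)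
  have e2 : k.1 * k⁻¹.1 = 1 := congrArg Subtype.val (mul_inv_cancel k)
  have htt : t * t = 1 := Subtype.ext (by
    show t.1 * t.1 = 1
    rw [htN, add_mul, mul_add, mul_add, h1]; simp [add_assoc, mat_add_self])
  have hti : t⁻¹ = t := inv_eq_of_mul_eq_one_right htt
  have hm : t * (k * t * k⁻¹) ∈ K := by
    have := K.mul_mem ((Subgroup.mem_normalizer_iff.1 ht k).1 hk) (K.inv_mem hk)
    rw [hti] at this
    simpa [mul_assoc] using this
  have hv : (k * t * k⁻¹).1 = 1 + k.1 * N * k⁻¹.1 := by
    show k.1 * t.1 * k⁻¹.1 = _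
    rw [htN, mul_add, add_mul, mul_one, e2]
  have h4 : (t * (k * t * k⁻¹)) ^ 4 = 1 := Subtype.ext (by
    refine (Matrix.SpecialLinearGroup.coe_pow _ 4).trans ?_
    show (t.1 * (k * t * k⁻¹).1) ^ 4 = 1
    rw [hv, htN]
    refine nil4 _ _ mat_add_self h1 ?_ ?_
    · calc _ = k.1 * N * (k⁻¹.1 * k.1) * N * k⁻¹.1 := by simp only [mul_assoc]
        _ = 0 := by rw [e1, mul_one, mul_assoc k.1, h1]; simp
    · rw [← mul_assoc, ← mul_assoc, h2, zero_mul])
  have h5 := eq_of_odd hK hm h4
  have h6 : k * t = t * k := by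
    have : k * t * k⁻¹ = t := (eq_inv_of_mul_eq_one_right h5).trans hti
    rw [← mul_inv_eq_iff_eq_mul, this]
  have h7 : k.1 * t.1 = t.1 * k.1 := congrArg Subtype.val h6
  rwa [htN, mul_add, add_mul, mul_one, one_mul, add_right_inj] at h7

theorem odd_le (hn : 1 ≤ n) (K : Subgroup (SpecialLinearGroup (Fin (n + 2)) F))
    (hK : Odd (Nat.card K))
    (hQ : ∀ q : D n, q.k = 1 → io q ∈ Subgroup.normalizer (K : Set _)) :
    K ≤ (io : D n →* _).range := by
  intro k hk
  refine mem_range_io k ?_ ?_
  · obtain ⟨φ, hφ, h0, hw⟩ := exists_perp hn 0 (fun i => k.1 i 0)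
    have := comm_of_odd hK (hQ ⟨φ (Fin.succ 0), fun j => φ j.succ.succ, 0, 1⟩ rfl) hk
      (vecMulVec (Pi.single 0 1) φ) (by
        show mt _ _ _ _ = _
        rw [← mt_one]
        ext i j
        induction i using fin_cases2 <;> induction j using fin_cases2 <;>
          simp only [mt, of_apply, cons_val_zero, cons_val_succ, Matrix.add_apply, vecMulVec_apply,
            Pi.single_apply, Fin.succ_ne_zero, if_true, if_false, h0, Units.val_one] <;> simp)
      (by rw [vecMulVec_mul_vecMulVec]; simp [h0])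
      (by rw [mul_assoc, mul_vecMulVec, vecMulVec_mul_vecMulVec]
          have : k.1 *ᵥ Pi.single 0 1 = fun i => k.1 i 0 := by ext i; simp
          rw [this, hw]; simp)
    obtain ⟨j, hj⟩ : ∃ j, φ j ≠ 0 := by
      by_contra h; push Not at h; exact hφ (funext h)
    have hj1 := (F_cases _).resolve_left hj
    have c0 : ∀ i, i ≠ 0 → k.1 i 0 = 0 := fun i hi => by
      have := congrFun (congrFun this i) j
      rw [mul_vecMulVec, vecMulVec_mul] at this
      simpa [vecMulVec_apply, hi, hj1] using this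
    intro i
    split_ifs with hi
    · refine (F_cases _).resolve_left fun h0 => ?_
      have := det_eq_zero_of_column_eq_zero (A := k.1) 0 (fun l => by
        by_cases hl : l = 0
        · rw [hl, ← h0, hi]
        · exact c0 l hl)
      rw [k.2] at this; exact one_ne_zero this
    · exact c0 i hi
  · obtain ⟨u, hu, h0, hw⟩ := exists_perp hn (Fin.succ 0) (k.1 (Fin.succ 0))
    have := comm_of_odd hK (hQ ⟨u 0, 0, fun j => u j.succ.succ, 1⟩ rfl) hk
      (vecMulVec u (Pi.single (Fin.succ 0) 1)) (by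
        show mt _ _ _ _ = _
        rw [← mt_one]
        ext i j
        induction i using fin_cases2 <;> induction j using fin_cases2 <;>
          simp only [mt, of_apply, cons_val_zero, cons_val_succ, Matrix.add_apply, vecMulVec_apply,
            Pi.single_apply, Fin.succ_ne_zero, (Fin.succ_ne_zero _).symm, Fin.succ_inj, if_true,
            if_false, h0, Units.val_one] <;> simp)
      (by rw [vecMulVec_mul_vecMulVec, single_dotProduct, h0]; simp)
      (by rw [vecMulVec_mul, vecMulVec_mul_vecMulVec]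
          have : Pi.single (Fin.succ 0) 1 ᵥ* k.1 = k.1 (Fin.succ 0) := by
            ext i; rw [single_vecMul]; simp
          rw [this, dotProduct_comm, hw]; simp)
    obtain ⟨i, hi⟩ : ∃ j, u j ≠ 0 := by
      by_contra h; push Not at h; exact hu (funext h)
    have hi1 := (F_cases _).resolve_left hi
    have c0 : ∀ j, j ≠ Fin.succ 0 → k.1 (Fin.succ 0) j = 0 := fun j hj => by
      have := congrFun (congrFun this i) j
      rw [mul_vecMulVec, vecMulVec_mul, vecMulVec_apply, vecMulVec_apply, single_vecMul, hi1,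
        Pi.single_eq_of_ne hj] at this
      simpa using this.symm
    intro j
    split_ifs with hj
    · refine (F_cases _).resolve_left fun h0 => ?_
      have := det_eq_zero_of_row_eq_zero (A := k.1) (Fin.succ 0) (fun l => by
        by_cases hl : l = Fin.succ 0
        · rw [hl, ← h0, hj]
        · exact c0 l hl)
      rw [k.2] at this; exact one_ne_zero this
    · exact c0 j hj

/-- `GL_n(2) = SL_n(2)` -/
noncomputable def glsl (n : ℕ) : SpecialLinearGroup (Fin n) F ≃* L n :=
  MulEquiv.ofBijective Matrix.SpecialLinearGroup.toGL ⟨Matrix.SpecialLinearGroup.toGL_injective, fun k =>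
    ⟨⟨k.1, det_eq_one k.val_inv⟩, Units.ext rfl⟩⟩

end Tv
end H2
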